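import Cfsg.Agent.Sg.Fr

/-! The case where the subspaces `W(line)` are the lines themselves. -/

set_option autoImplicit false
open Module Submodule

namespace Cfsg.Agent.Sg
namespace Sp2
open Fr

variable {F V G : Type*} [Field F] [Fintype F] [AddCommGroup V] [Module F V] [Module.Finite F V]
  [Group G] [Finite G] {ρ : Representation F G V}

omit [Finite G] in
theorem exists_fix {p : ℕ} [Fact p.Prime] [CharP F p] {R : Subgroup G} (hR : IsPGroup p R)
    (E : Submodule F V) (hE : ∀ g ∈ R, ∀ v ∈ E, ρ g v ∈ E) (h0 : E ≠ ⊥) :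
    ∃ v ∈ E, v ≠ 0 ∧ v ∈ fixS ρ R := by
  haveI : Finite V := Module.finite_of_finite F
  letI : MulAction R E :=
    { smul := fun g v => ⟨ρ g.1 v.1, hE g.1 g.2 v.1 v.2⟩
      one_smul := fun v => Subtype.ext (by
        change ρ 1 v.1 = v.1
        rw [map_one]; rfl)
      mul_smul := fun g h v => Subtype.ext (app_mul g.1 h.1 v.1) }
  have h1 : p ∣ Nat.card E := by
    obtain ⟨n, -, hn⟩ := FiniteField.card F p
    rw [Module.natCard_eq_pow_finrank (K := F) (V := E), Nat.card_eq_fintype_card, hn]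
    refine dvd_pow (dvd_pow_self p n.ne_zero) fun e => h0 (Submodule.finrank_eq_zero.1 e)
  obtain ⟨b, hb, hb0⟩ := hR.exists_fixed_point_of_prime_dvd_card_of_fixed_point E h1 (a := 0)
    (fun g => Subtype.ext (map_zero (ρ g.1)))
  exact ⟨b.1, b.2, fun e => hb0 (Subtype.ext e.symm),
    fun g hg => congrArg Subtype.val (hb ⟨g, hg⟩)⟩

open scoped LinearAlgebra.Projectivization in
omit [Module.Finite F V] in
theorem eig_odd (hq : Odd (Fintype.card F)) {C : Submodule F V} (hC : Odd (finrank F C)) {g : G}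
    (hg : ∀ v ∈ C, ρ g v ∈ C) : ∃ j : ℕ, ∃ w ∈ C, w ≠ 0 ∧ ∃ μ : F, ρ (g ^ (2 * j + 1)) w = μ • w := by
  haveI : Fact (Nat.Prime 2) := ⟨Nat.prime_two⟩
  obtain ⟨a, m, ⟨j, rfl⟩, hm⟩ := Nat.exists_eq_two_pow_mul_odd (orderOf_pos g).ne'
  have hst := mem_stabS hg
  have hQ : IsPGroup 2 (Subgroup.zpowers (g ^ (2 * j + 1))) := by
    have h1 : orderOf (g ^ (2 * j + 1)) ∣ 2 ^ a := by
      refine orderOf_dvd_of_pow_eq_one ?_
      rw [← pow_mul, mul_comm, ← hm, pow_orderOf_eq_one]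
    obtain ⟨i, -, hi⟩ := (Nat.dvd_prime_pow Nat.prime_two).1 h1
    exact IsPGroup.of_card (n := i) (by rw [Nat.card_zpowers, hi])
  have hle : Subgroup.zpowers (g ^ (2 * j + 1)) ≤ stabS ρ C :=
    Subgroup.zpowers_le.2 (Subgroup.pow_mem _ hst _)
  letI : DistribMulAction (Subgroup.zpowers (g ^ (2 * j + 1))) C :=
    { smul := fun k v => ⟨ρ k.1 v.1, (hle k.2 v.1).1 v.2⟩
      one_smul := fun v => Subtype.ext (by
        change ρ 1 v.1 = v.1
        rw [map_one]; rfl)
      mul_smul := fun g h v => Subtype.ext (app_mul g.1 h.1 v.1)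
      smul_zero := fun k => Subtype.ext (map_zero (ρ k.1))
      smul_add := fun k u v => Subtype.ext (map_add (ρ k.1) u.1 v.1) }
  haveI : SMulCommClass (Subgroup.zpowers (g ^ (2 * j + 1))) F C :=
    ⟨fun k a v => Subtype.ext (map_smul (ρ k.1) a v.1)⟩
  have hodd : ¬ 2 ∣ Nat.card (ℙ F C) := by
    rw [Projectivization.card_of_finrank F C rfl, Nat.card_eq_fintype_card, ← even_iff_two_dvd,
      Nat.not_even_iff_odd, Finset.odd_sum_iff_odd_card_odd]
    rwa [Finset.filter_true_of_mem fun i _ => hq.pow, Finset.card_range]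
  obtain ⟨P, hP⟩ := hQ.nonempty_fixed_point_of_prime_not_dvd_card _ hodd
  induction P using Projectivization.ind with
  | h w hw =>
    have h1 := hP ⟨_, Subgroup.mem_zpowers _⟩
    rw [Projectivization.smul_mk, Projectivization.mk_eq_mk_iff'] at h1
    obtain ⟨μ, hμ⟩ := h1
    exact ⟨j, w.1, w.2, fun e => hw (Subtype.ext e), μ, (congrArg Subtype.val hμ).symm⟩

/-- the hypotheses, under the assumption that there is no central collineation -/
structure Hy (ρ : Representation F G V) (x y : V) (C : Submodule F V) (z : G) (r : ℕ) : Prop where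
  hi : Function.Injective ρ
  sc : Sc ρ
  t2 : T2 ρ
  xy : Ind2 F x y
  fr : FRD ρ (span F {x, y}) C z r
  ncc : ¬ CC ρ
  c0 : C ≠ ⊥

variable {x y : V} {C : Submodule F V} {z : G} {r : ℕ}

omit [Fintype F] [Module.Finite F V] [Finite G] in
theorem Hy.triv (h : Hy ρ x y C z r) {g : G} (hx : ρ g x = x) (hC : ∀ v ∈ C, ρ g v = v) : g = 1 := by
  have hy : y ∉ span F {x} ⊔ C := by
    intro hy
    obtain ⟨u, hu, w, hw, e⟩ := Submodule.mem_sup.1 hy
    have h1 : w ∈ span F {x, y} := by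
      rw [eq_sub_of_add_eq' e]
      exact sub_mem (subset_span (by simp)) (span_mono (by simp) hu)
    have h2 : w = 0 := (disjoint_def.1 h.fr.compl.disjoint) w h1 hw
    rw [h2, add_zero] at e
    exact h.xy.2 (e ▸ hu)
  obtain ⟨f, hf, hle⟩ := Submodule.exists_le_ker_of_notMem hy
  have key : ∀ v, ρ g v = (1 : F) • v + f v • ((f y)⁻¹ • (ρ g y - y)) := by
    intro v
    obtain ⟨u, hu, w, hw, rfl⟩ := Submodule.mem_sup.1 (h.fr.compl.sup_eq_top ▸ Submodule.mem_top (x := v))
    obtain ⟨s, t, rfl⟩ := mem_span_pair.1 hu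
    have e1 : f x = 0 := hle (mem_sup_left (mem_span_singleton_self x))
    have e2 : f w = 0 := hle (mem_sup_right hw)
    simp only [map_add, map_smul, hx, hC w hw, e1, e2, smul_eq_mul, mul_zero, zero_add, add_zero,
      one_smul, smul_smul, mul_assoc, mul_inv_cancel₀ hf, mul_one, smul_sub]
    abel
  apply h.hi
  ext v
  by_contra hne
  refine h.ncc ⟨g, 1, _, f, fun e => hne ?_, fun e => hf (by rw [e]; rfl), key⟩
  rw [key v, e, map_one]
  simp

/-- the normaliser of the configuration, fixing `x` -/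
def NX (ρ : Representation F G V) (x y : V) (C : Submodule F V) (z : G) : Subgroup G :=
  ptS ρ (span F {x}) ⊓ stabS ρ (span F {x, y}) ⊓ stabS ρ C ⊓
    Subgroup.normalizer (Subgroup.zpowers z : Set G)

omit [Fintype F] [Module.Finite F V] [Finite G] in
theorem NX.hx {g : G} (hg : g ∈ NX ρ x y C z) : ρ g x = x := hg.1.1.1 x (mem_span_singleton_self x)

omit [Fintype F] [Module.Finite F V] [Finite G] in
theorem NX.conj {g : G} (hg : g ∈ NX ρ x y C z) : g * z * g⁻¹ ∈ Subgroup.zpowers z :=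
  (Subgroup.mem_normalizer_iff.1 hg.2 z).1 (Subgroup.mem_zpowers z)

omit [Fintype F] [Module.Finite F V] in
theorem Hy.mv (h : Hy ρ x y C z r) {g : G} (hx : ρ g x = x) (hy : ρ g y ∈ span F {x, y}) :
    ∃ g' ∈ NX ρ x y C z, ∀ v ∈ span F {x, y}, ρ g' v = ρ g v := by
  have h1 : ∀ v ∈ span F {x, y}, ρ g v ∈ span F {x, y} := by
    intro v hv
    obtain ⟨s, t, rfl⟩ := mem_span_pair.1 hv
    rw [map_add, map_smul, map_smul, hx]
    exact add_mem (smul_mem _ _ (subset_span (by simp))) (smul_mem _ _ hy)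
  obtain ⟨g', e1, e2, e3⟩ := h.fr.frat g h1
  refine ⟨g', ⟨⟨⟨fun v hv => ?_, mem_stabS fun v hv => ?_⟩, mem_stabS e2⟩, ?_⟩, e1⟩
  · obtain ⟨a, rfl⟩ := mem_span_singleton.1 hv
    rw [map_smul, e1 x (subset_span (by simp)), hx]
  · rw [e1 v hv]; exact h1 v hv
  · refine Subgroup.mem_normalizer_fintype ?_
    rintro _ ⟨i, rfl⟩
    rw [← conj_zpow]
    exact Subgroup.zpow_mem _ e3 i

theorem Hy.pel (h : Hy ρ x y C z r) {p : ℕ} [Fact p.Prime] [CharP F p] {m : G}
    (hm : m ∈ NX ρ x y C z) (hc : Commute m z) (hp : m ^ p = 1) : m = 1 := by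
  have hR : IsPGroup p (Subgroup.zpowers m) := by
    have h1 : orderOf m ∣ p ^ 1 := by rw [pow_one]; exact orderOf_dvd_of_pow_eq_one hp
    obtain ⟨i, -, hi⟩ := (Nat.dvd_prime_pow (Fact.out : p.Prime)).1 h1
    exact IsPGroup.of_card (n := i) (by rw [Nat.card_zpowers, hi])
  have hle : Subgroup.zpowers m ≤ NX ρ x y C z := Subgroup.zpowers_le.2 hm
  obtain ⟨v, hv, hv0, hvf⟩ := exists_fix hR C (fun g hg v hv => ((hle hg).1.2 v).1 hv) h.c0
  rcases h.fr.irr (C ⊓ LinearMap.ker (ρ m - 1)) inf_le_left (fun u hu => ⟨h.fr.inv u hu.1, by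
      have h1 : ρ m u = u := by simpa [sub_eq_zero] using hu.2
      simp only [SetLike.mem_coe, LinearMap.mem_ker, LinearMap.sub_apply, Module.End.one_apply]
      rw [← app_mul, hc.eq, app_mul, h1, sub_self]⟩) with e | e
  · exact absurd (e.le ⟨hv, by simp [hvf m (Subgroup.mem_zpowers m)]⟩) hv0
  · exact h.triv (NX.hx hm) fun u hu => by simpa [sub_eq_zero] using (e.ge hu).2

omit [Fintype F] [Module.Finite F V] [Finite G] in
theorem pow_tv {g : G} {s : F} (hx : ρ g x = x) (hy : ρ g y = y + s • x) (k : ℕ) :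
    ρ (g ^ k) y = y + ((k : F) * s) • x := by
  induction k with
  | zero => simp
  | succ k ih =>
    rw [pow_succ', app_mul, ih, map_add, map_smul, hx, hy, add_assoc, ← add_smul]
    congr 2
    push_cast; ring

omit [Fintype F] [Module.Finite F V] [Finite G] in
theorem ord_tv {g : G} {s : F} (h0 : x ≠ 0) (hx : ρ g x = x) (hy : ρ g y = y + s • x) :
    (orderOf g : F) * s = 0 := by
  have := pow_tv hx hy (orderOf g)
  rw [pow_orderOf_eq_one, map_one, Module.End.one_apply, left_eq_add] at this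
  exact (smul_eq_zero.1 this).resolve_right h0

theorem Hy.kk (h : Hy ρ x y C z r) {m : G} (hm : m ∈ NX ρ x y C z) (hc : Commute m z) {s : F}
    (hy : ρ m y = y + s • x) : s = 0 := by
  obtain ⟨p, hp⟩ := CharP.exists F
  haveI : Fact p.Prime := ⟨CharP.char_is_prime F p⟩
  refine (mul_eq_zero.1 (ord_tv h.xy.1 (NX.hx hm) hy)).resolve_left fun e => ?_
  obtain ⟨k, hk⟩ := (CharP.cast_eq_zero_iff F p _).1 e
  have h1 := h.pel (p := p) (Subgroup.pow_mem _ hm k) (hc.pow_left k)
    (by rw [← pow_mul, mul_comm, ← hk, pow_orderOf_eq_one])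
  have h2 := orderOf_pos m
  have h3 := Nat.le_of_dvd (Nat.pos_of_ne_zero (by rintro rfl; omega)) (orderOf_dvd_of_pow_eq_one h1)
  have h4 := (Fact.out : p.Prime).two_le
  nlinarith

theorem Hy.comm (h : Hy ρ x y C z r) {g k : G} (hg : g ∈ NX ρ x y C z) (hk : k ∈ NX ρ x y C z) :
    ∀ v ∈ span F {x, y}, ρ g (ρ k v) = ρ k (ρ g v) := by
  have hy : y ∈ span F {x, y} := subset_span (by simp)
  obtain ⟨s, t, e⟩ := mem_span_pair.1 ((hg.1.1.2 y).1 hy)
  obtain ⟨s', t', e'⟩ := mem_span_pair.1 ((hk.1.1.2 y).1 hy)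
  have hkg := (NX ρ x y C z).mul_mem hk hg
  have hm := (NX ρ x y C z).mul_mem ((NX ρ x y C z).inv_mem hkg) ((NX ρ x y C z).mul_mem hg hk)
  have hc : Commute ((k * g)⁻¹ * (g * k)) z := by
    obtain ⟨i, hi⟩ := NX.conj hg
    obtain ⟨j, hj⟩ := NX.conj hk
    simp only at hi hj
    have h1 : g * k * z * (g * k)⁻¹ = z ^ (i * j) := by
      calc g * k * z * (g * k)⁻¹ = g * (k * z * k⁻¹) * g⁻¹ := by group
        _ = z ^ (i * j) := by rw [← hj, ← conj_zpow, ← hi, zpow_mul]
    have h2 : k * g * z * (k * g)⁻¹ = z ^ (i * j) := by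
      calc k * g * z * (k * g)⁻¹ = k * (g * z * g⁻¹) * k⁻¹ := by group
        _ = z ^ (i * j) := by rw [← hi, ← conj_zpow, ← hj, mul_comm i j, zpow_mul]
    change _ * _ = _ * _
    calc (k * g)⁻¹ * (g * k) * z = (k * g)⁻¹ * (g * k * z * (g * k)⁻¹) * (g * k) := by group
      _ = (k * g)⁻¹ * (k * g * z * (k * g)⁻¹) * (g * k) := by rw [h1, h2]
      _ = _ := by group
  have h1 : ρ (g * k) y = ρ (k * g) y + (s' + t' * s - s - t * s') • x := by
    rw [app_mul, app_mul, ← e, ← e']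
    simp only [map_add, map_smul, NX.hx hg, NX.hx hk, ← e, ← e']
    module
  have h2 := h.kk hm hc (s := s' + t' * s - s - t * s') (by
    rw [app_mul, h1, map_add, app_inv, map_smul, NX.hx ((NX ρ x y C z).inv_mem hkg)])
  rw [h2, zero_smul, add_zero, app_mul, app_mul] at h1
  intro v hv
  obtain ⟨a, b, rfl⟩ := mem_span_pair.1 hv
  simp only [map_add, map_smul, NX.hx hg, NX.hx hk, h1]

omit [Fintype F] [Module.Finite F V] [Finite G] in
theorem ind2_add (h : Ind2 F x y) (s : F) : Ind2 F x (y + s • x) :=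
  ⟨h.1, fun e => h.2 (by
    simpa using sub_mem e (smul_mem _ s (mem_span_singleton_self x)))⟩

theorem Hy.eig0 (h : Hy ρ x y C z r) {g : G} (hx : ρ g x = x) {t : F} (hy : ρ g y = t • y) :
    t = 1 := by
  have hy0 : y ∈ span F {x, y} := subset_span (by simp)
  have hx0 : x ∈ span F {x, y} := subset_span (by simp)
  obtain ⟨g', hg', e⟩ := h.mv hx (hy ▸ smul_mem _ _ hy0)
  obtain ⟨k, k1, k2⟩ := h.t2 x y x _ h.xy (ind2_add h.xy 1)
  obtain ⟨a, ha⟩ := mem_span_singleton.1 k2
  obtain ⟨k', hk', e'⟩ := h.mv k1 (ha ▸ smul_mem _ _ (add_mem hy0 (smul_mem _ _ hx0)))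
  have h1 := h.comm hg' hk' y hy0
  rw [e y hy0, hy, map_smul, e' y hy0, ← ha, map_smul, map_add, map_smul, NX.hx hg', e y hy0, hy] at h1
  have h2 : (a * (t - 1)) • x = 0 := by
    rw [← sub_eq_zero.2 h1.symm]; module
  have ha0 : a ≠ 0 := by
    rintro rfl
    apply h.xy.2
    rw [← app_inv (ρ := ρ) k y, ← ha]
    simp
  exact sub_eq_zero.1 ((mul_eq_zero.1 ((smul_eq_zero.1 h2).resolve_right h.xy.1)).resolve_left ha0)

theorem Hy.eig (h : Hy ρ x y C z r) {g : G} {u w : V} (huw : Ind2 F u w) {α β : F}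
    (hu : ρ g u = α • u) (hw : ρ g w = β • w) : α = β := by
  obtain ⟨k, k1, k2⟩ := h.t2 u w x y huw h.xy
  obtain ⟨a, ha⟩ := mem_span_singleton.1 k2
  have ha0 : a ≠ 0 := by
    rintro rfl
    apply huw.2
    rw [← app_inv (ρ := ρ) k w, ← ha]
    simp
  have hα : α ≠ 0 := by
    rintro rfl
    apply huw.1
    rw [← app_inv (ρ := ρ) g u, hu]
    simp
  obtain ⟨σ, hσ⟩ := h.sc α⁻¹ (inv_ne_zero hα)
  have h1 : ρ k⁻¹ y = a⁻¹ • w := by
    rw [← app_inv (ρ := ρ) k w, ← ha, map_smul, smul_smul, inv_mul_cancel₀ ha0, one_smul]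
  have := h.eig0 (g := σ * (k * (g * k⁻¹))) (t := α⁻¹ * β)
    (by rw [app_mul, app_mul, app_mul, ← k1, app_inv, hu, map_smul, hσ, smul_smul,
      inv_mul_cancel₀ hα, one_smul])
    (by rw [app_mul, app_mul, app_mul, h1, hσ]
        simp only [map_smul, hw, ← ha, smul_smul]
        congr 1
        field_simp)
  field_simp at this
  exact this.symm

theorem Hy.odd (h : Hy ρ x y C z r) (h2 : (2 : F) ≠ 0) (hq : Odd (Fintype.card F))
    (hC : Odd (finrank F C)) : False := by
  have hy0 : y ∈ span F {x, y} := subset_span (by simp)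
  have hx0 : x ∈ span F {x, y} := subset_span (by simp)
  have hyx : Ind2 F y x := by
    refine ⟨fun e => h.xy.2 (e ▸ zero_mem _), fun e => h.xy.2 ?_⟩
    obtain ⟨a, ha⟩ := mem_span_singleton.1 e
    have ha0 : a ≠ 0 := by
      rintro rfl
      exact h.xy.1 (by simpa using ha.symm)
    exact mem_span_singleton.2 ⟨a⁻¹, by rw [← ha, smul_smul, inv_mul_cancel₀ ha0, one_smul]⟩
  obtain ⟨g0, g1, g2⟩ := h.t2 x y y x h.xy hyx
  obtain ⟨a, ha⟩ := mem_span_singleton.1 g2
  obtain ⟨g, e1, e2, -⟩ := h.fr.frat g0 (fun v hv => by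
    obtain ⟨s, t, rfl⟩ := mem_span_pair.1 hv
    rw [map_add, map_smul, map_smul, g1, ← ha]
    exact add_mem (smul_mem _ _ hy0) (smul_mem _ _ (smul_mem _ _ hx0)))
  have hx : ρ g x = y := by rw [e1 x hx0, g1]
  have hy : ρ g y = a • x := by rw [e1 y hy0, ha]
  have ha0 : a ≠ 0 := by
    rintro rfl
    apply hyx.1
    rw [← app_inv (ρ := ρ) g y, hy]
    simp
  obtain ⟨j, w, hw, hw0, μ, hμ⟩ := eig_odd hq hC e2
  have hp : ∀ i : ℕ, ρ (g ^ (2 * i)) x = a ^ i • x ∧ ρ (g ^ (2 * i)) y = a ^ i • y := by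
    intro i
    induction i with
    | zero => simp
    | succ i ih =>
      rw [show 2 * (i + 1) = 2 * i + 1 + 1 by ring, pow_succ', pow_succ', app_mul, app_mul, app_mul,
        app_mul, ih.1, ih.2]
      simp only [map_smul, hx, hy, smul_smul, pow_succ, and_self]
  have k1 : ρ (g ^ (2 * j + 1)) x = a ^ j • y := by
    rw [pow_succ', app_mul, (hp j).1, map_smul, hx]
  have k2 : ρ (g ^ (2 * j + 1)) y = (a ^ j * a) • x := by
    rw [pow_succ', app_mul, (hp j).2, map_smul, hy, smul_smul]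
  have hind : ∀ u ∈ span F {x, y}, u ≠ 0 → Ind2 F u w := by
    intro u hu hu0
    refine ⟨hu0, fun e => hw0 ((disjoint_def.1 h.fr.compl.disjoint) w ?_ hw)⟩
    exact (span_singleton_le_iff_mem u _).2 hu e
  have l1 := h.eig (g := g ^ (2 * j + 1) * g ^ (2 * j + 1)) (hind x hx0 h.xy.1)
    (α := a ^ j * (a ^ j * a)) (β := μ * μ)
    (by rw [app_mul, k1, map_smul, k2, smul_smul]) (by rw [app_mul, hμ, map_smul, hμ, smul_smul])
  have l2 := h.eig (g := g ^ (2 * j + 1)) (u := (-μ) • x + a ^ j • y)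
    (hind _ (add_mem (smul_mem _ _ hx0) (smul_mem _ _ hy0)) (fun e => h.xy.2 (by
      have e' : y = ((a ^ j)⁻¹ * μ) • x := by
        have e1 : a ^ j • y = μ • x := by
          rw [← sub_eq_zero, ← e]; module
        rw [mul_smul, ← e1, smul_smul, inv_mul_cancel₀ (pow_ne_zero _ ha0), one_smul]
      rw [e']
      exact smul_mem _ _ (mem_span_singleton_self x)))) (α := -μ) (β := μ)
    (by rw [map_add, map_smul, map_smul, k1, k2, smul_smul, smul_smul, l1]; module) hμ
  have l3 : μ = 0 := by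
    have : 2 * μ = 0 := by linear_combination -l2
    exact (mul_eq_zero.1 this).resolve_left h2
  rw [l3, mul_zero] at l1
  exact mul_ne_zero (pow_ne_zero _ ha0) (mul_ne_zero (pow_ne_zero _ ha0) ha0) l1

theorem Hy.even (h : Hy ρ x y C z r) (hr : r.Prime) (h0 : (r : F) ≠ 0) [CharP F 2]
    (hC : Odd (finrank F C)) : False := by
  haveI : Fact (Nat.Prime 2) := ⟨Nat.prime_two⟩
  have hy0 : y ∈ span F {x, y} := subset_span (by simp)
  have hx0 : x ∈ span F {x, y} := subset_span (by simp)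
  obtain ⟨k, k1, k2⟩ := h.t2 x y x _ h.xy (ind2_add h.xy 1)
  obtain ⟨a, ha⟩ := mem_span_singleton.1 k2
  have ha1 : a = 1 := by
    by_contra ha1
    have h1 : a - 1 ≠ 0 := sub_ne_zero.2 ha1
    refine ha1 (h.eig (g := k) (ind2_add h.xy (a / (a - 1))) (α := 1) (β := a) (by rw [k1, one_smul]) ?_).symm
    rw [map_add, map_smul, k1, ← ha]
    have : a * (a / (a - 1)) = a + a / (a - 1) := by field_simp; ring
    rw [smul_add, smul_add, smul_smul, smul_smul, this]
    module
  rw [ha1, one_smul] at ha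
  obtain ⟨g, hg, e⟩ := h.mv k1 (ha ▸ add_mem hy0 (smul_mem _ _ hx0))
  have h1 := ord_tv h.xy.1 (NX.hx hg) (s := 1) (y := y) (by rw [e y hy0, ← ha])
  rw [mul_one] at h1
  obtain ⟨m, hm⟩ := (CharP.cast_eq_zero_iff F 2 _).1 h1
  have ht := Subgroup.pow_mem _ hg m
  have ht2 : (g ^ m) ^ 2 = 1 := by rw [← pow_mul, mul_comm, ← hm, pow_orderOf_eq_one]
  have ht1 : g ^ m ≠ 1 := by
    intro e1
    have h2 := orderOf_pos g
    have h3 := Nat.le_of_dvd (Nat.pos_of_ne_zero (by rintro rfl; omega)) (orderOf_dvd_of_pow_eq_one e1)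
    omega
  generalize g ^ m = t at ht ht2 ht1
  have htt : t * t = 1 := by rw [← pow_two, ht2]
  have hti : t⁻¹ = t := inv_eq_of_mul_eq_one_right htt
  obtain ⟨i, hi⟩ := NX.conj ht
  simp only at hi
  have h2 : z ^ (i * i) = z := by
    calc z ^ (i * i) = t * (t * z * t⁻¹) * t⁻¹ := by
          rw [zpow_mul, hi, conj_zpow, hi]
      _ = (t * t) * z * (t * t)⁻¹ := by group
      _ = z := by rw [htt]; group
  have h3 : (r : ℤ) ∣ (i - 1) * (i + 1) := by
    rw [← h.fr.ord, orderOf_dvd_iff_zpow_eq_one, show (i - 1) * (i + 1) = i * i - 1 by ring, zpow_sub, h2]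
    simp
  rcases (Nat.prime_iff_prime_int.1 hr).dvd_or_dvd h3 with h4 | h4
  · rw [← h.fr.ord, orderOf_dvd_iff_zpow_eq_one, zpow_sub, hi, zpow_one] at h4
    refine ht1 (h.pel (p := 2) ht ?_ ht2)
    change t * z = z * t
    calc t * z = (t * z * t⁻¹ * z⁻¹) * z * t := by group
      _ = z * t := by rw [h4, one_mul]
  · rw [← h.fr.ord, orderOf_dvd_iff_zpow_eq_one, zpow_add, hi, zpow_one] at h4
    have h5 : t * z = z⁻¹ * t := by
      calc t * z = (t * z * t⁻¹ * z) * z⁻¹ * t := by group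
        _ = z⁻¹ * t := by rw [h4, one_mul]
    let φ : V →ₗ[F] V := ρ t - 1
    let E : Submodule F V := C ⊓ LinearMap.ker φ
    have hE : ∀ v, v ∈ E ↔ v ∈ C ∧ ρ t v = v := fun v => by
      simp [E, φ, sub_eq_zero]
    have h6 : finrank F C ≤ 2 * finrank F E := by
      have r1 := LinearMap.finrank_range_add_finrank_ker (φ.domRestrict C)
      have r2 : finrank F (LinearMap.range (φ.domRestrict C)) ≤ finrank F E := by
        refine Submodule.finrank_mono ?_
        rintro _ ⟨v, rfl⟩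
        refine (hE _).2 ⟨sub_mem ((ht.1.2 v.1).1 v.2) v.2, ?_⟩
        change ρ t (ρ t v.1 - v.1) = ρ t v.1 - v.1
        rw [map_sub, ← app_mul, htt, map_one, Module.End.one_apply, ← neg_sub, ← neg_one_smul F,
          CharTwo.neg_eq, one_smul]
      have r3 : finrank F (LinearMap.ker (φ.domRestrict C)) = finrank F E := by
        rw [LinearMap.ker_domRestrict, ← Submodule.finrank_map_subtype_eq, Submodule.map_comap_subtype]
      omega
    have hzi : Function.Injective (ρ z) := fun u v e => by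
      rw [← app_inv (ρ := ρ) z u, e, app_inv]
    have h7 : finrank F (E.map (ρ z)) = finrank F E :=
      (Submodule.equivMapOfInjective _ hzi E).finrank_eq.symm
    have h8 : E ⊓ E.map (ρ z) = ⊥ := by
      rw [eq_bot_iff]
      rintro _ ⟨hv, u, hu, rfl⟩
      obtain ⟨hu1, hu2⟩ := (hE u).1 hu
      have e1 := ((hE _).1 hv).2
      rw [← app_mul, h5, app_mul, hu2] at e1
      have e2 : ρ (z ^ 2) u = u := by
        rw [pow_two, app_mul, ← e1, app_inv']
      have e3 : ∀ j : ℕ, ρ ((z ^ 2) ^ j) u = u := by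
        intro j
        induction j with
        | zero => simp
        | succ j ih => rw [pow_succ, app_mul, e2, ih]
      obtain ⟨j, hj⟩ : Odd r := hr.odd_of_ne_two (by
        rintro rfl
        exact h0 (CharP.cast_eq_zero F 2))
      have e4 := e3 (j + 1)
      rw [← pow_mul, show 2 * (j + 1) = r + 1 by omega, pow_succ, ← h.fr.ord, pow_orderOf_eq_one,
        one_mul] at e4
      have e5 : u = 0 := (disjoint_def.1 h.fr.compl.disjoint) u ((h.fr.fix u).1 e4) hu1
      rw [e5, map_zero]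
      exact zero_mem _
    have h9 := Submodule.finrank_sup_add_finrank_inf_eq E (E.map (ρ z))
    have h10 : finrank F (E ⊔ E.map (ρ z) : Submodule F V) ≤ finrank F C := by
      refine Submodule.finrank_mono (sup_le inf_le_left ?_)
      rintro _ ⟨u, hu, rfl⟩
      exact h.fr.inv u hu.1
    rw [h8, finrank_bot, h7] at h9
    obtain ⟨j, hj⟩ := hC
    omega

end Sp2

open Fr Sp2

variable {F V V' G : Type*} [Field F] [Fintype F] [AddCommGroup V] [Module F V] [Module.Finite F V]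
  [AddCommGroup V'] [Module F V'] [Group G] [Finite G]
  {ρ : Representation F G V} {ρ' : Representation F G V'} {B : V →ₗ[F] V' →ₗ[F] F}

theorem sp2 (h : Ctx ρ ρ' B) (hi : Function.Injective ρ) (h2 : T2 ρ) {c : ℕ}
    {W : V → V → Submodule F V} (hW : WS ρ c W) (hodd : Odd (finrank F V)) {r : ℕ} (hr : r.Prime)
    (hq : IsPrimitiveRoot (Fintype.card F : ZMod r) c) {x y : V} (hxy : Ind2 F x y)
    {C : Submodule F V} {z : G} (hz : FRD ρ (W x y) C z r) (hk : finrank F V = c + 2) : CC ρ := by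
  by_contra hn
  have h1 := hW.rank x y hxy
  have hc := hW.c_pos
  have hL : span F {x, y} = W x y := by
    refine Submodule.eq_of_le_of_finrank_le ?_ (by rw [finrank_pair hxy]; omega)
    rw [span_le]
    rintro v (rfl | rfl)
    · exact hW.left _ _ hxy
    · exact hW.right _ _ hxy
  have hC : finrank F C = c := by
    have := Submodule.finrank_add_eq_of_isCompl hz.compl
    omega
  have hCo : Odd (finrank F C) := by
    obtain ⟨j, hj⟩ := hodd
    exact ⟨j - 1, by omega⟩
  have H : Hy ρ x y C z r := ⟨hi, h.sc, h2, hxy, hL ▸ hz, hn, by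
    rintro rfl
    rw [finrank_bot] at hC
    omega⟩
  obtain ⟨p, hp⟩ := CharP.exists F
  obtain ⟨n, hpp, hn'⟩ := FiniteField.card F p
  by_cases hp2 : p = 2
  · subst hp2
    exact H.even hr (cast_ne hr hq hc) hCo
  · refine H.odd (fun e => hp2 ?_) (hn' ▸ (hpp.odd_of_ne_two hp2).pow) hCo
    exact (Nat.prime_dvd_prime_iff_eq hpp Nat.prime_two).1
      ((CharP.cast_eq_zero_iff F p 2).1 (by exact_mod_cast e))

end Cfsg.Agent.Sg
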