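import Mathlib

set_option autoImplicit false
open Module Submodule

namespace Cfsg.Agent.Sg

variable {F V V' G : Type*} [Field F] [AddCommGroup V] [Module F V] [AddCommGroup V'] [Module F V']
  [Group G]

/-- `x`, `y` independent. -/
def Ind2 (F : Type*) {V : Type*} [Field F] [AddCommGroup V] [Module F V] (x y : V) : Prop :=
  x ≠ 0 ∧ y ∉ span F {x}

/-- all scalars are induced -/
def Sc (ρ : Representation F G V) : Prop := ∀ a : F, a ≠ 0 → ∃ g, ∀ v, ρ g v = a • v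

/-- two-transitive on points -/
def T2 (ρ : Representation F G V) : Prop :=
  ∀ x y x' y', Ind2 F x y → Ind2 F x' y' → ∃ g, ρ g x = x' ∧ ρ g y ∈ span F {y'}

/-- there is a central collineation (elation or homology) -/
def CC (ρ : Representation F G V) : Prop :=
  ∃ (g : G) (a : F) (x : V) (f : V →ₗ[F] F), x ≠ 0 ∧ f ≠ 0 ∧ ∀ v, ρ g v = a • v + f v • x

/-- a space and its dual -/
structure Ctx (ρ : Representation F G V) (ρ' : Representation F G V')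
    (B : V →ₗ[F] V' →ₗ[F] F) : Prop where
  perf : B.IsPerfPair
  inv : ∀ g x ξ, B (ρ g x) (ρ' g ξ) = B x ξ
  sc : Sc ρ
  sc' : Sc ρ'

theorem Ctx.flip {ρ : Representation F G V} {ρ' : Representation F G V'}
    {B : V →ₗ[F] V' →ₗ[F] F} (h : Ctx ρ ρ' B) : Ctx ρ' ρ B.flip :=
  ⟨by haveI := h.perf; infer_instance, fun g ξ x => h.inv g x ξ, h.sc', h.sc⟩

/-- transitive on antiflags -/
def AT (ρ : Representation F G V) (ρ' : Representation F G V') (B : V →ₗ[F] V' →ₗ[F] F) : Prop :=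
  ∀ y ξ y' ξ', B y ξ = 1 → B y' ξ' = 1 → ∃ g, ρ g y = y' ∧ ρ' g ξ = ξ'

/-- transitive on (antiflag, point of the hyperplane) -/
def F3 (ρ : Representation F G V) (ρ' : Representation F G V') (B : V →ₗ[F] V' →ₗ[F] F) : Prop :=
  ∀ y ξ x y' ξ' x', B y ξ = 1 → B x ξ = 0 → x ≠ 0 → B y' ξ' = 1 → B x' ξ' = 0 → x' ≠ 0 →
    ∃ g, ρ g y = y' ∧ ρ' g ξ = ξ' ∧ ρ g x ∈ span F {x'}

/-- the stabiliser of every plane is transitive on its (point, line) flags -/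
def PT (ρ : Representation F G V) : Prop :=
  ∀ π : Submodule F V, finrank F π = 3 → ∀ x ∈ π, ∀ y ∈ π, ∀ x' ∈ π, ∀ y' ∈ π,
    Ind2 F x y → Ind2 F x' y' →
      ∃ g, π.map (ρ g) = π ∧ ρ g x = x' ∧ ρ g y ∈ span F {x', y'}

/-- the structure of an antiflag-transitive group on `U` (dual `U'`) -/
structure AS (ρ : Representation F G V) (ρ' : Representation F G V') (B : V →ₗ[F] V' →ₗ[F] F)
    (c : ℕ) (W : V → Submodule F V) (T : V' → Submodule F V) : Prop where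
  c_pos : 1 ≤ c
  self : ∀ u, u ∈ W u
  rank : ∀ u, u ≠ 0 → finrank F (W u) + c = finrank F V
  equi : ∀ g u, u ≠ 0 → W (ρ g u) = (W u).map (ρ g)
  smul : ∀ (a : F) u, a ≠ 0 → W (a • u) = W u
  symm : ∀ u v, u ≠ 0 → v ≠ 0 → v ∈ W u → u ∈ W v
  trans : ∀ u z z', u ≠ 0 → z ∉ W u → z' ∉ W u → ∃ g, ρ g u ∈ span F {u} ∧ ρ g z = z'
  memT : ∀ ξ u, ξ ≠ 0 → (u ∈ T ξ ↔ u = 0 ∨ ∀ w ∈ W u, B w ξ = 0)
  rankT : ∀ ξ, ξ ≠ 0 → finrank F (T ξ) = c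
  transIn : ∀ ξ u u', ξ ≠ 0 → u ∈ T ξ → u' ∈ T ξ → u ≠ 0 → u' ≠ 0 →
    ∃ g, ρ' g ξ ∈ span F {ξ} ∧ ρ g u = u'
  minT : ∀ ξ, ξ ≠ 0 → ∀ E : Submodule F V, E ≠ ⊥ →
    (∀ g, ρ' g ξ ∈ span F {ξ} → ∀ v ∈ E, ρ g v ∈ E) → T ξ ≤ E
  transOut : ∀ ξ η η', ξ ≠ 0 → (∃ u ∈ T ξ, B u η ≠ 0) → (∃ u ∈ T ξ, B u η' ≠ 0) →
    ∃ g, ρ' g ξ ∈ span F {ξ} ∧ ρ' g η = η'
  symmT : ∀ ξ η, ξ ≠ 0 → η ≠ 0 → (∀ u ∈ T ξ, B u η = 0) → ∀ u ∈ T η, B u ξ = 0

/-- the subspaces `W(line)` of a two-transitive group -/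
structure WS (ρ : Representation F G V) (c : ℕ) (W : V → V → Submodule F V) : Prop where
  c_pos : 1 ≤ c
  left : ∀ x y, Ind2 F x y → x ∈ W x y
  right : ∀ x y, Ind2 F x y → y ∈ W x y
  rank : ∀ x y, Ind2 F x y → finrank F (W x y) + c = finrank F V
  congr : ∀ x y x' y', Ind2 F x y → Ind2 F x' y' → x' ∈ span F {x, y} → y' ∈ span F {x, y} →
    W x' y' = W x y
  swap : ∀ x y z, Ind2 F x y → Ind2 F x z → z ∈ W x y → y ∈ W x z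
  equi : ∀ g x y, Ind2 F x y → W (ρ g x) (ρ g y) = (W x y).map (ρ g)
  trans : ∀ x y z z', Ind2 F x y → z ∉ W x y → z' ∉ W x y →
    ∃ g, ρ g x ∈ span F {x} ∧ ρ g y ∈ span F {x, y} ∧ ρ g z = z'

/-- the subspaces `T(point, hyperplane)` -/
structure TS (ρ : Representation F G V) (ρ' : Representation F G V') (B : V →ₗ[F] V' →ₗ[F] F)
    (c : ℕ) (W : V → V → Submodule F V) (T : V → V' → Submodule F V) : Prop where
  mem : ∀ x ξ y, x ≠ 0 → ξ ≠ 0 → B x ξ = 0 →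
    (y ∈ T x ξ ↔ y ∈ span F {x} ∨ ∀ w ∈ W x y, B w ξ = 0)
  rank : ∀ x ξ, x ≠ 0 → ξ ≠ 0 → B x ξ = 0 → finrank F (T x ξ) = c + 1
  transIn : ∀ x ξ y y', x ≠ 0 → ξ ≠ 0 → B x ξ = 0 → y ∈ T x ξ → y' ∈ T x ξ →
    y ∉ span F {x} → y' ∉ span F {x} →
      ∃ g, ρ g x ∈ span F {x} ∧ ρ' g ξ ∈ span F {ξ} ∧ ρ g y = y'
  minT : ∀ x ξ, x ≠ 0 → ξ ≠ 0 → B x ξ = 0 → ∀ E : Submodule F V, x ∈ E → E ≠ span F {x} →
    (∀ g, ρ g x ∈ span F {x} → ρ' g ξ ∈ span F {ξ} → ∀ v ∈ E, ρ g v ∈ E) → T x ξ ≤ E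
  transOut : ∀ x ξ η η', x ≠ 0 → ξ ≠ 0 → B x ξ = 0 → B x η = 0 → B x η' = 0 →
    (∃ u ∈ T x ξ, B u η ≠ 0) → (∃ u ∈ T x ξ, B u η' ≠ 0) →
      ∃ g, ρ g x ∈ span F {x} ∧ ρ' g ξ ∈ span F {ξ} ∧ ρ' g η = η'
  symm : ∀ x ξ η, x ≠ 0 → ξ ≠ 0 → η ≠ 0 → B x ξ = 0 → B x η = 0 →
    (∀ u ∈ T x ξ, B u η = 0) → ∀ u ∈ T x η, B u ξ = 0

/-- the `W(line)` form a Steiner system -/
def Spread (F : Type*) {V : Type*} [Field F] [AddCommGroup V] [Module F V]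
    (W : V → V → Submodule F V) : Prop :=
  ∀ x y x' y', Ind2 F x y → Ind2 F x' y' → x' ∈ W x y → y' ∈ W x y → W x' y' = W x y

/-- the norm-one multiplications of `K` are induced -/
def Sing (ρ : Representation F G V) {K : Type*} [Field K] [Algebra F K] (e : V ≃ₗ[F] K) : Prop :=
  ∀ s : K, Algebra.norm F s = 1 → ∃ g, ∀ v, e (ρ g v) = s * e v

/-- Frattini data: `z` of order `r` with fixed space `Bl`, irreducible on the complement `C` -/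
structure FRD (ρ : Representation F G V) (Bl C : Submodule F V) (z : G) (r : ℕ) : Prop where
  compl : IsCompl Bl C
  ord : orderOf z = r
  fix : ∀ v, ρ z v = v ↔ v ∈ Bl
  inv : ∀ v ∈ C, ρ z v ∈ C
  irr : ∀ E : Submodule F V, E ≤ C → (∀ v ∈ E, ρ z v ∈ E) → E = ⊥ ∨ E = C
  frat : ∀ g, (∀ v ∈ Bl, ρ g v ∈ Bl) → ∃ g', (∀ v ∈ Bl, ρ g' v = ρ g v) ∧ (∀ v ∈ C, ρ g' v ∈ C) ∧
    g' * z * g'⁻¹ ∈ Subgroup.zpowers z

/-- output of the character theory, for a permutation group with a subgroup `A` -/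
structure Star (G Ω : Type*) [Group G] [Fintype Ω] [MulAction G Ω] (A : Subgroup G) : Prop where
  const : ∀ f : Ω → Ω → ℂ, (∀ (g : G) x y, f (g • x) (g • y) = f x y) →
    ∀ s ∈ A, ∀ t ∈ A, s ≠ 1 → t ≠ 1 → ∑ x, f x (s • x) = ∑ x, f x (t • x)
  dim : ∀ E : Submodule ℂ (Ω → ℂ), (∀ (g : G), ∀ φ ∈ E, (fun x => φ (g • x)) ∈ E) →
    (∀ s ∈ A, ∀ φ ∈ E, ∀ x, φ (s • x) = φ x) ∨ Nat.card A ≤ finrank ℂ E + 1

/-- `Star` on vectors of `K`; `h` is the order of the image of the norm-one group -/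
structure StarV {K : Type*} [Field K] [Fintype K] [Algebra F K] (ρ : Representation F G K)
    (h : ℕ) : Prop where
  const : ∀ f : K → K → ℂ, (∀ g x y, f (ρ g x) (ρ g y) = f x y) →
    (∀ (a : F) x y, a ≠ 0 → f x (a • y) = f x y) → (∀ y, f 0 y = 0) →
    ∀ s t : K, Algebra.norm F s = 1 → Algebra.norm F t = 1 → s ∉ span F {(1 : K)} →
      t ∉ span F {(1 : K)} → ∑ x, f x (s * x) = ∑ x, f x (t * x)
  dim : ∀ E : Submodule ℂ (K → ℂ), (∀ g, ∀ φ ∈ E, (fun x => φ (ρ g x)) ∈ E) →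
    (∀ φ ∈ E, φ 0 = 0 ∧ ∀ (a : F) x, a ≠ 0 → φ (a • x) = φ x) →
    (∀ s : K, Algebra.norm F s = 1 → ∀ φ ∈ E, ∀ x, φ (s * x) = φ x) ∨ h ≤ finrank ℂ E + 1

/-- a function on nonzero vectors invariant under all conjugates of the norm-one group is constant -/
def G0T {K : Type*} [Field K] [Algebra F K] (ρ : Representation F G K) : Prop :=
  ∀ φ : K → ℂ, (∀ (a : F) x, a ≠ 0 → φ (a • x) = φ x) →
    (∀ g (s : K) x, Algebra.norm F s = 1 → φ (ρ g (s * x)) = φ (ρ g x)) →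
    ∀ x y, x ≠ 0 → y ≠ 0 → φ x = φ y

/-- `G` normalises the field -/
def NormK {K : Type*} [Field K] [Algebra F K] (ρ : Representation F G K) : Prop :=
  ∀ g (k : K), ∃ k' : K, ∀ v, ρ g (k * v) = k' * ρ g v

end Cfsg.Agent.Sg
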