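import Cfsg.Agent.Sg.Defs
import Cfsg.Agent.SG.CA
import Cfsg.Agent.H8.T2tv

/-! From a central collineation to the special linear group. -/

set_option autoImplicit false

open Module Submodule

namespace Cfsg.Agent.Sg

universe u

/-- The main theorem, as a hypothesis. -/
def MainH : Prop :=
  ∀ (F K G : Type u) [Field F] [Fintype F] [Field K] [Fintype K] [Algebra F K] [Group G]
    [Finite G] (ρ : Representation F G K) (ρ' : Representation F G (Dual F K))
    (B : K →ₗ[F] Dual F K →ₗ[F] F), Ctx ρ ρ' B → Function.Injective ρ → Function.Injective ρ' →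
    ∀ (e : K ≃ₗ[F] K) (e' : Dual F K ≃ₗ[F] K), (finrank F K).Prime → 13 ≤ finrank F K →
    Sing ρ e → Sing ρ' e' → T2 ρ → CC ρ

namespace Br

open Cfsg.Agent.H7

variable {F V : Type*} [Field F] [AddCommGroup V] [Module F V]

/-- The group together with the scalars. -/
def YY (X : Subgroup (V ≃ₗ[F] V)) : Subgroup (V ≃ₗ[F] V) where
  carrier := {g | ∃ x ∈ X, ∃ a : F, a ≠ 0 ∧ ∀ v, g v = a • x v}
  one_mem' := ⟨1, X.one_mem, 1, one_ne_zero, fun v => (one_smul _ _).symm⟩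
  mul_mem' := by
    rintro g h ⟨x, hx, a, ha, e⟩ ⟨y, hy, b, hb, e'⟩
    exact ⟨x * y, X.mul_mem hx hy, a * b, mul_ne_zero ha hb, fun v => by
      rw [LinearEquiv.mul_apply, LinearEquiv.mul_apply, e, e', map_smul, smul_smul]⟩
  inv_mem' := by
    rintro g ⟨x, hx, a, ha, e⟩
    refine ⟨x⁻¹, X.inv_mem hx, a⁻¹, inv_ne_zero ha, fun v => g.injective ?_⟩
    rw [e (a⁻¹ • _), map_smul, smul_smul, mul_inv_cancel₀ ha, one_smul]
    exact (g.apply_symm_apply v).trans (x.apply_symm_apply v).symm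

variable {X : Subgroup (V ≃ₗ[F] V)}

theorem le_YY : X ≤ YY X := fun x hx => ⟨x, hx, 1, one_ne_zero, fun _ => (one_smul _ _).symm⟩

theorem sc_YY {a : F} (ha : a ≠ 0) : ∃ g ∈ YY X, ∀ v, g v = a • v :=
  ⟨LinearEquiv.smulOfNeZero F V a ha, ⟨1, X.one_mem, a, ha, fun _ => rfl⟩, fun _ => rfl⟩

theorem tv_of [Fintype F] {φ : Dual F V} {x : V} (h0 : φ x = 0) (h : TV (YY X) φ x) :
    TV X (-φ) x := by
  obtain ⟨g, ⟨y, hy, a, ha, e⟩, hg⟩ := h
  have h1 : ∀ (m : ℕ) v, (g ^ m) v = a ^ m • (y ^ m) v := fun m => by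
    induction m with
    | zero => simp
    | succ m ih =>
      intro v
      rw [pow_succ', pow_succ', pow_succ', LinearEquiv.mul_apply, LinearEquiv.mul_apply, ih, e,
        map_smul, smul_smul]
  have h2 : ∀ (m : ℕ) v, (g ^ m) v = v + ((m : F) * φ v) • x := fun m => by
    induction m with
    | zero => simp
    | succ m ih =>
      intro v
      rw [pow_succ', LinearEquiv.mul_apply, ih, hg, map_add, map_smul, h0]
      push_cast
      simp only [smul_eq_mul, mul_zero, add_zero, add_mul, one_mul, add_smul, add_assoc]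
  refine ⟨y ^ (Fintype.card F - 1), X.pow_mem hy _, fun v => ?_⟩
  have h3 := h1 (Fintype.card F - 1) v
  rw [FiniteField.pow_card_sub_one_eq_one a ha, one_smul, h2,
    Nat.cast_sub Fintype.card_pos, FiniteField.cast_card_eq_zero] at h3
  rw [← h3]
  simp

theorem sl_of [Fintype F] [FiniteDimensional F V] (hn : 3 ≤ finrank F V)
    (ht : ∀ u w u' w' : V, u ≠ 0 → w ∉ F ∙ u → u' ≠ 0 → w' ∉ F ∙ u' →
      ∃ g ∈ X, ∃ a b : F, g u = a • u' ∧ g w = b • w')
    {g : V ≃ₗ[F] V} (hg : g ∈ YY X) {a : F} {x : V} {f : V →ₗ[F] F} (hx : x ≠ 0) (hf : f ≠ 0)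
    (e : ∀ v, g v = a • v + f v • x) : SLV F V ≤ X := by
  obtain ⟨y, hy, y0⟩ : ∃ y, f y = 0 ∧ y ≠ 0 := by
    have h1 := f.finrank_range_add_finrank_ker
    have h2 := (LinearMap.range f).finrank_le
    rw [finrank_self] at h2
    have : LinearMap.ker f ≠ ⊥ := fun h => by
      rw [h, finrank_bot] at h1
      omega
    exact (Submodule.ne_bot_iff _).1 this
  have ha : a ≠ 0 := by
    rintro rfl
    exact y0 (g.map_eq_zero_iff.1 (by rw [e, hy]; simp))
  obtain ⟨s, hs, es⟩ := sc_YY (X := X) (inv_ne_zero ha)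
  have e1 : ∀ v, (s * g) v = v + (a⁻¹ • f) v • x := fun v => by
    rw [LinearEquiv.mul_apply, es, e, smul_add, smul_smul, smul_smul, inv_mul_cancel₀ ha, one_smul]
    rfl
  have hg1 := (YY X).mul_mem hs hg
  have hf1 : a⁻¹ • f ≠ 0 := smul_ne_zero (inv_ne_zero ha) hf
  have hy1 : (a⁻¹ • f) y = 0 := by simp [hy]
  generalize s * g = g1 at e1 hg1
  generalize a⁻¹ • f = φ at e1 hf1 hy1
  suffices ∃ ψ : Dual F V, ψ ≠ 0 ∧ ψ x = 0 ∧ TV (YY X) ψ x by
    obtain ⟨ψ, h1, h2, h3⟩ := this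
    exact H8.T2tv.SLV_le hn ht hx (neg_ne_zero.2 h1) (by simp [h2]) (tv_of h2 h3)
  by_cases hc : φ x = 0
  · exact ⟨φ, hf1, hc, g1, hg1, e1⟩
  have hyx : y ∉ F ∙ x := fun h => by
    obtain ⟨t, rfl⟩ := mem_span_singleton.1 h
    rw [map_smul, smul_eq_mul, mul_eq_zero, or_iff_left hc] at hy1
    exact y0 (by rw [hy1, zero_smul])
  obtain ⟨h, hh, b, c, h1, h2⟩ := ht x y x (y + x) hx hyx hx fun h =>
    hyx ((Submodule.add_mem_iff_left _ (mem_span_singleton_self x)).1 h)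
  have c0 : c ≠ 0 := by
    rintro rfl
    exact y0 (h.map_eq_zero_iff.1 (by rw [h2, zero_smul]))
  let g2 := h * g1 * h⁻¹
  have hg2 : g2 ∈ YY X := (YY X).mul_mem ((YY X).mul_mem (le_YY hh) hg1) ((YY X).inv_mem (le_YY hh))
  have e2 : ∀ v, g2 (h v) = h v + (b * φ v) • x := fun v => by
    change h (g1 (h.symm (h v))) = _
    rw [h.symm_apply_apply, e1, map_add, map_smul, h1, smul_smul, mul_comm]
  let χ : Dual F V := φ ∘ₗ (h : V →ₗ[F] V) - b • φ
  have hχ : ∀ v, χ v = φ (h v) - b * φ v := fun _ => rfl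
  refine ⟨χ ∘ₗ ((g2 * h).symm : V →ₗ[F] V), fun h0 => ?_, ?_, g1 * g2⁻¹,
    (YY X).mul_mem hg1 ((YY X).inv_mem hg2), fun v => ?_⟩
  · have := DFunLike.congr_fun h0 ((g2 * h) y)
    simp only [LinearMap.comp_apply, LinearEquiv.coe_coe, LinearEquiv.symm_apply_apply, hχ, h2,
      map_smul, map_add, hy1, zero_add, mul_zero, sub_zero, smul_eq_mul, LinearMap.zero_apply,
      mul_eq_zero] at this
    tauto
  · have h3 : (g2 * h) x = (b + b * φ x) • x := by
      rw [LinearEquiv.mul_apply, e2, h1, add_smul]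
    have h4 : b + b * φ x ≠ 0 := fun h0 => hx ((g2 * h).map_eq_zero_iff.1 (by rw [h3, h0, zero_smul]))
    have h5 : (g2 * h).symm x = (b + b * φ x)⁻¹ • x := by
      rw [LinearEquiv.symm_apply_eq, map_smul, h3, smul_smul, inv_mul_cancel₀ h4, one_smul]
    rw [LinearMap.comp_apply, LinearEquiv.coe_coe, h5, map_smul, hχ, h1, map_smul, smul_eq_mul b,
      sub_self, smul_zero]
  · obtain ⟨w, rfl⟩ := (g2 * h).surjective v
    simp only [LinearMap.comp_apply, LinearEquiv.coe_coe, LinearEquiv.symm_apply_apply]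
    change g1 (g2.symm (g2 (h w))) = g2 (h w) + _
    rw [g2.symm_apply_apply, e1, e2, hχ, sub_smul]
    abel

end Br

open Br Cfsg.Agent.H7 in
theorem br (hm : MainH.{u}) {F K : Type u} [Field F] [Fintype F] [Field K] [Finite K]
    [Algebra F K] (hp : (finrank F K).Prime) (h13 : 13 ≤ finrank F K) {X : Subgroup (K ≃ₗ[F] K)}
    (hC : ∀ u ∈ SG.C1 F K, SG.mulE F K u ∈ X)
    (ht : ∀ u w u' w' : K, u ≠ 0 → w ∉ F ∙ u → u' ≠ 0 → w' ∉ F ∙ u' →
      ∃ g ∈ X, ∃ a b : F, g u = a • u' ∧ g w = b • w') : SLV F K ≤ X := by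
  classical
  have := Fintype.ofFinite K
  have : Finite (K ≃ₗ[F] K) := Finite.of_injective _ DFunLike.coe_injective
  let ρ : Representation F (YY X) K :=
    LinearEquiv.automorphismGroup.toLinearMapMonoidHom.comp (YY X).subtype
  have hρ : ∀ (g : YY X) v, ρ g v = g.1 v := fun _ _ => rfl
  have hρ' : ∀ (g : YY X) (ξ : Dual F K) v, ρ.dual g ξ v = ξ (g.1.symm v) := fun _ _ _ => rfl
  have hi : Function.Injective ρ := fun g h e =>
    Subtype.ext (LinearEquiv.ext fun v => by rw [← hρ, ← hρ, e])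
  have hS : ∀ s : K, Algebra.norm F s = 1 → ∃ g : YY X, ∀ v, g.1 v = s * v := fun s hs => by
    have s0 : s ≠ 0 := by
      rintro rfl
      rw [Algebra.norm_zero] at hs
      exact zero_ne_one hs
    exact ⟨⟨_, le_YY (hC (Units.mk0 s s0) (SG.mem_C1.2 hs))⟩, fun _ => rfl⟩
  let e := (Algebra.traceForm F K).toDual (traceForm_nondegenerate F K)
  have he : ∀ y v, e y v = Algebra.trace F K (y * v) := fun _ _ => rfl
  obtain ⟨g, a, x, f, hx, hf, h⟩ := hm F K (YY X) ρ ρ.dual (Dual.eval F K)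
    ⟨inferInstance, fun g x ξ => congrArg ξ (g.1.symm_apply_apply x), fun a ha => by
      obtain ⟨g, hg, h⟩ := sc_YY (X := X) ha
      exact ⟨⟨g, hg⟩, h⟩, fun a ha => by
      obtain ⟨g, hg, h⟩ := sc_YY (X := X) ha
      refine ⟨⟨g, hg⟩⁻¹, fun ξ => LinearMap.ext fun v => ?_⟩
      change ξ (g v) = _
      rw [h, map_smul]
      rfl⟩ hi (fun g h e => by
      refine inv_injective (Subtype.ext (LinearEquiv.ext fun v => ?_))
      refine sub_eq_zero.1 ((forall_dual_apply_eq_zero_iff F _).1 fun ξ => ?_)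
      rw [map_sub, sub_eq_zero]
      exact (hρ' g ξ v).symm.trans (e ▸ hρ' h ξ v))
    (LinearEquiv.refl F K) e.symm hp h13 (fun s hs => hS s hs) (fun s hs => by
      obtain ⟨g, hg⟩ := hS s hs
      refine ⟨g⁻¹, fun ξ => ?_⟩
      obtain ⟨y, rfl⟩ := e.surjective ξ
      rw [LinearEquiv.symm_apply_eq, e.symm_apply_apply]
      refine LinearMap.ext fun v => ?_
      change e y (g.1 v) = _
      rw [hg, he, he, mul_left_comm, mul_assoc]) (fun x y x' y' h h' => by
      obtain ⟨g, hg, a, b, h1, h2⟩ := ht x y x' y' h.1 h.2 h'.1 h'.2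
      have ha : a ≠ 0 := by
        rintro rfl
        exact h.1 (g.map_eq_zero_iff.1 (by rw [h1, zero_smul]))
      obtain ⟨s, hs, es⟩ := sc_YY (X := X) (inv_ne_zero ha)
      refine ⟨⟨s, hs⟩ * ⟨g, le_YY hg⟩, ?_, ?_⟩
      · change s (g x) = _
        rw [es, h1, smul_smul, inv_mul_cancel₀ ha, one_smul]
      · change s (g y) ∈ _
        rw [es, h2]
        exact smul_mem _ _ (smul_mem _ _ (mem_span_singleton_self _)))
  exact sl_of (by omega) ht g.2 hx hf h

end Cfsg.Agent.Sg
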