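import Cfsg.Agent.SG.T2
import Cfsg.Agent.Sg.Br

set_option autoImplicit false

namespace Cfsg.Agent.Sg

universe u

theorem singer_of (hm : MainH.{u}) : SG.Singer.{u} := by
  intro F K _ _ _ _ _ hp h13 X hS hX hg
  have := Fintype.ofFinite K
  exact br hm hp h13 (fun u hu => hX _ (SG.semi_mulE u) (SG.mulE_mem_SLV.2 hu))
    (SG.t2 hp h13 hS hX hg)

end Cfsg.Agent.Sg
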