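import Cfsg.Agent.Sg.Sp1

set_option autoImplicit false
open Module Submodule

namespace Cfsg.Agent.Sg.Sp

variable {F V V' G : Type*} [Field F] [Fintype F] [AddCommGroup V] [Module F V] [Module.Finite F V]
  [AddCommGroup V'] [Module F V'] [Module.Finite F V'] [Group G] [Finite G]
  {ρ : Representation F G V} {ρ' : Representation F G V'} {B : V →ₗ[F] V' →ₗ[F] F}

theorem two_el (g : G) : ∃ o j : ℕ, (g ^ (2 * o + 1)) ^ 2 ^ j = 1 := by
  obtain ⟨j, m, ⟨o, ho⟩, e⟩ := Nat.exists_eq_two_pow_mul_odd (orderOf_pos g).ne'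
  exact ⟨o, j, by rw [← pow_mul, ← ho, mul_comm, ← e, pow_orderOf_eq_one]⟩

variable {c : ℕ} {W : V → V → Submodule F V} {x y : V} {C : Submodule F V} {z : G} {r : ℕ}

namespace Cx
variable (H : Cx ρ ρ' B c W x y C z r)
include H

theorem pm {u : G} (hu : u ∈ NN ρ (W x y) C z) (uz : u * z = z * u) (h : ∀ m ∈ C, ρ (u * u) m = m) :
    (∀ m ∈ C, ρ u m = m) ∨ ∀ m ∈ C, ρ u m = -m := by
  obtain ⟨v, hv, v0⟩ := H.exC
  by_cases h1 : ρ u v - v = 0
  · left
    simpa using H.fixC uz (a := 1) hv v0 (by simpa [sub_eq_zero] using h1)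
  · right
    simpa using H.fixC uz (a := -1) (sub_mem (hu.2.1 v hv) hv) h1 (by rw [map_sub, ← rm, h v hv]; simp)

theorem sq (hc : Odd c) {w : G} (hw : w ∈ NN ρ (W x y) C z) (wz : w * w * z = z * (w * w)) :
    ∀ j : ℕ, (∀ m ∈ C, ρ (w ^ 2 ^ (j + 1)) m = m) → ∀ m ∈ C, ρ (w * w) m = m
  | 0, h => by simpa [pow_two] using h
  | j + 1, h => by
    refine sq hc hw wz j ?_
    have e1 : w ^ 2 ^ (j + 1) = (w * w) ^ 2 ^ j := by rw [← pow_two, ← pow_mul, pow_succ']
    have e2 : w ^ 2 ^ (j + 1) = w ^ 2 ^ j * w ^ 2 ^ j := by rw [← pow_add, pow_succ, mul_two]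
    rcases H.pm (pow_mem hw (2 ^ (j + 1))) (by rw [e1]; exact (Commute.pow_left wz _).eq)
      (by rw [← pow_add, ← mul_two, ← pow_succ]; exact h) with h1 | h1
    · exact h1
    have hw' := (pow_mem hw (2 ^ j) : w ^ 2 ^ j ∈ NN ρ (W x y) C z).2.1
    let t : Module.End F C := (ρ (w ^ 2 ^ j)).restrict hw'
    have ht : t * t = (-1 : F) • LinearMap.id := by
      ext m
      have := h1 m m.2
      rw [e2, rm] at this
      simpa [t] using this
    have hd := congrArg LinearMap.det ht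
    rw [map_mul, LinearMap.det_smul, H.rkC, hc.neg_one_pow, LinearMap.det_id, mul_one] at hd
    have d0 : LinearMap.det t ≠ 0 := by intro h0; rw [h0] at hd; simp at hd
    rw [H.sq_one _ d0] at hd
    intro m hm
    rw [h1 m hm, ← neg_one_smul F, ← hd, one_smul]

theorem ev (hr : Odd r) {g : G} (hg : g ∈ NN ρ (W x y) C z) (gz : g * z * g⁻¹ = z⁻¹)
    (h : ∀ m ∈ C, ρ (g * g) m = m) : Even c := by
  have key : ∀ a : F, a ≠ 0 → 2 * finrank F (C ⊓ LinearMap.ker (ρ g - a • LinearMap.id) : Submodule F V) ≤ c := by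
    intro a a0
    set A : Submodule F V := C ⊓ LinearMap.ker (ρ g - a • LinearMap.id)
    have mA : ∀ v ∈ A, v ∈ C ∧ ρ g v = a • v := fun v hv => ⟨hv.1, by simpa [sub_eq_zero] using hv.2⟩
    have h1 : A ⊓ A.map (ρ z) = ⊥ := by
      rw [eq_bot_iff]
      rintro _ ⟨h1, v, hv, rfl⟩
      have e1 := (mA _ h1).2
      have e2 : g * z = z⁻¹ * g := by rw [← gz]; group
      rw [← rm, e2, rm, (mA v hv).2, map_smul] at e1
      have e3 : ρ (z * z) v = v := by
        have := congrArg (ρ z) (smul_right_injective V a0 e1)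
        rw [rm]; simpa using this.symm
      obtain ⟨k, hk⟩ := hr
      have e4 : ∀ i : ℕ, ρ ((z * z) ^ i) v = v := fun i => by
        induction i with
        | zero => simp
        | succ i ih => rw [pow_succ, rm, e3, ih]
      have e5 : (z * z) ^ (k + 1) = z := by
        rw [← pow_two, ← pow_mul, show 2 * (k + 1) = r + 1 by omega, pow_succ, ← H.hz.ord, pow_orderOf_eq_one, one_mul]
      have e6 := e4 (k + 1)
      rw [e5] at e6
      rw [H.disj ((H.hz.fix v).1 e6) (mA v hv).1]; simp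
    have h2 : A ⊔ A.map (ρ z) ≤ C := sup_le inf_le_left (by
      rintro _ ⟨v, hv, rfl⟩; exact H.hz.inv v hv.1)
    have h3 := finrank_sup_add_finrank_inf_eq A (A.map (ρ z))
    have h4 : finrank F (A.map (ρ z)) = finrank F A :=
      (Submodule.equivMapOfInjective _ (fun v w e => by
        have := rinj ρ z (v := v - w) (by rw [map_sub, e, sub_self]); exact sub_eq_zero.1 this) A).finrank_eq.symm
    have h5 := finrank_mono h2
    rw [h1, finrank_bot, h4] at h3
    rw [H.rkC] at h5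
    omega
  let f : C →ₗ[F] V := (ρ g + LinearMap.id) ∘ₗ C.subtype
  have h1 := f.finrank_range_add_finrank_ker
  have h2 : LinearMap.range f ≤ C ⊓ LinearMap.ker (ρ g - (1 : F) • LinearMap.id) := by
    rintro _ ⟨v, rfl⟩
    refine ⟨add_mem (hg.2.1 v v.2) v.2, ?_⟩
    have := h v v.2
    rw [rm] at this
    simp [f, this, add_comm]
  have h3 : (LinearMap.ker f).map C.subtype ≤ C ⊓ LinearMap.ker (ρ g - (-1 : F) • LinearMap.id) := by
    rintro _ ⟨v, hv, rfl⟩
    exact ⟨v.2, by simpa [f] using hv⟩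
  have h4 := finrank_mono h2
  have h5 := finrank_mono h3
  rw [finrank_map_subtype_eq] at h5
  have h6 := key 1 one_ne_zero
  have h7 := key (-1) (by simp)
  rw [H.rkC] at h1
  exact ⟨finrank F (LinearMap.range f), by omega⟩

theorem cz (hc : Odd c) (hp : r.Prime) (hr : Odd r) :
    ∀ (j : ℕ) {g : G}, g ∈ NN ρ (W x y) C z → g ^ 2 ^ j = 1 → g * z = z * g
  | 0, g, _, h => by rw [pow_zero, pow_one] at h; simp [h]
  | j + 1, g, hg, h => by
    have h1 := cz hc hp hr j (mul_mem hg hg) (by rw [← pow_two, ← pow_mul, ← pow_succ', h])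
    obtain ⟨i, hi⟩ := hg.2.2
    simp only at hi
    have h2 : z ^ (i * i) = z ^ (1 : ℤ) := by
      rw [zpow_mul, hi, conj_zpow, hi, zpow_one]
      calc _ = (g * g * z) * (g * g)⁻¹ := by group
        _ = z := by rw [h1]; group
    rw [zpow_eq_zpow_iff_modEq, H.hz.ord] at h2
    have h3 : (r : ℤ) ∣ (i - 1) * (i + 1) := by
      have := h2.symm.dvd
      rwa [show i * i - 1 = (i - 1) * (i + 1) by ring] at this
    rcases (Nat.prime_iff_prime_int.1 hp).dvd_or_dvd h3 with h4 | h4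
    · have : z ^ i = z ^ (1 : ℤ) := by
        rw [zpow_eq_zpow_iff_modEq, H.hz.ord]
        exact (Int.modEq_iff_dvd.2 h4).symm
      rw [hi, zpow_one] at this
      calc _ = g * z * g⁻¹ * g := by group
        _ = _ := by rw [this]
    · have : z ^ i = z ^ (-1 : ℤ) := by
        rw [zpow_eq_zpow_iff_modEq, H.hz.ord]
        exact (Int.modEq_iff_dvd.2 (by simpa using h4)).symm
      rw [hi, zpow_neg_one] at this
      exact absurd (H.ev hr hg this (H.sq hc hg h1 j (by simp [h]))) (Nat.not_even_iff_odd.2 hc)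

theorem two_ne (hc : Odd c) (hp : r.Prime) (hr : Odd r) : (2 : F) ≠ 0 := by
  intro h2
  obtain ⟨g, hg, g1, g2⟩ := H.tv H.hxy H.xm H.ym 1
  obtain ⟨o, j, e⟩ := two_el g
  have e1 : ∀ i : ℕ, ρ (g ^ i) x = x ∧ ρ (g ^ i) y = y + (i : F) • x := fun i => by
    induction i with
    | zero => simp
    | succ i ih =>
      rw [pow_succ, rm, rm, g1, g2, map_add, map_smul, ih.1, ih.2]
      refine ⟨rfl, ?_⟩
      push_cast; rw [add_smul, add_assoc]
  have := H.Mtriv H.xm H.hxy.1 (pow_mem hg _) (e1 _).1 (H.cz hc hp hr j (pow_mem hg _) e) y H.ym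
  rw [(e1 _).2] at this
  push_cast at this
  rw [h2] at this
  exact H.hxy.1 (by simpa using this)

/-- unipotent elements along the line -/
def EE (_ : Cx ρ ρ' B c W x y C z r) (φ : V → V) : Prop :=
  (∃ e, ∀ v, ρ e v = v + φ v) ∧ (∀ v, φ v ∈ W x y) ∧ ∀ u ∈ W x y, ∀ v, φ (v + u) = φ v

theorem EE_fix {φ : V → V} (h : H.EE φ) {e : G} (he : ∀ v, ρ e v = v + φ v) : ∀ u ∈ W x y, ρ e u = u := fun u hu => by
  have h0 : φ 0 = 0 := by simpa using (he 0).symm
  have := h.2.2 u hu 0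
  rw [zero_add, h0] at this
  rw [he, this, add_zero]

theorem EE_sub {φ ψ : V → V} (h : H.EE φ) (h' : H.EE ψ) : H.EE (fun v => φ v - ψ v) := by
  obtain ⟨e, he⟩ := h.1
  obtain ⟨e', he'⟩ := h'.1
  refine ⟨⟨e * e'⁻¹, fun v => ?_⟩, fun v => sub_mem (h.2.1 v) (h'.2.1 v), fun u hu v => by
    simp only [h.2.2 u hu, h'.2.2 u hu]⟩
  have : ρ e' (v - ψ v) = v := by rw [map_sub, he' v, H.EE_fix h' he' _ (h'.2.1 v)]; abel
  have h1 : ρ e'⁻¹ v = v - ψ v := by
    have := congrArg (ρ e'⁻¹) this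
    simpa using this.symm
  rw [rm, h1, map_sub, he v, H.EE_fix h he _ (h'.2.1 v)]; abel

theorem EE_conj {φ : V → V} (h : H.EE φ) {g : G} (hg : g ∈ NN ρ (W x y) C z) (gC : ∀ m ∈ C, ρ g m = m) :
    H.EE (fun v => ρ g (φ v)) := by
  obtain ⟨e, he⟩ := h.1
  refine ⟨⟨g * e * g⁻¹, fun v => ?_⟩, fun v => hg.1 _ (h.2.1 v), fun u hu v => by simp only [h.2.2 u hu]⟩
  obtain ⟨u, hu, m, hm, rfl⟩ := H.dec v
  have h1 : ρ g⁻¹ m = m := by
    have := congrArg (ρ g⁻¹) (gC m hm)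
    simpa using this.symm
  have h2 : φ (ρ g⁻¹ (u + m)) = φ (u + m) := by
    rw [map_add, h1, add_comm, add_comm u, h.2.2 u hu,
      h.2.2 _ ((inv_mem hg : g⁻¹ ∈ NN ρ (W x y) C z).1 u hu)]
  rw [rm, rm, he, map_add, h2]
  simp

theorem EE_line {φ : V → V} (h : H.EE φ) {d : V} (hd : ∀ v, φ v ∈ span F {d}) (v : V) : φ v = 0 := by
  obtain ⟨e, he⟩ := h.1
  have := H.cc1 (g := e) (b := d) fun v => by rw [he]; simpa using hd v
  have h1 := he v
  rw [this] at h1
  simpa using h1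

theorem fin (hc : Odd c) (hp : r.Prime) (hr : Odd r) : False := by
  have h2 := H.two_ne hc hp hr
  obtain ⟨g, hg, g1, g2⟩ := H.wel 1 one_ne_zero
  rw [inv_one, neg_one_smul] at g1
  rw [one_smul] at g2
  obtain ⟨o, j, e⟩ := two_el g
  have e1 : ∀ i : ℕ, ∃ σ : F, σ * σ = 1 ∧ ρ (g ^ (2 * i + 1)) x = σ • y ∧ ρ (g ^ (2 * i + 1)) y = -σ • x := fun i => by
    induction i with
    | zero => exact ⟨-1, by simp, by simp [g1], by simp [g2]⟩
    | succ i ih =>
      obtain ⟨σ, s1, s2, s3⟩ := ih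
      refine ⟨-σ, by simpa using s1, ?_, ?_⟩ <;>
        rw [show 2 * (i + 1) + 1 = (2 * i + 1) + 1 + 1 by ring, pow_succ, pow_succ, rm, rm]
      · rw [g1, map_neg, g2, map_neg, s2, neg_smul]
      · rw [g2, g1, map_neg, s3]; simp
  obtain ⟨σ₀, s1, s2, s3⟩ := e1 o
  have hg' : g ^ (2 * o + 1) ∈ NN ρ (W x y) C z := pow_mem hg _
  generalize g ^ (2 * o + 1) = w at e s2 s3 hg'
  have wz := H.cz hc hp hr j hg' e
  have wsq := H.sq hc hg' (by rw [mul_assoc, wz, ← mul_assoc, wz, mul_assoc]) j (by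
    intro m _; rw [pow_succ, pow_mul, e]; simp)
  obtain ⟨s, hs⟩ := H.h.sc (-1) (by simp)
  have sN : s ∈ NN ρ (W x y) C z := ⟨fun v hv => by rw [hs]; exact smul_mem _ _ hv,
    fun v hv => by rw [hs]; exact smul_mem _ _ hv, by
      have : s * z * s⁻¹ = z := by
        rw [mul_inv_eq_iff_eq_mul]
        exact H.hi (by ext v; simp [hs])
      rw [this]; exact Subgroup.mem_zpowers z⟩
  obtain ⟨a, ha, aC, σ, σ1, ax, ay⟩ : ∃ a ∈ NN ρ (W x y) C z, (∀ m ∈ C, ρ a m = m) ∧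
      ∃ σ : F, σ * σ = 1 ∧ ρ a x = σ • y ∧ ρ a y = -σ • x := by
    rcases H.pm hg' wz wsq with h | h
    · exact ⟨w, hg', h, σ₀, s1, s2, s3⟩
    · exact ⟨s * w, mul_mem sN hg', fun m hm => by simp [h m hm, hs], -σ₀, by simpa using s1,
        by simp [s2, hs], by simp [s3, hs]⟩
  have aa : ∀ u ∈ W x y, ρ (a * a) u = -u := fun u hu => by
    obtain ⟨α, β, rfl⟩ := H.span2 H.k3 H.hxy H.xm H.ym hu
    simp only [rm, map_add, map_smul, ax, ay]
    match_scalars <;> first | linear_combination (-α) * σ1 | linear_combination (-β) * σ1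
  have aq : ∀ v, ρ (a * a) v - v ∈ W x y := fun v => by
    obtain ⟨u, hu, m, hm, rfl⟩ := H.dec v
    rw [map_add, aa u hu, rm, aC m hm, aC m hm, add_sub_add_right_eq_sub]
    exact sub_mem (neg_mem hu) hu
  obtain ⟨m, hm, m0⟩ := H.exC
  have nm : m ∉ W x y := fun h => m0 (H.disj h hm)
  obtain ⟨k, k1, k2, k3⟩ := H.hW.trans x y m (m + x) H.hxy nm (fun h => nm (by simpa using sub_mem h H.xm))
  have kB := H.keepB H.hxy H.xm H.ym (g := k) ((span_singleton_le_iff_mem _ _).2 H.xm k1)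
    (span_le.2 (by rintro _ (rfl | rfl); exacts [H.xm, H.ym]) k2)
  have kB' : ∀ u ∈ W x y, ρ k⁻¹ u ∈ W x y :=
    inv_of (⟨⟨{g | ∀ u ∈ W x y, ρ g u ∈ W x y}, fun {g h} a1 a2 u hu => by rw [rm]; exact a1 _ (a2 u hu)⟩,
      by simp⟩ : Submonoid G) kB
  let φ : V → V := fun v => ρ (k * (a * a) * k⁻¹ * (a * a)) v - v
  have fixB : ∀ u ∈ W x y, ρ (k * (a * a) * k⁻¹ * (a * a)) u = u := fun u hu => by
    rw [rm _ (k * (a * a) * k⁻¹), aa u hu, map_neg, rm _ (k * (a * a)), rm _ k, aa _ (kB' u hu)]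
    simp
  have hφ : H.EE φ := ⟨⟨_, fun v => by simp only [φ]; rw [add_sub_cancel]⟩, fun v => by
    have h1 := kB _ (aq (ρ k⁻¹ (ρ (a * a) v)))
    have h3 := add_mem h1 (aq v)
    convert h3 using 1
    simp only [φ]
    rw [rm _ (k * (a * a) * k⁻¹), rm _ (k * (a * a)), rm _ k, map_sub]
    simp, fun u hu v => by
    simp only [φ]
    rw [map_add, fixB u hu, add_sub_add_right_eq_sub]⟩
  obtain ⟨t, ht, t1, t2⟩ := H.tv H.hxy H.xm H.ym σ
  have ti1 : ρ t⁻¹ x = x := (St ρ x).inv_mem t1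
  have ti2 : ρ t⁻¹ y = y - σ • x := by
    have := congrArg (ρ t⁻¹) t2
    rw [map_add, map_smul, ti1] at this
    rw [eq_sub_iff_add_eq, ← this]; simp
  have hψ := H.EE_sub (H.EE_sub (H.EE_conj hφ (mul_mem (mul_mem ht ha) (inv_mem ht)) (fun m hm => by
    rw [rm, rm, aC _ ((inv_mem ht : t⁻¹ ∈ NN ρ (W x y) C z).2.1 m hm)]; simp)) (H.EE_conj hφ ha aC)) hφ
  have cal : ∀ α β : F, ρ (t * a * t⁻¹) (α • x + β • y) - ρ a (α • x + β • y) - (α • x + β • y)
      = β • (-(2 : F) • y - σ • x) := fun α β => by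
    simp only [rm, map_add, map_smul, ti1, ti2, map_sub, ax, ay, t1, t2]
    match_scalars <;> first | linear_combination (α - β * σ) * σ1 | linear_combination (-β) * σ1
  have z1 := H.EE_line hψ (d := -(2 : F) • y - σ • x) fun v => by
    obtain ⟨α, β, e⟩ := H.span2 H.k3 H.hxy H.xm H.ym (hφ.2.1 v)
    simp only [← e, cal]
    exact smul_mem _ _ (mem_span_singleton_self _)
  have z2 := H.EE_line hφ (d := x) (fun v => by
    obtain ⟨α, β, e⟩ := H.span2 H.k3 H.hxy H.xm H.ym (hφ.2.1 v)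
    have := z1 v
    simp only [← e, cal] at this
    have h3 := (ind_eq H.hxy (a := -(β * σ)) (b := -(β * 2)) (by rw [← this]; module)).2
    have h4 : β = 0 := by simpa [h2] using h3
    rw [← e, h4, zero_smul, add_zero]
    exact smul_mem _ _ (mem_span_singleton_self _)) (m - x)
  simp only [φ] at z2
  have k4 : ρ k⁻¹ (m + x) = m := by rw [← k3]; simp
  rw [rm _ (k * (a * a) * k⁻¹), map_sub, aa x H.xm, rm _ a a, aC m hm, aC m hm, sub_neg_eq_add,
    rm _ (k * (a * a)), k4, rm _ k, rm _ a a, aC m hm, aC m hm, k3] at z2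
  have : (2 : F) • x = 0 := by rw [← z2, two_smul]; abel
  exact H.hxy.1 ((smul_eq_zero.1 this).resolve_left h2)

end Cx

end Cfsg.Agent.Sg.Sp

namespace Cfsg.Agent.Sg

variable {F V V' G : Type*} [Field F] [Fintype F] [AddCommGroup V] [Module F V] [Module.Finite F V]
  [AddCommGroup V'] [Module F V'] [Module.Finite F V'] [Group G] [Finite G]
  {ρ : Representation F G V} {ρ' : Representation F G V'} {B : V →ₗ[F] V' →ₗ[F] F}

theorem sp (h : Ctx ρ ρ' B) (hi : Function.Injective ρ) (h2 : T2 ρ) (h3 : F3 ρ ρ' B) {c : ℕ} {W : V → V → Submodule F V}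
    (hW : WS ρ c W) (hs : Spread F W) (hodd : Odd (finrank F V)) (hc : 3 ≤ c) {r : ℕ} (hr : r.Prime)
    (hq : IsPrimitiveRoot (Fintype.card F : ZMod r) c) {x y : V} (hxy : Ind2 F x y) {C : Submodule F V} {z : G}
    (hz : FRD ρ (W x y) C z r) : CC ρ := by
  by_contra ncc
  have H : Sp.Cx ρ ρ' B c W x y C z r := ⟨h, hi, h2, h3, hW, hs, hc, hxy, hz, ncc⟩
  have h1 := hW.rank _ _ hxy
  rw [H.k3] at h1
  obtain ⟨k, hk⟩ := hodd
  refine H.fin ⟨k - 1, by omega⟩ hr (hr.odd_of_ne_two ?_)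
  rintro rfl
  haveI := Fact.mk Nat.prime_two
  have h0 := ZMod.orderOf_dvd_card_sub_one (hq.ne_zero (by omega))
  rw [← hq.eq_orderOf] at h0
  have := Nat.le_of_dvd (by norm_num) h0
  omega

end Cfsg.Agent.Sg
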