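import Cfsg.Agent.Sg.Iib

set_option autoImplicit false
open Module Submodule

namespace Cfsg.Agent.Sg

namespace Tri

open Iib

theorem num {q a b k : ℕ} (hq : 2 ≤ q) (hk : k ≤ a + b + 1)
    (h : (q ^ (a + 1) - 1) * (q ^ (b + 1) - 1) < q ^ k - 1) : False := by
  have h1 : q ^ k ≤ q ^ (a + b + 1) := Nat.pow_le_pow_right (by omega) hk
  have hA : 1 ≤ q ^ a := Nat.one_le_pow _ _ (by omega)
  have hB : 1 ≤ q ^ b := Nat.one_le_pow _ _ (by omega)
  have e : q ^ (a + b + 1) = q ^ a * q ^ b * q := by ring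
  rw [e] at h1
  rw [pow_succ, pow_succ] at h
  generalize q ^ a = A at *
  generalize q ^ b = B at *
  generalize q ^ k = C at *
  obtain ⟨A, rfl⟩ := Nat.exists_eq_add_of_le' hA
  obtain ⟨B, rfl⟩ := Nat.exists_eq_add_of_le' hB
  obtain ⟨q, rfl⟩ := Nat.exists_eq_add_of_le' hq
  have e1 : (A + 1) * (q + 2) - 1 = A * q + 2 * A + q + 1 := by
    have : (A + 1) * (q + 2) = A * q + 2 * A + q + 1 + 1 := by ring
    omega
  have e2 : (B + 1) * (q + 2) - 1 = B * q + 2 * B + q + 1 := by
    have : (B + 1) * (q + 2) = B * q + 2 * B + q + 1 + 1 := by ring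
    omega
  rw [e1, e2] at h
  have : (A + 1) * (B + 1) * (q + 2) ≤ (A * q + 2 * A + q + 1) * (B * q + 2 * B + q + 1) + 1 := by
    have : (A * q + 2 * A + q + 1) * (B * q + 2 * B + q + 1) + 1 = (A + 1) * (B + 1) * (q + 2) +
        (A * B * q * q + 3 * A * B * q + 2 * A * B + A * q * q + 2 * A * q + B * q * q + 2 * B * q +
          q * q + q) := by ring
    omega
  omega

variable {F V G : Type*} [Field F] [Fintype F] [AddCommGroup V] [Module F V] [Module.Finite F V]
  [Group G] {ρ : Representation F G V} {c : ℕ} {W : V → V → Submodule F V}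

open Classical in
theorem card_mem [Fintype V] (A : Submodule F V) :
    (Finset.univ.filter fun v => v ∈ A).card = Fintype.card F ^ finrank F A := by
  rw [← Module.card_eq_pow_finrank (K := F) (V := A), Fintype.card_subtype]

open Classical in
theorem card_diff [Fintype V] {A E : Submodule F V} (h : E ≤ A) :
    (Finset.univ.filter fun v => v ∈ A ∧ v ∉ E).card =
      Fintype.card F ^ finrank F A - Fintype.card F ^ finrank F E := by
  rw [← card_mem A, ← card_mem E, ← Finset.card_sdiff_of_subset]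
  · congr 1; ext v; simp
  · intro v; simp only [Finset.mem_filter, Finset.mem_univ, true_and]; exact fun hv => h hv

omit [Fintype F] [Module.Finite F V] in
theorem ind_out (hW : WS ρ c W) {x y t : V} (h : Ind2 F x y) (ht : t ∉ W x y) : Ind2 F x t :=
  ⟨h.1, fun e => ht ((span_singleton_le_iff_mem _ _).2 (hW.left x y h) e)⟩

omit [Fintype F] [Module.Finite F V] in
theorem ind_map {x y : V} (h : Ind2 F x y) (g : G) : Ind2 F (ρ g x) (ρ g y) := by
  refine ⟨app_ne g h.1, fun e => h.2 ?_⟩
  obtain ⟨a, ha⟩ := mem_span_singleton.1 e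
  refine mem_span_singleton.2 ⟨a, ?_⟩
  rw [← inv_app (ρ := ρ) g y, ← ha, map_smul, inv_app]

omit [Fintype F] in
theorem const (hW : WS ρ c W) {x y t t' : V} (h : Ind2 F x y) (ht : t ∉ W x y) (ht' : t' ∉ W x y) :
    finrank F (W x y ⊓ W x t' : Submodule F V) = finrank F (W x y ⊓ W x t : Submodule F V) := by
  obtain ⟨g, h1, h2, h3⟩ := hW.trans x y t t' h ht ht'
  have i1 := ind_out hW h ht
  have i2 := ind_out hW h ht'
  have hinj : Function.Injective (ρ g) := fun a b e => by
    rw [← inv_app (ρ := ρ) g a, e, inv_app]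
  have e1 : (W x y).map (ρ g) = W x y := by
    rw [← hW.equi g x y h]
    exact hW.congr x y _ _ h (ind_map h g) (span_mono (by simp) h1) h2
  have e2 : (W x t).map (ρ g) = W x t' := by
    rw [← hW.equi g x t i1]
    refine hW.congr x t' _ _ i2 (ind_map i1 g) (span_mono (by simp) h1) ?_
    rw [h3]; exact subset_span (by simp)
  have e3 : (W x y ⊓ W x t).map (ρ g) = W x y ⊓ W x t' := by
    rw [Submodule.map_inf _ hinj, e1, e2]
  rw [← e3]
  exact (LinearEquiv.finrank_eq (Submodule.equivMapOfInjective _ hinj _)).symm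

omit [Fintype F] in
theorem spread (hW : WS ρ c W)
    (h : ∀ x y t, Ind2 F x y → t ∉ W x y → W x y ⊓ W x t ≤ span F {x}) : Spread F W := by
  have s1 : ∀ x y v, Ind2 F x y → Ind2 F x v → v ∈ W x y → W x v = W x y := by
    intro x y v i1 i2 hv
    refine Submodule.eq_of_le_of_finrank_eq (fun t ht => ?_) ?_
    · by_contra ht'
      exact i2.2 (h x y t i1 ht' ⟨hv, hW.swap x v t i2 (ind_out hW i1 ht') ht⟩)
    · have := hW.rank x v i2
      have := hW.rank x y i1
      omega
  intro x y x' y' i1 i2 hx hy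
  by_cases hs : x' ∈ span F {x}
  · have i3 : Ind2 F x y' := by
      refine ⟨i1.1, fun e => i2.2 ?_⟩
      have : x ∈ span F {x'} := by
        by_contra hh
        exact (ind2_symm ⟨i2.1, hh⟩).2 hs
      exact (span_singleton_le_iff_mem _ _).2 this e
    rw [← s1 x y y' i1 i3 hy]
    exact hW.congr x y' x' y' i3 i2 (span_mono (by simp) hs) (subset_span (by simp))
  · have i3 : Ind2 F x x' := ⟨i1.1, hs⟩
    have e1 : W x' x = W x y := by
      rw [← s1 x y x' i1 i3 hx]
      exact hW.congr x x' x' x i3 (ind2_symm i3) (subset_span (by simp)) (subset_span (by simp))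
    rw [← e1]
    exact s1 x' x y' (ind2_symm i3) i2 (by rw [e1]; exact hy)

theorem count (hW : WS ρ c W) {x y t₀ : V} (h : Ind2 F x y) (ht₀ : t₀ ∉ W x y) :
    (Fintype.card F ^ finrank F V - Fintype.card F ^ finrank F (W x y)) *
      (Fintype.card F ^ finrank F (W x y ⊓ W x t₀ : Submodule F V) - Fintype.card F) ≤
    (Fintype.card F ^ finrank F (W x y) - Fintype.card F) *
      (Fintype.card F ^ finrank F (W x y) - 1) := by
  classical
  have : Finite V := Module.finite_of_finite F
  have := Fintype.ofFinite V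
  have hx : span F {x} ≤ W x y := (span_singleton_le_iff_mem _ _).2 (hW.left x y h)
  have key := Finset.sum_card_bipartiteAbove_eq_sum_card_bipartiteBelow
    (s := Finset.univ.filter fun v => v ∈ W x y ∧ v ∉ span F {x})
    (t := Finset.univ.filter fun t => t ∈ (⊤ : Submodule F V) ∧ t ∉ W x y) (fun v t => t ∈ W x v)
  have r1 : ∑ t ∈ Finset.univ.filter fun t => t ∈ (⊤ : Submodule F V) ∧ t ∉ W x y,
      ((Finset.univ.filter fun v => v ∈ W x y ∧ v ∉ span F {x}).bipartiteBelow
        (fun v t => t ∈ W x v) t).card =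
      (Fintype.card F ^ finrank F V - Fintype.card F ^ finrank F (W x y)) *
      (Fintype.card F ^ finrank F (W x y ⊓ W x t₀ : Submodule F V) - Fintype.card F) := by
    rw [Finset.sum_const_nat (m := Fintype.card F ^ finrank F (W x y ⊓ W x t₀ : Submodule F V) -
      Fintype.card F), card_diff le_top, finrank_top]
    intro t ht
    have ht : t ∉ W x y := (Finset.mem_filter.1 ht).2.2
    have it := ind_out hW h ht
    have hle : span F {x} ≤ W x y ⊓ W x t :=
      le_inf hx ((span_singleton_le_iff_mem _ _).2 (hW.left x t it))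
    have := card_diff hle
    rw [finrank_span_singleton h.1, pow_one, const hW h ht₀ ht] at this
    rw [← this]
    congr 1
    ext v
    simp only [Finset.mem_bipartiteBelow, Finset.mem_filter, Finset.mem_univ, true_and, mem_inf]
    constructor
    · rintro ⟨⟨a, b⟩, e⟩
      exact ⟨⟨a, hW.swap x v t ⟨h.1, b⟩ it e⟩, b⟩
    · rintro ⟨⟨a, e⟩, b⟩
      exact ⟨⟨a, b⟩, hW.swap x t v it ⟨h.1, b⟩ e⟩
  rw [← r1, ← key]
  have r2 := card_diff hx
  rw [finrank_span_singleton h.1, pow_one] at r2
  rw [← r2, ← smul_eq_mul]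
  refine Finset.sum_le_card_nsmul _ _ _ fun v hv => ?_
  have hv : v ∉ span F {x} := (Finset.mem_filter.1 hv).2.2
  have r3 := card_diff (bot_le : ⊥ ≤ W x v)
  have r4 : finrank F (W x v) = finrank F (W x y) := by
    have := hW.rank x v ⟨h.1, hv⟩
    have := hW.rank x y h
    omega
  rw [finrank_bot, pow_zero, r4] at r3
  rw [← r3]
  refine Finset.card_le_card fun t => ?_
  simp only [Finset.mem_bipartiteAbove, Finset.mem_filter, Finset.mem_univ, true_and, mem_top,
    mem_bot]
  rintro ⟨a, b⟩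
  exact ⟨b, fun e => a (e ▸ zero_mem _)⟩

end Tri

variable {F V G : Type*} [Field F] [Fintype F] [AddCommGroup V] [Module F V] [Module.Finite F V]
  [Group G] [Finite G] {ρ : Representation F G V}

open Tri Iib in
theorem tri {c : ℕ} {W : V → V → Submodule F V} (hW : WS ρ c W) (hc : 2 ≤ c) (hn : 2 ≤ finrank F V) :
    Spread F W ∨ ∃ j, 1 ≤ j ∧ finrank F V = 2 * c + j + 1 := by
  by_cases h : ∀ x y t, Ind2 F x y → t ∉ W x y → W x y ⊓ W x t ≤ span F {x}
  · exact Or.inl (spread hW h)
  right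
  push Not at h
  obtain ⟨x, y, t, h, ht, hle⟩ := h
  have it := ind_out hW h ht
  have hx : span F {x} ≤ W x y ⊓ W x t :=
    (span_singleton_le_iff_mem _ _).2 ⟨hW.left x y h, hW.left x t it⟩
  have l1 := Submodule.finrank_lt_finrank_of_lt (lt_of_le_of_ne hx fun e => hle e.ge)
  rw [finrank_span_singleton h.1] at l1
  have key := count hW h ht
  have r1 := hW.rank x y h
  have r2 := hW.rank x t it
  have e1 := Submodule.finrank_sup_add_finrank_inf_eq (W x y) (W x t)
  have l2 := Submodule.finrank_le (W x y ⊔ W x t)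
  have l3 := Submodule.finrank_mono (inf_le_left : W x y ⊓ W x t ≤ W x y)
  have hq : 2 ≤ Fintype.card F := Fintype.one_lt_card
  generalize finrank F (W x y ⊓ W x t : Submodule F V) = i at *
  generalize finrank F (W x y ⊔ W x t : Submodule F V) = s at *
  generalize finrank F (W x t) = k' at *
  generalize finrank F (W x y) = k at *
  generalize finrank F V = n at *
  generalize Fintype.card F = q at *
  obtain ⟨b, rfl⟩ : ∃ b, i = b + 2 := ⟨i - 2, by omega⟩
  obtain ⟨a, rfl⟩ : ∃ a, c = a + 1 := ⟨c - 1, by omega⟩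
  obtain ⟨k, rfl⟩ : ∃ k₀, k = k₀ + 1 := ⟨k - 1, by omega⟩
  refine ⟨b + 1, by omega, ?_⟩
  by_contra hne
  refine num (a := a) (b := b) (k := k) hq (by omega) ?_
  subst r1
  have f1 : q ^ (k + 1 + (a + 1)) - q ^ (k + 1) = q ^ (k + 1) * (q ^ (a + 1) - 1) := by
    rw [pow_add, Nat.mul_sub, mul_one]
  have f2 : q ^ (b + 2) - q = q * (q ^ (b + 1) - 1) := by
    rw [Nat.mul_sub, mul_one, ← pow_succ']
  have f3 : q ^ (k + 1) - q = q * (q ^ k - 1) := by
    rw [Nat.mul_sub, mul_one, ← pow_succ']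
  rw [f1, f2, f3] at key
  have p1 : 1 < q ^ k := Nat.one_lt_pow (by omega) (by omega)
  have p2 : 0 < q ^ (k + 1) := by positivity
  have p3 : q * (q ^ k - 1) * (q ^ (k + 1) - 1) < q * (q ^ k - 1) * q ^ (k + 1) :=
    Nat.mul_lt_mul_of_pos_left (by omega) (Nat.mul_pos (by omega) (by omega))
  have p4 : q * q ^ (k + 1) * ((q ^ (a + 1) - 1) * (q ^ (b + 1) - 1)) <
      q * q ^ (k + 1) * (q ^ k - 1) := by
    calc _ = q ^ (k + 1) * (q ^ (a + 1) - 1) * (q * (q ^ (b + 1) - 1)) := by ring
      _ < q * (q ^ k - 1) * q ^ (k + 1) := lt_of_le_of_lt key p3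
      _ = _ := by ring
  exact Nat.lt_of_mul_lt_mul_left p4

end Cfsg.Agent.Sg
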