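import Cfsg.Agent.Sg.Defs
import Cfsg.Agent.H1.Basic
import Cfsg.Agent.H1.PermModule

/-!
The structure of an antiflag-transitive linear group.
-/

set_option autoImplicit false
open Module Submodule

namespace Cfsg.Agent.Sg

namespace AsEx

variable {F V V' G : Type*} [Field F] [AddCommGroup V] [Module F V] [AddCommGroup V']
  [Module F V'] [Group G]
  {ρ : Representation F G V} {ρ' : Representation F G V'} {B : V →ₗ[F] V' →ₗ[F] F}

theorem nd (h : Ctx ρ ρ' B) {x : V} (hx : ∀ ξ, B x ξ = 0) : x = 0 :=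
  h.perf.bijective_left.1 (by ext ξ; simp [hx ξ])

theorem nd' (h : Ctx ρ ρ' B) {ξ : V'} (hx : ∀ x, B x ξ = 0) : ξ = 0 := nd h.flip hx

theorem ex1 (h : Ctx ρ ρ' B) {x : V} (hx : x ≠ 0) : ∃ ξ, B x ξ = 1 := by
  by_contra hc
  push Not at hc
  refine hx (nd h fun ξ => by_contra fun e => hc ((B x ξ)⁻¹ • ξ) ?_)
  simp [e]

theorem sc2 (h : Ctx ρ ρ' B) {a : F} (ha : a ≠ 0) :
    ∃ g, (∀ v, ρ g v = a • v) ∧ ∀ ξ, ρ' g ξ = a⁻¹ • ξ := by
  obtain ⟨g, hg⟩ := h.sc a ha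
  refine ⟨g, hg, fun ξ => sub_eq_zero.1 (nd' h fun x => ?_)⟩
  have := h.inv g x ξ
  rw [hg, map_smul, LinearMap.smul_apply, smul_eq_mul] at this
  rw [map_sub, map_smul, smul_eq_mul, ← this]
  field_simp
  ring

theorem atf (ha : AT ρ ρ' B) : AT ρ' ρ B.flip := fun ξ y ξ' y' h1 h2 =>
  (ha y ξ y' ξ' h1 h2).imp fun _ h => ⟨h.2, h.1⟩

theorem rr (ρ : Representation F G V) (g k : G) (v : V) : ρ (g * k) v = ρ g (ρ k v) := by
  rw [map_mul]; rfl

theorem ri (ρ : Representation F G V) (g : G) (v : V) : ρ g⁻¹ (ρ g v) = v := by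
  rw [← rr]; simp

theorem ri' (ρ : Representation F G V) (g : G) (v : V) : ρ g (ρ g⁻¹ v) = v := by
  rw [← rr]; simp

theorem rne (ρ : Representation F G V) (g : G) {v : V} (hv : v ≠ 0) : ρ g v ≠ 0 := fun e =>
  hv (by rw [← ri ρ g v, e, map_zero])

theorem tr (h : Ctx ρ ρ' B) (ha : AT ρ ρ' B) {u u' : V} (hu : u ≠ 0) (hu' : u' ≠ 0) :
    ∃ g, ρ g u = u' := by
  obtain ⟨ξ, h1⟩ := ex1 h hu
  obtain ⟨ξ', h2⟩ := ex1 h hu'
  exact (ha u ξ u' ξ' h1 h2).imp fun _ h => h.1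

/-- the stabiliser of a vector -/
def vs (ρ : Representation F G V) (u : V) : Subgroup G where
  carrier := {g | ρ g u = u}
  one_mem' := by simp
  mul_mem' {a b} (ha : ρ a u = u) (hb : ρ b u = u) := show ρ (a * b) u = u by rw [rr, hb, ha]
  inv_mem' {a} (ha : ρ a u = u) := show ρ a⁻¹ u = u by
    conv_lhs => rw [← ha]
    exact ri ρ a u

/-- flags fixed by a Sylow subgroup -/
def R (p : ℕ) (ρ : Representation F G V) (ρ' : Representation F G V') (u : V) (ξ : V') : Prop :=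
  u ≠ 0 ∧ ξ ≠ 0 ∧ ∃ P : Sylow p G, (∀ g ∈ P, ρ g u = u) ∧ ∀ g ∈ P, ρ' g ξ = ξ

variable {p : ℕ}

theorem R.flip {u : V} {ξ : V'} (h : R p ρ ρ' u ξ) : R p ρ' ρ ξ u :=
  ⟨h.2.1, h.1, h.2.2.imp fun _ h => ⟨h.2, h.1⟩⟩

theorem R.smul {u : V} {ξ : V'} (h : R p ρ ρ' u ξ) {a : F} (ha : a ≠ 0) : R p ρ ρ' (a • u) ξ :=
  ⟨smul_ne_zero ha h.1, h.2.1, h.2.2.imp fun _ h =>
    ⟨fun g hg => by rw [map_smul, h.1 g hg], h.2⟩⟩

theorem cj (P : Sylow p G) (g : G) {u : V} (hu : ∀ k ∈ P, ρ k u = u) :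
    ∀ k ∈ g • P, ρ k (ρ g u) = ρ g u := by
  intro k hk
  have h1 : g⁻¹ * k * g ∈ (P : Subgroup G) := by
    have : k ∈ ((g • P : Sylow p G) : Subgroup G) := hk
    rw [Sylow.coe_subgroup_smul, Subgroup.mem_pointwise_smul_iff_inv_smul_mem] at this
    simpa using this
  have h2 := hu _ h1
  rw [rr, rr] at h2
  rw [← ri' ρ g (ρ k (ρ g u)), h2]

theorem R.map {u : V} {ξ : V'} (h : R p ρ ρ' u ξ) (g : G) : R p ρ ρ' (ρ g u) (ρ' g ξ) := by
  obtain ⟨h1, h2, P, h3, h4⟩ := h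
  exact ⟨rne ρ g h1, rne ρ' g h2, g • P, cj P g h3, cj P g h4⟩

/-- the intersection of the hyperplanes related to `u` -/
def W (p : ℕ) (ρ : Representation F G V) (ρ' : Representation F G V') (B : V →ₗ[F] V' →ₗ[F] F)
    (u : V) : Submodule F V where
  carrier := {w | ∀ ξ, R p ρ ρ' u ξ → B w ξ = 0}
  zero_mem' := fun _ _ => by simp
  add_mem' ha hb := fun ξ h => by simp [ha ξ h, hb ξ h]
  smul_mem' a _ hb := fun ξ h => by simp [hb ξ h]

theorem mW {u w : V} : w ∈ W p ρ ρ' B u ↔ ∀ ξ, R p ρ ρ' u ξ → B w ξ = 0 := Iff.rfl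

/-- annihilator -/
def An (B : V →ₗ[F] V' →ₗ[F] F) (E : Submodule F V) : Submodule F V' where
  carrier := {ξ | ∀ w ∈ E, B w ξ = 0}
  zero_mem' := fun _ _ => by simp
  add_mem' ha hb := fun ξ h => by simp [ha ξ h, hb ξ h]
  smul_mem' a _ hb := fun ξ h => by simp [hb ξ h]

theorem mAn {E : Submodule F V} {ξ : V'} : ξ ∈ An B E ↔ ∀ w ∈ E, B w ξ = 0 := Iff.rfl

theorem rank_An [Module.Finite F V] (h : Ctx ρ ρ' B) (E : Submodule F V) :
    finrank F E + finrank F (An B E) = finrank F V := by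
  haveI := h.perf
  have e : (An B E).map (B.flip.toPerfPair : V' →ₗ[F] Dual F V) = E.dualAnnihilator := by
    ext f
    rw [Submodule.mem_map_equiv, Submodule.mem_dualAnnihilator, mAn]
    simp
  rw [← Subspace.finrank_add_finrank_dualAnnihilator_eq E, ← e, LinearEquiv.finrank_map_eq]

theorem W_mem (h : Ctx ρ ρ' B) (g : G) {u w : V} (hw : w ∈ W p ρ ρ' B u) :
    ρ g w ∈ W p ρ ρ' B (ρ g u) := by
  intro ξ hξ
  have := hξ.map g⁻¹
  rw [ri] at this
  rw [← h.inv g⁻¹, ri]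
  exact hw _ this

theorem W_map (h : Ctx ρ ρ' B) (g : G) (u : V) :
    W p ρ ρ' B (ρ g u) = (W p ρ ρ' B u).map (ρ g) := by
  apply le_antisymm
  · intro w hw
    have := W_mem h g⁻¹ hw
    rw [ri] at this
    exact ⟨_, this, ri' ρ g w⟩
  · rintro _ ⟨w, hw, rfl⟩
    exact W_mem h g hw

theorem W_smul {a : F} (ha : a ≠ 0) (u : V) : W p ρ ρ' B (a • u) = W p ρ ρ' B u := by
  ext w
  refine ⟨fun h ξ hξ => h ξ (hξ.smul ha), fun h ξ hξ => h ξ ?_⟩
  simpa [smul_smul, ha] using hξ.smul (inv_ne_zero ha)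

theorem W_rank (h : Ctx ρ ρ' B) (ha : AT ρ ρ' B) {u u' : V} (hu : u ≠ 0) (hu' : u' ≠ 0) :
    finrank F (W p ρ ρ' B u') = finrank F (W p ρ ρ' B u) := by
  obtain ⟨g, rfl⟩ := tr h ha hu hu'
  rw [W_map h]
  exact (Submodule.equivMapOfInjective _
    (fun a b e => by rw [← ri ρ g a, e, ri]) _).finrank_eq.symm

theorem both (a b : V →ₗ[F] F) {x y : V} (hx : a x ≠ 0) (hy : b y ≠ 0) :
    ∃ w, a w ≠ 0 ∧ b w ≠ 0 := by
  by_cases h1 : b x = 0
  · by_cases h2 : a y = 0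
    · exact ⟨x + y, by simp [hx, h2], by simp [hy, h1]⟩
    · exact ⟨y, h2, hy⟩
  · exact ⟨x, hx, h1⟩

variable [Fintype F] [Module.Finite F V] [Module.Finite F V'] [Finite G] [Fact p.Prime] [CharP F p]

omit [Module.Finite F V'] in
theorem syl (h : Ctx ρ ρ' B) (ha : AT ρ ρ' B) (P : Sylow p G) {ξ : V'}
    (hP : ∀ g ∈ P, ρ' g ξ = ξ) {z z' : V} (hz : B z ξ = 1) (hz' : B z' ξ = 1) :
    ∃ g ∈ P, ρ g z = z' := by
  haveI : Finite V := Module.finite_of_finite F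
  letI : MulAction (vs ρ' ξ) {z : V // B z ξ = 1} :=
    { smul := fun g z => ⟨ρ g.1 z.1, by
        have e : ρ' g.1 ξ = ξ := g.2
        have := h.inv g.1 z.1 ξ
        rw [e] at this
        rw [this, z.2]⟩
      one_smul := fun z => Subtype.ext (show ρ 1 z.1 = z.1 by simp)
      mul_smul := fun g k z => Subtype.ext (rr ρ g.1 k.1 z.1) }
  haveI : MulAction.IsPretransitive (vs ρ' ξ) {z : V // B z ξ = 1} := ⟨fun x y => by
    obtain ⟨g, e1, e2⟩ := ha x.1 ξ y.1 ξ x.2 y.2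
    exact ⟨⟨g, e2⟩, Subtype.ext e1⟩⟩
  have e : {w : V // B w ξ = 1} ≃ LinearMap.ker (B.flip ξ) :=
    { toFun := fun w => ⟨w.1 - z, by simp [w.2, hz]⟩
      invFun := fun w => ⟨w.1 + z, by
        have : B w.1 ξ = 0 := w.2
        simp [this, hz]⟩
      left_inv := fun w => by simp
      right_inv := fun w => by simp }
  obtain ⟨f, -, hf⟩ := FiniteField.card F p
  have hc : Nat.card {z : V // B z ξ = 1} = p ^ (f * finrank F (LinearMap.ker (B.flip ξ))) := by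
    rw [Nat.card_congr e, Module.natCard_eq_pow_finrank (K := F), Nat.card_eq_fintype_card, hf,
      ← pow_mul]
  have hle : (P : Subgroup G) ≤ vs ρ' ξ := fun g hg => hP g hg
  obtain ⟨g, hg⟩ := (H1.Basic.sylow_isPretransitive hc (P.subtype hle)).exists_smul_eq
    ⟨z, hz⟩ ⟨z', hz'⟩
  exact ⟨g.1.1, g.2, congrArg Subtype.val hg⟩

omit [Module.Finite F V] in
/-- a Sylow subgroup fixes a unique point -/
theorem uniq (h : Ctx ρ ρ' B) (ha : AT ρ ρ' B) (P : Sylow p G) {u u' : V} (hu : u ≠ 0)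
    (h1 : ∀ g ∈ P, ρ g u = u) (h2 : ∀ g ∈ P, ρ g u' = u') : ∃ t : F, u' = t • u := by
  obtain ⟨η, hη⟩ := ex1 h hu
  have k : ∀ η', B u η' = 1 → B u' η' = B u' η := fun η' h3 => by
    obtain ⟨g, hg, e⟩ := syl h.flip (atf ha) P h1 (z := η) (z' := η') hη h3
    rw [← e, ← h.inv g u' η, h2 g hg]
  refine ⟨B u' η, sub_eq_zero.1 (nd h fun ξ => ?_)⟩
  have := k (ξ + (1 - B u ξ) • η) (by simp [hη])
  simp only [map_add, map_smul, smul_eq_mul, map_sub, LinearMap.sub_apply,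
    LinearMap.smul_apply] at this ⊢
  linear_combination this

omit [Fintype F] [Module.Finite F V] in
theorem exfix (P : Sylow p G) (E : Submodule F V) (hE : ∀ g ∈ P, ∀ v ∈ E, ρ g v ∈ E) (h0 : E ≠ ⊥) :
    ∃ v ∈ E, v ≠ 0 ∧ ∀ g ∈ P, ρ g v = v := by
  obtain ⟨v, h1, h2, h3⟩ := H1.PermModule.exists_fixed_ne_zero P.isPGroup'
    (ρ.comp (P : Subgroup G).subtype) E (fun g v hv => hE g.1 g.2 v hv) h0
  exact ⟨v, h1, h2, fun g hg => h3 ⟨g, hg⟩⟩

omit [Fintype F] [Module.Finite F V] [Module.Finite F V'] in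
theorem exR (h : Ctx ρ ρ' B) (ha : AT ρ ρ' B) {u : V} (hu : u ≠ 0) : ∃ ξ, R p ρ ρ' u ξ := by
  obtain ⟨P⟩ : Nonempty (Sylow p G) := inferInstance
  obtain ⟨η, hη⟩ := ex1 h hu
  have h0 : η ≠ 0 := by rintro rfl; simp at hη
  obtain ⟨u0, -, h1, h2⟩ := exfix (ρ := ρ) P ⊤ (fun _ _ _ _ => trivial)
    ((Submodule.ne_bot_iff _).2 ⟨u, trivial, hu⟩)
  obtain ⟨ξ0, -, h3, h4⟩ := exfix (ρ := ρ') P ⊤ (fun _ _ _ _ => trivial)
    ((Submodule.ne_bot_iff _).2 ⟨η, trivial, h0⟩)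
  obtain ⟨g, rfl⟩ := tr h ha h1 hu
  exact ⟨_, R.map ⟨h1, h3, P, h2, h4⟩ g⟩

omit [Module.Finite F V'] in
theorem R.zero (h : Ctx ρ ρ' B) (ha : AT ρ ρ' B) (hn : 2 ≤ finrank F V) {u : V} {ξ : V'}
    (hr : R p ρ ρ' u ξ) : B u ξ = 0 := by
  by_contra hc
  obtain ⟨-, -, P, h1, h2⟩ := hr
  have h3 := LinearMap.finrank_range_add_finrank_ker (B.flip ξ)
  have h4 : finrank F (LinearMap.range (B.flip ξ)) ≤ 1 := by
    simpa using Submodule.finrank_le (LinearMap.range (B.flip ξ))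
  obtain ⟨w, hw⟩ := finrank_pos_iff_exists_ne_zero.1
    (show 0 < finrank F (LinearMap.ker (B.flip ξ)) by omega)
  have h5 : B w.1 ξ = 0 := w.2
  obtain ⟨g, hg, e⟩ := syl h ha P h2 (z := (B u ξ)⁻¹ • u) (z' := (B u ξ)⁻¹ • u + w.1)
    (by simp [hc]) (by simp [hc, h5])
  rw [map_smul, h1 g hg] at e
  exact hw (Subtype.ext (by simpa using e))

omit [Module.Finite F V'] in
theorem R.off (h : Ctx ρ ρ' B) (ha : AT ρ ρ' B) {u : V} {ξ : V'} (hr : R p ρ ρ' u ξ) {z z' : V}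
    (hz : B z ξ ≠ 0) (hz' : B z' ξ ≠ 0) : ∃ g, ∃ a : F, ρ g u = a • u ∧ ρ g z = z' := by
  obtain ⟨-, -, P, h1, h2⟩ := hr
  obtain ⟨g, hg, e⟩ := syl h ha P h2 (z := (B z ξ)⁻¹ • z) (z' := (B z' ξ)⁻¹ • z')
    (by simp [hz]) (by simp [hz'])
  obtain ⟨k, hk⟩ := h.sc (B z' ξ * (B z ξ)⁻¹) (by simp [hz, hz'])
  refine ⟨k * g, _, by rw [rr, h1 g hg, hk], ?_⟩
  rw [rr, hk, mul_smul, ← map_smul, e, smul_smul]
  simp [hz']

omit [Module.Finite F V'] in
theorem W_trans (h : Ctx ρ ρ' B) (ha : AT ρ ρ' B) {u z z' : V} (hz : z ∉ W p ρ ρ' B u)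
    (hz' : z' ∉ W p ρ ρ' B u) : ∃ g, ∃ a : F, ρ g u = a • u ∧ ρ g z = z' := by
  rw [mW] at hz hz'
  push Not at hz hz'
  obtain ⟨ξ, h1, h2⟩ := hz
  obtain ⟨η, h3, h4⟩ := hz'
  obtain ⟨w, h5, h6⟩ := both (B.flip ξ) (B.flip η) (x := z) (y := z') h2 h4
  obtain ⟨g, a, e1, e2⟩ := h1.off h ha h2 h5
  obtain ⟨k, b, e3, e4⟩ := h3.off h ha h6 h4
  exact ⟨k * g, a * b, by rw [rr, e1, map_smul, e3, smul_smul], by rw [rr, e2, e4]⟩

omit [Fintype F] [Module.Finite F V'] in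
theorem W_lt (h : Ctx ρ ρ' B) (ha : AT ρ ρ' B) {u : V} (hu : u ≠ 0) :
    finrank F (W p ρ ρ' B u) < finrank F V := by
  obtain ⟨ξ, hξ⟩ := exR (p := p) h ha hu
  exact Submodule.finrank_lt fun e => hξ.2.1 (nd' h fun x =>
    (show x ∈ W p ρ ρ' B u from e ▸ Submodule.mem_top) ξ hξ)

theorem conjR (h : Ctx ρ ρ' B) (ha : AT ρ ρ' B) {u u' : V} {ξ ξ' : V'} (h1 : R p ρ ρ' u ξ)
    (h2 : R p ρ ρ' u' ξ') : ∃ g, ∃ a : F, ρ g u = u' ∧ ρ' g ξ = a • ξ' := by
  obtain ⟨a1, a2, P, a3, a4⟩ := h1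
  obtain ⟨b1, b2, Q, b3, b4⟩ := h2
  obtain ⟨g, rfl⟩ := MulAction.exists_smul_eq G P Q
  obtain ⟨s, hs⟩ := uniq h ha _ b1 b3 (cj P g a3)
  obtain ⟨t, ht⟩ := uniq h.flip (atf ha) _ b2 b4 (cj P g a4)
  have h0 : s ≠ 0 := by rintro rfl; exact rne ρ g a1 (by simpa using hs)
  obtain ⟨k, k1, k2⟩ := sc2 h (inv_ne_zero h0)
  exact ⟨k * g, s * t, by rw [rr, hs, k1, smul_smul]; simp [h0],
    by rw [rr, ht, k2, smul_smul]; simp⟩

/-- every hyperplane over `W u` is related to `u` -/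
theorem four (h : Ctx ρ ρ' B) (ha : AT ρ ρ' B) {u : V} (hu : u ≠ 0) {η : V'} (h0 : η ≠ 0)
    (hη : ∀ w ∈ W p ρ ρ' B u, B w η = 0) : R p ρ ρ' u η := by
  classical
  haveI : Finite V := Module.finite_of_finite F
  haveI : Finite V' := Module.finite_of_finite F
  letI := Fintype.ofFinite V
  letI := Fintype.ofFinite V'
  obtain ⟨ψ, hψ⟩ := (AddChar.exists_apply_ne_zero (α := F) (a := 1)).2 one_ne_zero
  have s0 : ∀ ξ : V', ∑ z : V, ψ (B z ξ) = if ξ = 0 then (Fintype.card V : ℂ) else 0 := by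
    intro ξ
    split_ifs with e
    · simp [e]
    · obtain ⟨x, hx⟩ := ex1 h.flip e
      have := (AddChar.sum_eq_zero_iff_ne_zero
        (ψ := ψ.compAddMonoidHom (B.flip ξ).toAddMonoidHom)).2 fun e' => hψ (by
          have := DFunLike.congr_fun e' x
          simpa [show B x ξ = 1 from hx] using this)
      simpa using this
  set X : Finset V' := Finset.univ.filter fun ξ => R p ρ ρ' u ξ with hX
  set f : V → ℂ := fun z => ∑ ξ ∈ X, ψ (B z ξ) with hf
  obtain ⟨z0, hz0⟩ : ∃ z0, z0 ∉ W p ρ ρ' B u := by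
    by_contra hc
    push Not at hc
    exact (W_lt (p := p) h ha hu).ne (by rw [Submodule.eq_top_iff'.2 hc, finrank_top])
  have f1 : ∀ z, z ∉ W p ρ ρ' B u → f z = f z0 := fun z hz => by
    obtain ⟨g, a, e1, rfl⟩ := W_trans h ha hz0 hz
    have a0 : a ≠ 0 := by rintro rfl; exact rne ρ g hu (by simpa using e1)
    have e2 : ρ g⁻¹ u = a⁻¹ • u := by
      have := ri ρ g u
      rw [e1, map_smul] at this
      rw [eq_inv_smul_iff₀ a0, this]
    symm
    refine Finset.sum_bij' (fun ξ _ => ρ' g ξ) (fun ξ _ => ρ' g⁻¹ ξ) ?_ ?_ (fun ξ _ => ri ρ' g ξ)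
      (fun ξ _ => ri' ρ' g ξ) (fun ξ _ => by rw [h.inv])
    · intro ξ hξ
      simp only [hX, Finset.mem_filter, Finset.mem_univ, true_and] at hξ ⊢
      have := (hξ.map g).smul (inv_ne_zero a0)
      rwa [e1, smul_smul, inv_mul_cancel₀ a0, one_smul] at this
    · intro ξ hξ
      simp only [hX, Finset.mem_filter, Finset.mem_univ, true_and] at hξ ⊢
      have := (hξ.map g⁻¹).smul a0
      rwa [e2, smul_smul, mul_inv_cancel₀ a0, one_smul] at this
  have key : ∀ η : V', η ≠ 0 → (∀ w ∈ W p ρ ρ' B u, B w η = 0) →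
      (if η ∈ X then (Fintype.card V : ℂ) else 0) = ∑ z, (f z - f z0) := by
    intro η h0 hη
    have e1 : ∑ z, f z * ψ (B z (-η)) = if η ∈ X then (Fintype.card V : ℂ) else 0 := by
      simp only [hf, Finset.sum_mul]
      rw [Finset.sum_comm]
      have : ∀ ξ ∈ X, ∑ z, ψ (B z ξ) * ψ (B z (-η)) =
          if ξ = η then (Fintype.card V : ℂ) else 0 := fun ξ _ => by
        simp only [← AddChar.map_add_eq_mul, ← map_add]
        rw [s0, ← sub_eq_add_neg]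
        simp only [sub_eq_zero]
      rw [Finset.sum_congr rfl this, Finset.sum_ite_eq']
    have e2 : ∑ z, f z0 * ψ (B z (-η)) = 0 := by
      rw [← Finset.mul_sum, s0, if_neg (neg_ne_zero.2 h0), mul_zero]
    rw [← e1, ← sub_zero (∑ z, f z * ψ (B z (-η))), ← e2, ← Finset.sum_sub_distrib]
    refine Finset.sum_congr rfl fun z _ => ?_
    by_cases hz : z ∈ W p ρ ρ' B u
    · simp [hη z hz]
    · rw [f1 z hz]; simp
  obtain ⟨ξ, hξ⟩ := exR (p := p) h ha hu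
  have k1 := key ξ hξ.2.1 fun w hw => hw ξ hξ
  rw [if_pos (by simpa [hX] using hξ), ← key η h0 hη] at k1
  by_contra hc
  rw [if_neg (by simpa [hX] using hc)] at k1
  exact (Nat.cast_ne_zero.2 Fintype.card_ne_zero) k1

theorem filt (h : Ctx ρ ρ' B) (ha : AT ρ ρ' B) [Fintype V'] {u : V} (hu : u ≠ 0)
    [DecidablePred fun ξ => R p ρ ρ' u ξ] :
    (Finset.univ.filter fun ξ => R p ρ ρ' u ξ).card + 1 =
      Fintype.card F ^ finrank F (An B (W p ρ ρ' B u)) := by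
  classical
  rw [← Nat.card_eq_fintype_card, ← Module.natCard_eq_pow_finrank, Nat.card_eq_fintype_card,
    Fintype.card_subtype, ← Finset.card_erase_add_one
      (a := 0) (s := Finset.univ.filter fun x => x ∈ An B (W p ρ ρ' B u)) (by simp)]
  congr 2
  ext ξ
  simp only [Finset.mem_filter, Finset.mem_univ, true_and, Finset.mem_erase]
  exact ⟨fun k => ⟨k.2.1, fun w hw => hw ξ k⟩, fun k => four h ha hu k.1 k.2⟩

theorem ranks (h : Ctx ρ ρ' B) (ha : AT ρ ρ' B) {u : V} (hu : u ≠ 0) {ξ : V'} (hξ : ξ ≠ 0) :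
    finrank F (An B.flip (W p ρ' ρ B.flip ξ)) = finrank F (An B (W p ρ ρ' B u)) := by
  classical
  haveI : Finite V := Module.finite_of_finite F
  haveI : Finite V' := Module.finite_of_finite F
  letI := Fintype.ofFinite V
  letI := Fintype.ofFinite V'
  have hv : Fintype.card V' = Fintype.card V := by
    haveI := h.perf
    rw [Module.card_eq_pow_finrank (K := F), Module.card_eq_pow_finrank (K := F) (V := V),
      ← B.toPerfPair.symm.finrank_eq, Subspace.dual_finrank_eq]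
  set c := finrank F (An B (W p ρ ρ' B u))
  set c' := finrank F (An B.flip (W p ρ' ρ B.flip ξ))
  have e := Finset.card_mul_eq_card_mul (s := Finset.univ.erase (0 : V))
    (t := Finset.univ.erase (0 : V')) (fun a b => R p ρ ρ' a b)
    (m := Fintype.card F ^ c - 1) (n := Fintype.card F ^ c' - 1) (fun a ha' => by
      have a0 := Finset.ne_of_mem_erase ha'
      have e1 := filt (p := p) h ha a0
      have e2 := rank_An h (W p ρ ρ' B a)
      have e3 := rank_An h (W p ρ ρ' B u)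
      rw [W_rank h ha hu a0] at e2
      rw [show finrank F (An B (W p ρ ρ' B a)) = c by omega] at e1
      rw [← e1, Nat.add_sub_cancel]
      congr 1
      ext b
      simp only [Finset.mem_bipartiteAbove, Finset.mem_erase, Finset.mem_univ, and_true,
        Finset.mem_filter, true_and]
      exact ⟨fun k => k.2, fun k => ⟨k.2.1, k⟩⟩) (fun b hb => by
      have a0 := Finset.ne_of_mem_erase hb
      have e1 := filt (p := p) h.flip (atf ha) a0
      have e2 := rank_An h.flip (W p ρ' ρ B.flip b)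
      have e3 := rank_An h.flip (W p ρ' ρ B.flip ξ)
      rw [W_rank h.flip (atf ha) hξ a0] at e2
      rw [show finrank F (An B.flip (W p ρ' ρ B.flip b)) = c' by omega] at e1
      rw [← e1, Nat.add_sub_cancel]
      congr 1
      ext a
      simp only [Finset.mem_bipartiteBelow, Finset.mem_erase, Finset.mem_univ, and_true,
        Finset.mem_filter, true_and]
      exact ⟨fun k => k.2.flip, fun k => ⟨k.2.1, k.flip⟩⟩)
  rw [Finset.card_erase_of_mem (Finset.mem_univ _), Finset.card_erase_of_mem (Finset.mem_univ _),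
    Finset.card_univ, Finset.card_univ, hv] at e
  haveI : Nontrivial V := ⟨u, 0, hu⟩
  have h1 : 0 < Fintype.card V - 1 := by have := Fintype.one_lt_card (α := V); omega
  have h2 := Nat.eq_of_mul_eq_mul_left h1 e
  have q1 : 1 < Fintype.card F := Fintype.one_lt_card
  have p1 : 0 < Fintype.card F ^ c := by positivity
  have p2 : 0 < Fintype.card F ^ c' := by positivity
  exact Nat.pow_right_injective q1 (show Fintype.card F ^ c' = Fintype.card F ^ c by omega)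

omit [Module.Finite F V'] in
theorem W_symm (h : Ctx ρ ρ' B) (ha : AT ρ ρ' B) {u v : V} (hu : u ≠ 0) (hv : v ≠ 0)
    (huv : v ∈ W p ρ ρ' B u) : u ∈ W p ρ ρ' B v := by
  classical
  haveI : Finite V := Module.finite_of_finite F
  letI := Fintype.ofFinite V
  obtain ⟨a, b, a0, b0, h1, h2⟩ : ∃ a b : V, a ≠ 0 ∧ b ≠ 0 ∧ b ∉ W p ρ ρ' B a ∧
      a ∉ W p ρ ρ' B b := by
    by_contra hc
    push Not at hc
    set k := finrank F (W p ρ ρ' B u)
    have cw : ∀ a, a ≠ 0 → (Finset.univ.filter fun x => x ∈ W p ρ ρ' B a).card =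
        Fintype.card F ^ k := fun a a0 => by
      rw [← Fintype.card_subtype, Module.card_eq_pow_finrank (K := F), W_rank h ha hu a0]
    have hV : 2 * Fintype.card F ^ k ≤ Fintype.card V := by
      rw [Module.card_eq_pow_finrank (K := F) (V := V)]
      have q1 : 2 ≤ Fintype.card F := Fintype.one_lt_card
      calc 2 * Fintype.card F ^ k ≤ Fintype.card F ^ (k + 1) := by
            rw [pow_succ, mul_comm]; exact Nat.mul_le_mul_left _ q1
        _ ≤ _ := Nat.pow_le_pow_right (by omega) (W_lt h ha hu)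
    have e := Finset.card_mul_le_card_mul (s := Finset.univ.erase (0 : V))
      (t := Finset.univ.erase (0 : V)) (fun a b => b ∉ W p ρ ρ' B a)
      (m := Fintype.card F ^ k) (n := Fintype.card F ^ k - 1) (fun a ha' => by
        have e1 := Finset.card_filter_add_card_filter_not (s := Finset.univ)
          (fun x => x ∈ W p ρ ρ' B a)
        rw [cw a (Finset.ne_of_mem_erase ha'), Finset.card_univ] at e1
        refine le_trans (by omega : _ ≤ (Finset.univ.filter fun x => ¬ x ∈ W p ρ ρ' B a).card)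
          (Finset.card_le_card fun b hb => ?_)
        simp only [Finset.mem_bipartiteAbove, Finset.mem_erase, Finset.mem_univ, and_true,
          Finset.mem_filter, true_and] at hb ⊢
        exact ⟨by rintro rfl; exact hb (Submodule.zero_mem _), hb⟩) (fun b hb => by
        have b0 := Finset.ne_of_mem_erase hb
        rw [← cw b b0, ← Finset.card_erase_of_mem (a := 0) (by simp)]
        refine Finset.card_le_card fun a ha' => ?_
        simp only [Finset.mem_bipartiteBelow, Finset.mem_erase, Finset.mem_univ, and_true,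
          Finset.mem_filter, true_and] at ha' ⊢
        exact ⟨ha'.1, hc a b ha'.1 b0 ha'.2⟩)
    have h1 : 0 < (Finset.univ.erase (0 : V)).card := Finset.card_pos.2 ⟨u, by simp [hu]⟩
    have h2 := Nat.le_of_mul_le_mul_left e h1
    have p1 : 0 < Fintype.card F ^ k := pow_pos Fintype.card_pos _
    omega
  by_contra hc
  obtain ⟨g, rfl⟩ := tr h ha a0 hv
  have h3 : ρ g b ∉ W p ρ ρ' B (ρ g a) := fun e => h1 (by simpa [ri] using W_mem h g⁻¹ e)
  obtain ⟨k, s, e1, e2⟩ := W_trans h ha hc h3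
  have h4 := W_mem h k huv
  rw [e1, e2] at h4
  have s0 : s ≠ 0 := by rintro rfl; exact rne ρ k hv (by simpa using e1)
  have h5 := W_mem h g⁻¹ ((Submodule.smul_mem_iff _ s0).1 h4)
  rw [ri, ri] at h5
  exact h2 h5

end AsEx

variable {F V V' G : Type*} [Field F] [Fintype F] [AddCommGroup V] [Module F V] [Module.Finite F V]
  [AddCommGroup V'] [Module F V'] [Module.Finite F V'] [Group G] [Finite G]
  {ρ : Representation F G V} {ρ' : Representation F G V'} {B : V →ₗ[F] V' →ₗ[F] F}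

open AsEx in
theorem as_ex (h : Ctx ρ ρ' B) (ha : AT ρ ρ' B) (hn : 2 ≤ finrank F V) :
    ∃ c W T, AS ρ ρ' B c W T := by
  obtain ⟨p, hp⟩ := CharP.exists F
  haveI : Fact p.Prime := ⟨CharP.char_is_prime F p⟩
  obtain ⟨u0, hu0⟩ : ∃ u : V, u ≠ 0 := finrank_pos_iff_exists_ne_zero.1
    (show 0 < finrank F V by omega)
  have hT : ∀ {ξ : V'} {u : V}, ξ ≠ 0 → u ≠ 0 → u ∈ An B.flip (W p ρ' ρ B.flip ξ) →
      R p ρ ρ' u ξ := fun h1 h2 h3 => (four h.flip (atf ha) h1 h2 h3).flip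
  have hT' : ∀ {ξ : V'} {u : V}, R p ρ ρ' u ξ → u ∈ An B.flip (W p ρ' ρ B.flip ξ) :=
    fun h1 η hη => hη _ h1.flip
  have hO : ∀ {ξ η : V'}, (∃ u ∈ An B.flip (W p ρ' ρ B.flip ξ), B u η ≠ 0) →
      η ∉ W p ρ' ρ B.flip ξ := fun ⟨u, h1, h2⟩ h3 => h2 (h1 _ h3)
  refine ⟨finrank F (An B (W p ρ ρ' B u0)), W p ρ ρ' B, fun ξ => An B.flip (W p ρ' ρ B.flip ξ),
    ?_, fun u ξ hξ => hξ.zero h ha hn, fun u hu => ?_, fun g u _ => W_map h g u,
    fun a u h0 => W_smul h0 u, fun u v => W_symm h ha, fun u z z' _ hz hz' => ?_,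
    fun ξ u hξ => ?_, fun ξ hξ => ranks h ha hu0 hξ, fun ξ u u' hξ h1 h2 h3 h4 => ?_,
    fun ξ hξ E hE hi u hu => ?_, fun ξ η η' _ h1 h2 => ?_, fun ξ η hξ hη h1 u hu => ?_⟩
  · have := rank_An h (W p ρ ρ' B u0)
    have := W_lt (p := p) h ha hu0
    omega
  · rw [W_rank h ha hu0 hu]; exact rank_An h _
  · obtain ⟨g, a, e1, e2⟩ := W_trans h ha hz hz'
    exact ⟨g, mem_span_singleton.2 ⟨a, e1.symm⟩, e2⟩
  · refine ⟨fun k => ?_, fun k => ?_⟩
    · by_cases hu : u = 0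
      · exact Or.inl hu
      · exact Or.inr fun w hw => hw ξ (hT hξ hu k)
    · by_cases hu : u = 0
      · rw [hu]; exact Submodule.zero_mem _
      · exact hT' (four h ha hu hξ (k.resolve_left hu))
  · obtain ⟨g, a, e1, e2⟩ := conjR h ha (hT hξ h3 h1) (hT hξ h4 h2)
    exact ⟨g, mem_span_singleton.2 ⟨a, e2.symm⟩, e1⟩
  · by_cases h0 : u = 0
    · rw [h0]; exact Submodule.zero_mem _
    obtain ⟨-, -, P, h1, h2⟩ := hT hξ h0 hu
    obtain ⟨v, v1, v2, v3⟩ := exfix (ρ := ρ) P E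
      (fun g hg => hi g (by rw [h2 g hg]; exact mem_span_singleton_self _)) hE
    obtain ⟨t, rfl⟩ := uniq h ha P v2 v3 h1
    exact E.smul_mem t v1
  · obtain ⟨g, a, e1, e2⟩ := W_trans h.flip (atf ha) (hO h1) (hO h2)
    exact ⟨g, mem_span_singleton.2 ⟨a, e1.symm⟩, e2⟩
  · exact hu ξ (W_symm h.flip (atf ha) hξ hη fun w hw => h1 w (hT' hw.flip))

end Cfsg.Agent.Sg
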