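import Cfsg.Agent.Sg.Wt3
import Cfsg.Agent.Sg.AsEx

set_option autoImplicit false
open Module Submodule

namespace Cfsg.Agent.Sg

variable {F V V' G : Type*} [Field F] [Fintype F] [AddCommGroup V] [Module F V] [Module.Finite F V]
  [AddCommGroup V'] [Module F V'] [Module.Finite F V'] [Group G] [Finite G]
  {ρ : Representation F G V} {ρ' : Representation F G V'} {B : V →ₗ[F] V' →ₗ[F] F}

theorem wt (h : Ctx ρ ρ' B) (h2 : T2 ρ) (h3 : F3 ρ ρ' B) (hp : PT ρ) (hn : 4 ≤ finrank F V) :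
    ∃ c W T, WS ρ c W ∧ TS ρ ρ' B c W T := by
  haveI : Nontrivial V := Module.nontrivial_of_finrank_pos (R := F) (by omega)
  obtain ⟨x₀, hx₀⟩ := exists_ne (0 : V)
  have hq := Wt.finrank_q (F := F) hx₀
  obtain ⟨c, W0, T0, a⟩ := as_ex (Wt.ctxq h x₀) (Wt.atq h h3 hx₀) (by omega)
  exact Wt.wt_of h h2 h3 hp hn hx₀ a

end Cfsg.Agent.Sg
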