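import Cfsg.Agent.Sg.Main0
import Cfsg.Agent.Sg.Tri
import Cfsg.Agent.Sg.Wt
import Cfsg.Agent.Sg.Fin
import Cfsg.Agent.Sg.Sp

set_option autoImplicit false
open Module Submodule

namespace Cfsg.Agent.Sg

variable {F V V' G : Type*} [Field F] [Fintype F] [AddCommGroup V] [Module F V] [Module.Finite F V]
  [AddCommGroup V'] [Module F V'] [Module.Finite F V'] [Group G] [Finite G]
  {ρ : Representation F G V} {ρ' : Representation F G V'} {B : V →ₗ[F] V' →ₗ[F] F}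
  {K : Type*} [Field K] [Fintype K] [Algebra F K]

theorem main_of' (h : Ctx ρ ρ' B) (hi : Function.Injective ρ) (hi' : Function.Injective ρ')
    (e : V ≃ₗ[F] K) (e' : V' ≃ₗ[F] K) (hp : (finrank F K).Prime) (h13 : 13 ≤ finrank F K)
    (hS : Sing ρ e) (hS' : Sing ρ' e') (h2 : T2 ρ)
    (w1 : T2 ρ → F3 ρ ρ' B → PT ρ → 4 ≤ finrank F V → ∃ c W T, WS ρ c W ∧ TS ρ ρ' B c W T)
    (w2 : T2 ρ' → F3 ρ' ρ B.flip → PT ρ' → 4 ≤ finrank F V' →
      ∃ c W T, WS ρ' c W ∧ TS ρ' ρ B.flip c W T) : CC ρ := by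
  have n1 := e.finrank_eq
  have n2 := e'.finrank_eq
  obtain ⟨h2', f3⟩ := af h h2 (by omega)
  obtain ⟨-, f3'⟩ := af h.flip h2' (by omega)
  have p1 := pt h f3 (by omega)
  have p2 := pt h.flip f3' (by omega)
  obtain ⟨c, W, T, hW, hT⟩ := w1 h2 f3 p1 (by omega)
  obtain ⟨c', W', T', hW', hT'⟩ := w2 h2' f3' p2 (by omega)
  have q1 := poly e hp h13 hS hW
  have q2 := poly e' hp h13 hS' hW'
  rcases le_total c' c with k | k
  · exact half h hi p2 n1 hp h13 hW hT hW' hT' (by omega) k (tri hW (by omega) (by omega))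
      fun hs ho hc _ hr hq _ _ hxy _ _ hz => sp h hi h2 f3 hW hs ho hc hr hq hxy hz
  · exact cc_flip h (half h.flip hi' p1 n2 hp h13 hW' hT' hW hT (by omega) k
      (tri hW' (by omega) (by omega))
      fun hs ho hc _ hr hq _ _ hxy _ _ hz => sp h.flip hi' h2' f3' hW' hs ho hc hr hq hxy hz)

theorem main' (h : Ctx ρ ρ' B) (hi : Function.Injective ρ) (hi' : Function.Injective ρ')
    (e : V ≃ₗ[F] K) (e' : V' ≃ₗ[F] K) (hp : (finrank F K).Prime) (h13 : 13 ≤ finrank F K)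
    (hS : Sing ρ e) (hS' : Sing ρ' e') (h2 : T2 ρ) : CC ρ :=
  main_of' h hi hi' e e' hp h13 hS hS' h2 (wt h) (wt h.flip)

universe u

theorem singer' : SG.Singer.{u} :=
  singer_of fun _ _ _ _ _ _ _ _ _ _ _ _ _ h hi hi' e e' hp h13 hS hS' h2 =>
    main' h hi hi' e e' hp h13 hS hS' h2

end Cfsg.Agent.Sg
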