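import Cfsg.Agent.Sg.Defs
import Cfsg.Agent.H8.WS

/-!
Antiflags, flags and planes for a group that is doubly transitive on points.
-/

set_option autoImplicit false
open Module Submodule

namespace Cfsg.Agent.Sg

open Cfsg.Agent.H7

variable {F V V' G : Type*} [Field F] [AddCommGroup V] [Module F V]
  [AddCommGroup V'] [Module F V'] [Group G]
  {ρ : Representation F G V} {ρ' : Representation F G V'} {B : V →ₗ[F] V' →ₗ[F] F}

namespace Af

/-- the automorphism attached to a group element -/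
noncomputable def eqv (ρ : Representation F G V) : G →* (V ≃ₗ[F] V) :=
  (LinearMap.GeneralLinearGroup.generalLinearEquiv F V).toMonoidHom.comp ρ.asGroupHom

theorem eqv_apply (g : G) (v : V) : eqv ρ g v = ρ g v := rfl

/-- the image of the group -/
noncomputable def XX (ρ : Representation F G V) : Subgroup (V ≃ₗ[F] V) := (eqv ρ).range

theorem eqv_mem (g : G) : eqv ρ g ∈ XX ρ := ⟨g, rfl⟩

theorem t2 (h : T2 ρ) : H8.T2tv.T2 (XX ρ) := by
  intro u w u' w' hu hw hu' hw'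
  obtain ⟨g, e1, e2⟩ := h u w u' w' ⟨hu, hw⟩ ⟨hu', hw'⟩
  obtain ⟨b, hb⟩ := mem_span_singleton.1 e2
  exact ⟨_, eqv_mem g, 1, b, by rw [one_smul]; exact e1, hb.symm⟩

theorem ext' (h : Ctx ρ ρ' B) {ξ η : V'} (e : ∀ v, B v ξ = B v η) : ξ = η :=
  h.perf.bijective_right.1 (LinearMap.ext e)

theorem exists_of_dual (h : Ctx ρ ρ' B) (φ : Dual F V) : ∃ ξ, ∀ v, B v ξ = φ v := by
  obtain ⟨ξ, e⟩ := h.perf.bijective_right.2 φ
  exact ⟨ξ, fun v => by rw [← e]; rfl⟩

theorem exists_of_dual' (h : Ctx ρ ρ' B) (φ : Dual F V') : ∃ x, ∀ ξ, B x ξ = φ ξ :=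
  exists_of_dual h.flip φ

theorem rho_inv (g : G) (v : V) : ρ g (ρ g⁻¹ v) = v := by
  rw [← Module.End.mul_apply, ← map_mul]; simp

theorem dual_eq (h : Ctx ρ ρ' B) {g : G} {ξ ξ' : V'} (e : ∀ z, B (ρ g z) ξ' = B z ξ) :
    ρ' g ξ = ξ' := ext' h fun v => by
  rw [← rho_inv (ρ := ρ) g v, h.inv, e]

theorem finrank_eq [Module.Finite F V] (h : Ctx ρ ρ' B) : finrank F V' = finrank F V := by
  rw [← Subspace.dual_finrank_eq (K := F) (V := V)]
  exact (LinearEquiv.ofBijective B.flip h.perf.bijective_right).finrank_eq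

variable [Fintype F] [Module.Finite F V] [Module.Finite F V']

omit [Module.Finite F V'] in
theorem f3 (h : Ctx ρ ρ' B) (h2 : T2 ρ) (hn : 3 ≤ finrank F V) : F3 ρ ρ' B := by
  intro y ξ x y' ξ' x' e1 e2 hx e1' e2' hx'
  have ht := t2 h2
  obtain ⟨_, ⟨g0, rfl⟩, a0, f0⟩ := ht.pt (by omega) hx hx'
  have ha0 := H8.T2tv.ne_zero_of_eq_smul hx f0
  have f0' : (eqv ρ g0).symm x' = a0⁻¹ • x := by
    rw [LinearEquiv.symm_apply_eq, map_smul, f0, smul_smul]; simp [ha0]
  obtain ⟨_, ⟨g1, rfl⟩, a1, b1, f1, f2⟩ := ht.flag hn hx'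
    (φ := B.flip ξ ∘ₗ ((eqv ρ g0).symm : V →ₗ[F] V)) (ψ := B.flip ξ')
    (fun e => by simpa [e1] using congrArg (fun f : Dual F V => f (eqv ρ g0 y)) e)
    (fun e => by simpa [e1'] using congrArg (fun f : Dual F V => f y') e)
    (by simp [f0', e2]) e2'
  have f3 : ∀ z, B (ρ g1 (ρ g0 z)) ξ' = b1 * B z ξ := fun z => by
    have := f2 (eqv ρ g0 z)
    rw [LinearMap.comp_apply, LinearEquiv.coe_coe, LinearEquiv.symm_apply_apply] at this
    exact this
  have hb1 : b1 ≠ 0 := by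
    rintro rfl
    have := f3 (ρ g0⁻¹ (ρ g1⁻¹ y'))
    rw [rho_inv, rho_inv, e1'] at this
    simp at this
  obtain ⟨_, ⟨g2, rfl⟩, a2, b2, c2, f4, f5, f6⟩ := ht.flag_trans hn hx' (φ := B.flip ξ') e2'
    (z := ρ g1 (ρ g0 y)) (z' := y') (by simpa [f3, e1] using hb1) (by simp [e1'])
  simp only [eqv_apply, LinearMap.flip_apply] at f0 f1 f4 f5 f6
  have hc : c2 = b2 * b1 := by
    have := f5 (ρ g1 (ρ g0 y))
    rw [f6, f3, e1] at this
    simpa [e1'] using this
  have hc2 : c2 ≠ 0 := by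
    rintro rfl
    have := congrArg (fun v => ρ g0⁻¹ (ρ g1⁻¹ (ρ g2⁻¹ v))) f6
    simp only [zero_smul, map_zero] at this
    have r : ∀ (g : G) v, ρ g⁻¹ (ρ g v) = v := fun g v => by simpa using rho_inv (ρ := ρ) g⁻¹ v
    rw [r, r, r] at this
    rw [this] at e1
    simp at e1
  obtain ⟨s, hs⟩ := h.sc c2⁻¹ (inv_ne_zero hc2)
  refine ⟨s * g2 * g1 * g0, ?_, dual_eq h fun z => ?_, ?_⟩
  · simp only [map_mul, Module.End.mul_apply]
    rw [f6, hs, smul_smul, inv_mul_cancel₀ hc2, one_smul]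
  · simp only [map_mul, Module.End.mul_apply]
    rw [hs, map_smul, LinearMap.smul_apply, f5, f3, smul_eq_mul, ← mul_assoc b2, ← hc]
    field_simp
  · simp only [map_mul, Module.End.mul_apply]
    rw [hs, f0, map_smul, f1, map_smul, map_smul, f4]
    simp only [smul_smul]
    exact smul_mem _ _ (mem_span_singleton_self _)

omit [Fintype F] [Module.Finite F V'] in
theorem exists_ker (hn : 2 ≤ finrank F V) (φ : Dual F V) : ∃ x, x ≠ 0 ∧ φ x = 0 := by
  have h1 := finrank_inf_ker_ge (⊤ : Submodule F V) φ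
  rw [finrank_top] at h1
  obtain ⟨x, hx⟩ := finrank_pos_iff_exists_ne_zero.1
    (show 0 < finrank F ↥((⊤ : Submodule F V) ⊓ LinearMap.ker φ) by omega)
  exact ⟨x.1, fun e => hx (Subtype.ext e), x.2.2⟩

omit [Fintype F] [Module.Finite F V] [Module.Finite F V'] in
theorem exists_one (h : Ctx ρ ρ' B) {ξ : V'} (hξ : ξ ≠ 0) : ∃ y, B y ξ = 1 := by
  obtain ⟨φ, hφ⟩ := exists_dual_one' (F := F) hξ
  obtain ⟨y, hy⟩ := exists_of_dual' h φ
  exact ⟨y, by rw [hy, hφ]⟩

theorem t2_dual (h : Ctx ρ ρ' B) (h3 : F3 ρ ρ' B) (hn : 2 ≤ finrank F V) : T2 ρ' := by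
  classical
  haveI : Finite V' := Module.finite_of_finite F
  letI := Fintype.ofFinite V'
  have main : ∀ ξ η η' : V', ξ ≠ 0 → η ∉ span F {ξ} → η' ∉ span F {ξ} →
      ∃ g, ρ' g ξ = ξ ∧ ρ' g η ∈ span F {η'} := by
    intro ξ η η' hξ hη hη'
    obtain ⟨y0, hy0⟩ := exists_one h hξ
    obtain ⟨x0, hx0, hx0'⟩ := exists_ker hn (B.flip ξ)
    have hx1 : B x0 ξ = 0 := hx0'
    have H : ∀ x x' : V, x ≠ 0 → x' ≠ 0 → (B x ξ = 0 ↔ B x' ξ = 0) →
        ∃ g, ρ' g ξ = ξ ∧ ∃ a : F, ρ g x = a • x' := by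
      intro x x' hx hx' hi
      by_cases hc : B x ξ = 0
      · obtain ⟨g, -, e2, e3⟩ := h3 y0 ξ x y0 ξ x' hy0 hc hx hy0 (hi.1 hc) hx'
        obtain ⟨a, ha⟩ := mem_span_singleton.1 e3
        exact ⟨g, e2, a, ha.symm⟩
      · have hc' : B x' ξ ≠ 0 := fun e => hc (hi.2 e)
        obtain ⟨g, e1, e2, -⟩ := h3 ((B x ξ)⁻¹ • x) ξ x0 ((B x' ξ)⁻¹ • x') ξ x0 (by simp [hc]) hx1
          hx0 (by simp [hc']) hx1 hx0
        refine ⟨g, e2, B x ξ * (B x' ξ)⁻¹, ?_⟩
        rw [mul_smul, ← e1, map_smul, smul_smul]; simp [hc]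
    have inj : ∀ g : G, Function.Injective (ρ' g) := fun g a b e => by
      have := congrArg (ρ' g⁻¹) e
      have r : ∀ v, ρ' g⁻¹ (ρ' g v) = v := fun v => by simpa using rho_inv (ρ := ρ') g⁻¹ v
      rwa [r, r] at this
    have cst : ∀ R : V' → Prop, (∀ ζ, R ζ → ∀ g, ρ' g ξ = ξ → R (ρ' g ζ)) →
        ∀ x x' : V, x ≠ 0 → x' ≠ 0 → (B x ξ = 0 ↔ B x' ξ = 0) →
        (Finset.univ.filter fun ζ : V' => B x ζ = 0 ∧ R ζ).card =
          (Finset.univ.filter fun ζ : V' => B x' ζ = 0 ∧ R ζ).card := by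
      intro R hR
      have le : ∀ x x' : V, x ≠ 0 → x' ≠ 0 → (B x ξ = 0 ↔ B x' ξ = 0) →
          (Finset.univ.filter fun ζ : V' => B x ζ = 0 ∧ R ζ).card ≤
            (Finset.univ.filter fun ζ : V' => B x' ζ = 0 ∧ R ζ).card := by
        intro x x' hx hx' hi
        obtain ⟨g, e1, a, e2⟩ := H x x' hx hx' hi
        have ha : a ≠ 0 := H8.T2tv.ne_zero_of_eq_smul (g := eqv ρ g) hx e2
        refine Finset.card_le_card_of_injOn (ρ' g) ?_ (fun _ _ _ _ e => inj g e)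
        intro ζ hζ
        simp only [Finset.coe_filter, Finset.mem_univ, true_and, Set.mem_setOf_eq] at hζ ⊢
        refine ⟨?_, hR ζ hζ.2 g e1⟩
        have := h.inv g x ζ
        rw [e2, hζ.1, map_smul, LinearMap.smul_apply, smul_eq_mul] at this
        exact (mul_eq_zero.1 this).resolve_left ha
      exact fun x x' hx hx' hi => le_antisymm (le x x' hx hx' hi) (le x' x hx' hx hi.symm)
    let S : V' → Prop := fun ζ => ∃ g, ρ' g ξ = ξ ∧ ∃ b : F, b ≠ 0 ∧ ρ' g η = b • ζ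
    let R2 : V' → Prop := fun ζ => ζ ∉ span F {ξ}
    let R3 : V' → Prop := fun ζ => ζ ∈ span F {ξ} ∧ ζ ≠ 0
    have back : ∀ g ζ, ρ' g ξ = ξ → ρ' g ζ ∈ span F {ξ} → ζ ∈ span F {ξ} := by
      intro g ζ e hm
      obtain ⟨t, ht⟩ := mem_span_singleton.1 hm
      exact mem_span_singleton.2 ⟨t, inj g (by rw [map_smul, e, ht])⟩
    have iS : ∀ ζ, S ζ → ∀ g, ρ' g ξ = ξ → S (ρ' g ζ) := by
      rintro ζ ⟨k, e1, b, hb, e2⟩ g e
      exact ⟨g * k, by rw [map_mul, Module.End.mul_apply, e1, e], b, hb,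
        by rw [map_mul, Module.End.mul_apply, e2, map_smul]⟩
    have i2 : ∀ ζ, R2 ζ → ∀ g, ρ' g ξ = ξ → R2 (ρ' g ζ) := fun ζ hζ g e hm => hζ (back g ζ e hm)
    have i3 : ∀ ζ, R3 ζ → ∀ g, ρ' g ξ = ξ → R3 (ρ' g ζ) := by
      intro ζ hζ g e
      refine ⟨?_, fun e0 => hζ.2 (inj g (by rw [e0, map_zero]))⟩
      obtain ⟨t, rfl⟩ := mem_span_singleton.1 hζ.1
      rw [map_smul, e]; exact hζ.1
    have hS2 : ∀ ζ, S ζ → R2 ζ := by
      rintro ζ ⟨k, e1, b, hb, e2⟩ hm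
      exact hη (back k η e1 (e2 ▸ smul_mem _ _ hm))
    have hy0' : y0 ≠ 0 := by rintro rfl; simp at hy0
    set β1 := (Finset.univ.filter fun ζ : V' => B y0 ζ = 0 ∧ S ζ).card with hβ1
    set β0 := (Finset.univ.filter fun ζ : V' => B x0 ζ = 0 ∧ S ζ).card with hβ0
    set M1 := (Finset.univ.filter fun ζ : V' => B y0 ζ = 0 ∧ R2 ζ).card with hM1
    set M0 := (Finset.univ.filter fun ζ : V' => B x0 ζ = 0 ∧ R2 ζ).card with hM0
    set m := (Finset.univ.filter fun ζ : V' => B x0 ζ = 0 ∧ R3 ζ).card with hm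
    have hM1pos : 0 < M1 := Finset.card_pos.2 ⟨η - B y0 η • ξ, by
      simp only [Finset.mem_filter, Finset.mem_univ, true_and, R2]
      refine ⟨by simp [hy0], fun hm => hη ?_⟩
      simpa using add_mem hm (smul_mem _ (B y0 η) (mem_span_singleton_self ξ))⟩
    have hmpos : 0 < m := Finset.card_pos.2 ⟨ξ, by
      simp only [Finset.mem_filter, Finset.mem_univ, true_and, R3]
      exact ⟨hx1, mem_span_singleton_self ξ, hξ⟩⟩
    let d : V' → ℤ := fun ζ => (if S ζ then (M1 : ℤ) * m else 0) +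
      (if R2 ζ then -(β1 : ℤ) * m else 0) + (if R3 ζ then (β1 : ℤ) * M0 - M1 * β0 else 0)
    have hd : ∀ ζ, d ζ = 0 := by
      refine H8.T2tv.radon' (F := F) (by rw [finrank_eq h]; exact hn) d ?_ ?_ ?_
      · have h1 : ¬ R2 0 := by simp [R2]
        have h2 : ¬ R3 0 := by simp [R3]
        simp only [d, if_neg h1, if_neg h2, if_neg (fun h => h1 (hS2 _ h)), add_zero]
      · intro c ζ hc
        have h1 : R2 (c • ζ) ↔ R2 ζ := by simp only [R2, smul_mem_iff _ hc]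
        have h2 : R3 (c • ζ) ↔ R3 ζ := by simp [R3, smul_mem_iff _ hc, hc]
        have h3 : S (c • ζ) ↔ S ζ := by
          constructor
          · rintro ⟨g, e1, b, hb, e2⟩
            exact ⟨g, e1, b * c, mul_ne_zero hb hc, by rw [e2, smul_smul]⟩
          · rintro ⟨g, e1, b, hb, e2⟩
            exact ⟨g, e1, b * c⁻¹, mul_ne_zero hb (inv_ne_zero hc),
              by rw [e2, smul_smul]; simp [hc]⟩
        simp only [d, h1, h2, h3]
      · intro φ hφ
        obtain ⟨x, hx⟩ := exists_of_dual' h φ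
        have hx0'' : x ≠ 0 := by
          rintro rfl
          exact hφ (LinearMap.ext fun ζ => by rw [← hx]; simp)
        simp only [d, ← hx]
        rw [Finset.sum_add_distrib, Finset.sum_add_distrib, ← Finset.sum_filter,
          ← Finset.sum_filter, ← Finset.sum_filter, Finset.filter_filter, Finset.filter_filter,
          Finset.filter_filter, Finset.sum_const, Finset.sum_const, Finset.sum_const]
        by_cases hc : B x ξ = 0
        · have hi : B x ξ = 0 ↔ B x0 ξ = 0 := by simp [hc, hx1]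
          have a1 : (Finset.univ.filter fun ζ : V' => B x ζ = 0 ∧ S ζ).card = β0 := by
            convert cst S iS x x0 hx0'' hx0 hi
          have a2 : (Finset.univ.filter fun ζ : V' => B x ζ = 0 ∧ R2 ζ).card = M0 := by
            convert cst R2 i2 x x0 hx0'' hx0 hi
          have a3 : (Finset.univ.filter fun ζ : V' => B x ζ = 0 ∧ R3 ζ).card = m := by
            convert cst R3 i3 x x0 hx0'' hx0 hi
          rw [a1, a2, a3]
          simp only [nsmul_eq_mul]; ring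
        · have hi : B x ξ = 0 ↔ B y0 ξ = 0 := by simp [hc, hy0]
          have a1 : (Finset.univ.filter fun ζ : V' => B x ζ = 0 ∧ S ζ).card = β1 := by
            convert cst S iS x y0 hx0'' hy0' hi
          have a2 : (Finset.univ.filter fun ζ : V' => B x ζ = 0 ∧ R2 ζ).card = M1 := by
            convert cst R2 i2 x y0 hx0'' hy0' hi
          have a3 : (Finset.univ.filter fun ζ : V' => B x ζ = 0 ∧ R3 ζ) = ∅ := by
            refine Finset.filter_false_of_mem fun ζ _ hζ => ?_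
            obtain ⟨t, rfl⟩ := mem_span_singleton.1 hζ.2.1
            have := hζ.1
            rw [map_smul, smul_eq_mul, mul_eq_zero] at this
            exact hζ.2.2 (by rw [this.resolve_right hc, zero_smul])
          rw [a1, a2, a3]
          simp only [nsmul_eq_mul]; simp; ring
    have hSη : S η := ⟨1, by simp, 1, one_ne_zero, by simp⟩
    have n3 : ∀ ζ, R2 ζ → ¬ R3 ζ := fun ζ h1 h2 => h1 h2.1
    have h1 := hd η
    simp only [d, if_pos hSη, if_pos (hS2 _ hSη), if_neg (n3 _ (hS2 _ hSη))] at h1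
    have h2 := hd η'
    have hR : R2 η' := hη'
    simp only [d, if_pos hR, if_neg (n3 _ hR)] at h2
    by_cases hS : S η'
    · obtain ⟨g, e1, b, -, e2⟩ := hS
      exact ⟨g, e1, e2 ▸ smul_mem _ _ (mem_span_singleton_self _)⟩
    · rw [if_neg hS] at h2
      have : (0 : ℤ) < (M1 : ℤ) * m := by positivity
      linarith
  intro ξ η ξ' η' hi hi'
  obtain ⟨y, hy⟩ := exists_one h hi.1
  obtain ⟨y', hy'⟩ := exists_one h hi'.1
  obtain ⟨x, hx, hx1⟩ := exists_ker hn (B.flip ξ)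
  obtain ⟨x', hx', hx1'⟩ := exists_ker hn (B.flip ξ')
  obtain ⟨g, -, e, -⟩ := h3 y ξ x y' ξ' x' hy hx1 hx hy' hx1' hx'
  obtain ⟨k, e1, e2⟩ := main ξ' (ρ' g η) η' hi'.1 (fun hm => hi.2 (by
    obtain ⟨t, ht⟩ := mem_span_singleton.1 hm
    refine mem_span_singleton.2 ⟨t, (eqv ρ' g).injective ?_⟩
    rw [map_smul, eqv_apply, eqv_apply, e, ht])) hi'.2
  exact ⟨k * g, by rw [map_mul, Module.End.mul_apply, e, e1],
    by rw [map_mul, Module.End.mul_apply]; exact e2⟩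

end Af

variable [Fintype F] [Module.Finite F V] [Module.Finite F V'] [Finite G]

omit [Finite G] in
theorem af (h : Ctx ρ ρ' B) (h2 : T2 ρ) (hn : 4 ≤ finrank F V) : T2 ρ' ∧ F3 ρ ρ' B :=
  ⟨Af.t2_dual h (Af.f3 h h2 (by omega)) (by omega), Af.f3 h h2 (by omega)⟩

end Cfsg.Agent.Sg
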