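import Cfsg.Agent.Sg.Defs

/-! The Frattini data attached to a primitive prime divisor. -/

set_option autoImplicit false
open Module Submodule

namespace Cfsg.Agent.Sg
namespace Fr

variable {F V G : Type*} [Field F] [Fintype F] [AddCommGroup V] [Module F V] [Module.Finite F V]
  [Group G] [Finite G] {ρ : Representation F G V}

/-- the fixed space of a subgroup -/
def fixS (ρ : Representation F G V) (R : Subgroup G) : Submodule F V where
  carrier := {v | ∀ g ∈ R, ρ g v = v}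
  add_mem' := fun {a b} ha hb g hg => by rw [map_add, ha g hg, hb g hg]
  zero_mem' := fun g _ => map_zero _
  smul_mem' := fun a v hv g hg => by rw [map_smul, hv g hg]

omit [Fintype F] [Module.Finite F V] [Finite G] in
theorem mem_fixS {R : Subgroup G} {v : V} : v ∈ fixS ρ R ↔ ∀ g ∈ R, ρ g v = v := Iff.rfl

omit [Fintype F] [Module.Finite F V] [Finite G] in
theorem app_mul (g h : G) (v : V) : ρ (g * h) v = ρ g (ρ h v) := by
  rw [map_mul]; rfl

omit [Fintype F] [Module.Finite F V] [Finite G] in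
theorem app_inv (g : G) (v : V) : ρ g⁻¹ (ρ g v) = v := by
  rw [← app_mul, inv_mul_cancel, map_one]; rfl

omit [Fintype F] [Module.Finite F V] [Finite G] in
theorem app_inv' (g : G) (v : V) : ρ g (ρ g⁻¹ v) = v := by
  rw [← app_mul, mul_inv_cancel, map_one]; rfl

theorem pow_modEq {r c q a b : ℕ} (hr : r.Prime) (hq : IsPrimitiveRoot (q : ZMod r) c) (hc : 0 < c)
    (hab : b ≤ a) (h : q ^ a ≡ q ^ b [MOD r]) : c ∣ a - b := by
  haveI := Fact.mk hr
  have h0 : (q : ZMod r) ≠ 0 := hq.ne_zero hc.ne'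
  have h1 : ((q ^ a : ℕ) : ZMod r) = ((q ^ b : ℕ) : ZMod r) := (ZMod.natCast_eq_natCast_iff _ _ _).2 h
  push_cast at h1
  obtain ⟨d, rfl⟩ := Nat.exists_eq_add_of_le hab
  rw [pow_add] at h1
  have h2 : (q : ZMod r) ^ d = 1 := by
    have := mul_left_cancel₀ (pow_ne_zero b h0) (h1.trans (mul_one _).symm)
    exact this
  rw [Nat.add_sub_cancel_left]
  exact (hq.pow_eq_one_iff_dvd d).1 h2

omit [Finite G] in
theorem dimc {r c : ℕ} (hr : r.Prime) (hq : IsPrimitiveRoot (Fintype.card F : ZMod r) c) (hc : 0 < c)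
    {R : Subgroup G} (hR : IsPGroup r R) (E : Submodule F V) (hE : ∀ g ∈ R, ∀ v ∈ E, ρ g v ∈ E) :
    c ∣ finrank F E - finrank F (E ⊓ fixS ρ R : Submodule F V) := by
  haveI := Fact.mk hr
  haveI : Finite V := Module.finite_of_finite F
  letI : MulAction R E :=
    { smul := fun g v => ⟨ρ g.1 v.1, hE g.1 g.2 v.1 v.2⟩
      one_smul := fun v => Subtype.ext (by
        change ρ 1 v.1 = v.1
        rw [map_one]; rfl)
      mul_smul := fun g h v => Subtype.ext (app_mul g.1 h.1 v.1) }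
  have h1 := hR.card_modEq_card_fixedPoints E
  have e : MulAction.fixedPoints R E ≃ (E ⊓ fixS ρ R : Submodule F V) :=
    { toFun := fun v => ⟨v.1.1, v.1.2, fun g hg => congrArg Subtype.val (v.2 ⟨g, hg⟩)⟩
      invFun := fun v => ⟨⟨v.1, v.2.1⟩, fun g => Subtype.ext (v.2.2 g.1 g.2)⟩
      left_inv := fun _ => rfl
      right_inv := fun _ => rfl }
  rw [Nat.card_congr e, Module.natCard_eq_pow_finrank (K := F) (V := E),
    Module.natCard_eq_pow_finrank (K := F) (V := (E ⊓ fixS ρ R : Submodule F V)),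
    Nat.card_eq_fintype_card] at h1
  exact pow_modEq hr hq hc (Submodule.finrank_mono inf_le_left) h1

theorem cast_ne {r c : ℕ} (hr : r.Prime) (hq : IsPrimitiveRoot (Fintype.card F : ZMod r) c)
    (hc : 0 < c) : (r : F) ≠ 0 := by
  haveI := Fact.mk hr
  intro h
  obtain ⟨p, hp⟩ := CharP.exists F
  obtain ⟨n, hpp, hn⟩ := FiniteField.card F p
  have h1 : p ∣ r := (CharP.cast_eq_zero_iff F p r).1 h
  have h2 : p = r := (Nat.prime_dvd_prime_iff_eq hpp hr).1 h1
  subst h2
  refine hq.ne_zero hc.ne' ?_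
  rw [hn]
  push_cast
  rw [ZMod.natCast_self, zero_pow n.ne_zero]

omit [Fintype F] [Module.Finite F V] [Finite G] in
/-- the norm of an element of exponent `r` without fixed vectors on `C` kills `C` -/
theorem norm_zero {r : ℕ} {C : Submodule F V} {w : G} (hw : w ^ r = 1)
    (hC : ∀ v ∈ C, ρ w v ∈ C) (hf : ∀ v ∈ C, ρ w v = v → v = 0) {v : V} (hv : v ∈ C) :
    ∑ i ∈ Finset.range r, ρ (w ^ i) v = 0 := by
  have hp : ∀ i : ℕ, ρ (w ^ i) v ∈ C := by
    intro i
    induction i with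
    | zero => simpa using hv
    | succ i ih => rw [pow_succ', app_mul]; exact hC _ ih
  refine hf _ (C.sum_mem fun i _ => hp i) ?_
  rw [map_sum]
  have h1 := Finset.sum_range_succ' (fun i => ρ (w ^ i) v) r
  have h2 := Finset.sum_range_succ (fun i => ρ (w ^ i) v) r
  rw [h1, hw, pow_zero] at h2
  rw [← add_right_cancel h2]
  refine Finset.sum_congr rfl fun i _ => ?_
  rw [pow_succ', app_mul]

omit [Fintype F] [Module.Finite F V] [Finite G] in
theorem mem_zpowers {r : ℕ} (hr : r.Prime) (h0 : (r : F) ≠ 0) {C : Submodule F V} (hC0 : C ≠ ⊥)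
    {R : Subgroup G} (hC : ∀ w ∈ R, ∀ v ∈ C, ρ w v ∈ C)
    (hf : ∀ w ∈ R, w ≠ 1 → ∀ v ∈ C, ρ w v = v → v = 0) {z z' : G} (hz : z ∈ R) (hz' : z' ∈ R)
    (ho : orderOf z = r) (ho' : z' ^ r = 1) (hc : Commute z z') : z' ∈ Subgroup.zpowers z := by
  by_contra hn
  apply hC0
  rw [eq_bot_iff]
  intro v hv
  have hzr : z ^ r = 1 := ho ▸ pow_orderOf_eq_one z
  have h1 : ∀ i ∈ Finset.range r, ∑ j ∈ Finset.range r, ρ ((z ^ i * z') ^ j) v = 0 := by
    intro i _
    have hm : z ^ i * z' ∈ R := R.mul_mem (R.pow_mem hz i) hz'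
    refine norm_zero ?_ (hC _ hm) (hf _ hm ?_) hv
    · rw [(hc.pow_left i).mul_pow, ← pow_mul, mul_comm i r, pow_mul, hzr, one_pow, ho', one_mul]
    · intro e
      apply hn
      rw [eq_inv_of_mul_eq_one_right e]
      exact Subgroup.inv_mem _ (Subgroup.npow_mem_zpowers z i)
  have h2 := Finset.sum_eq_zero h1
  rw [Finset.sum_comm] at h2
  have h3 : ∀ j ∈ Finset.range r, j ≠ 0 → ∑ i ∈ Finset.range r, ρ ((z ^ i * z') ^ j) v = 0 := by
    intro j hj hj0
    have e : ∀ i, ρ ((z ^ i * z') ^ j) v = ρ (z' ^ j) (ρ ((z ^ j) ^ i) v) := by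
      intro i
      rw [(hc.pow_left i).mul_pow, ← app_mul, ← pow_mul, ← pow_mul, mul_comm i j,
        ((hc.pow_left (j * i)).pow_right j).eq]
    simp only [e]
    rw [← map_sum, norm_zero (C := C) _ (hC _ (R.pow_mem hz j)) (hf _ (R.pow_mem hz j) _) hv, map_zero]
    · rw [← pow_mul, mul_comm, pow_mul, hzr, one_pow]
    · exact pow_ne_one_of_lt_orderOf hj0 (ho ▸ Finset.mem_range.1 hj)
  rw [Finset.sum_eq_single_of_mem 0 (Finset.mem_range.2 hr.pos) h3] at h2
  simp only [pow_zero, map_one, Module.End.one_apply, Finset.sum_const, Finset.card_range] at h2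
  rw [← Nat.cast_smul_eq_nsmul F] at h2
  exact (smul_eq_zero.1 h2).resolve_left h0

/-- the commutator space -/
def cmS (ρ : Representation F G V) (R : Subgroup G) : Submodule F V :=
  span F {u | ∃ g ∈ R, ∃ v, u = ρ g v - v}

omit [Fintype F] [Module.Finite F V] [Finite G] in
theorem cmS_inv {R : Subgroup G} {m : G} (hm : ∀ g ∈ R, m * g * m⁻¹ ∈ R) {v : V}
    (hv : v ∈ cmS ρ R) : ρ m v ∈ cmS ρ R := by
  have : (cmS ρ R).map (ρ m) ≤ cmS ρ R := by
    rw [cmS, Submodule.map_span_le]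
    rintro _ ⟨g, hg, u, rfl⟩
    refine subset_span ⟨_, hm g hg, ρ m u, ?_⟩
    rw [map_sub, app_mul, app_mul, app_inv]
  exact this ⟨v, hv, rfl⟩

omit [Fintype F] [Module.Finite F V] in
theorem compl_cmS {R : Subgroup G} (h0 : (Nat.card R : F) ≠ 0) : IsCompl (fixS ρ R) (cmS ρ R) := by
  classical
  haveI := Fintype.ofFinite R
  let S : V →ₗ[F] V := ∑ g : R, ρ g.1
  have hS : ∀ v, S v = ∑ g : R, ρ g.1 v := fun v => by simp [S, LinearMap.sum_apply]
  rw [Nat.card_eq_fintype_card] at h0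
  constructor
  · rw [disjoint_def]
    intro v hv hv'
    have h1 : cmS ρ R ≤ LinearMap.ker S := by
      rw [cmS, span_le]
      rintro _ ⟨g, hg, u, rfl⟩
      change S _ = 0
      rw [map_sub, sub_eq_zero, hS, hS]
      refine Fintype.sum_equiv (Equiv.mulRight (⟨g, hg⟩ : R)) _ _ fun h => ?_
      rw [← app_mul]; rfl
    have h2 : S v = 0 := h1 hv'
    rw [hS, Finset.sum_congr rfl fun g _ => hv g.1 g.2, Finset.sum_const, Finset.card_univ,
      ← Nat.cast_smul_eq_nsmul F] at h2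
    exact (smul_eq_zero.1 h2).resolve_left h0
  · rw [codisjoint_iff, eq_top_iff]
    intro v _
    have h1 : S v ∈ fixS ρ R := by
      intro g hg
      rw [hS, map_sum]
      refine Fintype.sum_equiv (Equiv.mulLeft (⟨g, hg⟩ : R)) _ _ fun h => ?_
      rw [← app_mul]; rfl
    have h2 : ∑ g : R, (ρ g.1 v - v) ∈ cmS ρ R :=
      Submodule.sum_mem _ fun g _ => subset_span ⟨g.1, g.2, v, rfl⟩
    have h3 : v = (Fintype.card R : F)⁻¹ • (S v - ∑ g : R, (ρ g.1 v - v)) := by
      rw [Finset.sum_sub_distrib, ← hS, sub_sub_cancel, Finset.sum_const, Finset.card_univ,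
        ← Nat.cast_smul_eq_nsmul F, smul_smul, inv_mul_cancel₀ h0, one_smul]
    rw [h3]
    exact smul_mem _ _ (sub_mem (mem_sup_left h1) (mem_sup_right h2))

/-- the data for an `r`-group with fixed space of codimension `c` -/
theorem core (hi : Function.Injective ρ) {r c : ℕ} (hr : r.Prime)
    (hq : IsPrimitiveRoot (Fintype.card F : ZMod r) c) (hc : 0 < c) {R : Subgroup G}
    (hR : IsPGroup r R) (hk : finrank F (fixS ρ R) + c = finrank F V)
    (hfr : ∀ g, (∀ v ∈ fixS ρ R, ρ g v ∈ fixS ρ R) →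
      ∃ m, (∀ v ∈ fixS ρ R, ρ m v = ρ g v) ∧ ∀ w ∈ R, m * w * m⁻¹ ∈ R) :
    ∃ C z, FRD ρ (fixS ρ R) C z r := by
  haveI := Fact.mk hr
  have h0 := cast_ne hr hq hc
  obtain ⟨k, hk'⟩ := hR.exists_card_eq
  have hco : IsCompl (fixS ρ R) (cmS ρ R) := compl_cmS (by rw [hk']; push_cast; exact pow_ne_zero _ h0)
  have hC : finrank F (cmS ρ R) = c := by
    have := Submodule.finrank_add_eq_of_isCompl hco
    omega
  have hCi : ∀ w ∈ R, ∀ v ∈ cmS ρ R, ρ w v ∈ cmS ρ R := fun w hw v hv =>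
    cmS_inv (fun g hg => R.mul_mem (R.mul_mem hw hg) (R.inv_mem hw)) hv
  have hdec : ∀ v : V, ∃ b ∈ fixS ρ R, ∃ u ∈ cmS ρ R, b + u = v := fun v =>
    Submodule.mem_sup.1 (hco.sup_eq_top ▸ Submodule.mem_top)
  have hzp : ∀ w ∈ R, ∀ E : Submodule F V, (∀ v ∈ E, ρ w v ∈ E) →
      c ∣ finrank F E - finrank F (E ⊓ fixS ρ (Subgroup.zpowers w) : Submodule F V) := by
    intro w hw E hE
    refine dimc hr hq hc (hR.to_le ((Subgroup.zpowers_le).2 hw)) E ?_
    intro g hg v hv
    obtain ⟨i, rfl⟩ := (mem_powers_iff_mem_zpowers).2 hg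
    induction i with
    | zero => simpa using hv
    | succ i ih =>
      simp only [pow_succ', app_mul]
      exact hE _ (ih (Subgroup.npow_mem_zpowers w i))
  have hfx : ∀ (w : G) (v : V), ρ w v = v → v ∈ fixS ρ (Subgroup.zpowers w) := by
    intro w v hv g hg
    obtain ⟨i, rfl⟩ := (mem_powers_iff_mem_zpowers).2 hg
    induction i with
    | zero => simp
    | succ i ih =>
      simp only [pow_succ', app_mul]
      rw [ih (Subgroup.npow_mem_zpowers w i), hv]
  have hf : ∀ w ∈ R, w ≠ 1 → ∀ v ∈ cmS ρ R, ρ w v = v → v = 0 := by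
    intro w hw hw1 v hv hwv
    by_contra hv0
    have h1 := hzp w hw _ (hCi w hw)
    have h2 : 0 < finrank F (cmS ρ R ⊓ fixS ρ (Subgroup.zpowers w) : Submodule F V) :=
      finrank_pos_iff_exists_ne_zero.2 ⟨⟨v, hv, hfx w v hwv⟩, fun e => hv0 (congrArg Subtype.val e)⟩
    have h3 : finrank F (cmS ρ R ⊓ fixS ρ (Subgroup.zpowers w) : Submodule F V) = finrank F (cmS ρ R) := by
      have h4 : finrank F (cmS ρ R ⊓ fixS ρ (Subgroup.zpowers w) : Submodule F V) ≤ finrank F (cmS ρ R) :=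
        Submodule.finrank_mono inf_le_left
      have := Nat.eq_zero_of_dvd_of_lt h1 (by omega)
      omega
    have h5 := Submodule.eq_of_le_of_finrank_eq inf_le_left h3
    apply hw1
    apply hi
    ext u
    obtain ⟨b, hb, u', hu', rfl⟩ := hdec u
    have h6 : u' ∈ fixS ρ (Subgroup.zpowers w) := (h5.ge hu').2
    rw [map_add, hb w hw, h6 w (Subgroup.mem_zpowers w), map_one]; rfl
  have hC0 : cmS ρ R ≠ ⊥ := by
    intro e
    rw [e, finrank_bot] at hC
    omega
  haveI : Nontrivial R := by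
    rw [Subgroup.nontrivial_iff_ne_bot]
    rintro rfl
    apply hC0
    rw [cmS, span_eq_bot]
    rintro _ ⟨g, hg, u, rfl⟩
    rw [Subgroup.mem_bot.1 hg, map_one]; simp
  haveI := hR.center_nontrivial
  obtain ⟨j, hj0, hj⟩ := (hR.to_subgroup (Subgroup.center R)).nontrivial_iff_card.1 inferInstance
  obtain ⟨z, hz⟩ := exists_prime_orderOf_dvd_card' (G := Subgroup.center R) r
    (hj ▸ dvd_pow_self r hj0.ne')
  have hzo : orderOf z.1.1 = r := by rw [Subgroup.orderOf_coe, Subgroup.orderOf_coe, hz]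
  have hz1 : z.1.1 ≠ 1 := by
    intro e
    rw [e, orderOf_one] at hzo
    exact hr.one_lt.ne hzo
  refine ⟨cmS ρ R, z.1.1, hco, hzo, ?_, hCi _ z.1.2, ?_, ?_⟩
  · intro v
    refine ⟨fun h => ?_, fun h => h _ z.1.2⟩
    obtain ⟨b, hb, u, hu, rfl⟩ := hdec v
    rw [map_add, hb _ z.1.2, add_right_inj] at h
    rw [hf _ z.1.2 hz1 u hu h, add_zero]
    exact hb
  · intro E hE hEi
    have h1 := hzp _ z.1.2 E hEi
    have h2 : (E ⊓ fixS ρ (Subgroup.zpowers z.1.1) : Submodule F V) = ⊥ := by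
      rw [eq_bot_iff]
      intro v hv
      exact hf _ z.1.2 hz1 v (hE hv.1) (hv.2 _ (Subgroup.mem_zpowers _))
    rw [h2, finrank_bot, Nat.sub_zero] at h1
    by_cases h3 : finrank F E = 0
    · exact Or.inl (Submodule.finrank_eq_zero.1 h3)
    · refine Or.inr (Submodule.eq_of_le_of_finrank_le hE ?_)
      rw [hC]
      exact Nat.le_of_dvd (Nat.pos_of_ne_zero h3) h1
  · intro g hg
    obtain ⟨m, hm1, hm2⟩ := hfr g hg
    refine ⟨m, hm1, fun v hv => cmS_inv hm2 hv, ?_⟩
    refine mem_zpowers hr h0 hC0 hCi hf z.1.2 (hm2 _ z.1.2) hzo ?_ ?_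
    · rw [conj_pow, ← hzo, pow_orderOf_eq_one, mul_one, mul_inv_cancel]
    · have := Subgroup.mem_center_iff.1 z.2 ⟨_, hm2 _ z.1.2⟩
      exact (congrArg Subtype.val this).symm

/-- setwise stabiliser -/
def stabS (ρ : Representation F G V) (E : Submodule F V) : Subgroup G where
  carrier := {g | ∀ v, v ∈ E ↔ ρ g v ∈ E}
  mul_mem' := fun {a b} ha hb v => by rw [app_mul, ← ha, ← hb]
  one_mem' := fun v => by rw [map_one]; rfl
  inv_mem' := fun {a} ha v => by rw [ha (ρ a⁻¹ v), app_inv']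

/-- pointwise stabiliser -/
def ptS (ρ : Representation F G V) (E : Submodule F V) : Subgroup G where
  carrier := {g | ∀ v ∈ E, ρ g v = v}
  mul_mem' := fun {a b} ha hb v hv => by rw [app_mul, hb v hv, ha v hv]
  one_mem' := fun v _ => by rw [map_one]; rfl
  inv_mem' := fun {a} ha v hv => by
    conv_lhs => rw [← ha v hv]
    rw [app_inv]

omit [Fintype F] [Module.Finite F V] in
theorem mem_stabS {E : Submodule F V} {g : G} (h : ∀ v ∈ E, ρ g v ∈ E) : g ∈ stabS ρ E := by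
  intro v
  refine ⟨h v, fun hv => ?_⟩
  have hp : ∀ i : ℕ, ∀ u ∈ E, ρ (g ^ i) u ∈ E := by
    intro i
    induction i with
    | zero => intro u hu; simpa using hu
    | succ i ih => intro u hu; rw [pow_succ', app_mul]; exact h _ (ih u hu)
  have h1 := hp (orderOf g - 1) _ hv
  rw [← app_mul, ← pow_succ, Nat.sub_add_cancel (orderOf_pos g), pow_orderOf_eq_one, map_one] at h1
  exact h1

omit [Fintype F] [Module.Finite F V] [Finite G] in
theorem ptS_le {E : Submodule F V} : ptS ρ E ≤ stabS ρ E := by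
  intro g hg v
  refine ⟨fun hv => by rwa [hg v hv], fun hv => ?_⟩
  have := (ptS ρ E).inv_mem hg _ hv
  rw [app_inv] at this
  rwa [this]

omit [Fintype F] [Module.Finite F V] in
/-- Frattini argument -/
theorem frattini {r : ℕ} [Fact r.Prime] (E : Submodule F V) :
    ∃ R : Subgroup G, IsPGroup r R ∧ R ≤ ptS ρ E ∧
      (∀ R' : Subgroup G, IsPGroup r R' → R' ≤ ptS ρ E → R ≤ R' → R' ≤ R) ∧
      ∀ g, (∀ v ∈ E, ρ g v ∈ E) → ∃ m, (∀ v ∈ E, ρ m v = ρ g v) ∧ ∀ w ∈ R, m * w * m⁻¹ ∈ R := by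
  let H := stabS ρ E
  let N : Subgroup H := (ptS ρ E).subgroupOf H
  haveI : N.Normal := ⟨fun n hn g v hv => by
    change ρ (g.1 * n.1 * g.1⁻¹) v = v
    have hn' : n.1 ∈ ptS ρ E := hn
    rw [app_mul, app_mul, hn' _ ((H.inv_mem g.2 v).1 hv), app_inv']⟩
  obtain ⟨P⟩ : Nonempty (Sylow r N) := inferInstance
  refine ⟨((P : Subgroup N).map N.subtype).map H.subtype, (P.isPGroup'.map _).map _, ?_, ?_, ?_⟩
  · rintro _ ⟨_, ⟨n, -, rfl⟩, rfl⟩
    exact n.2
  · intro R' hR' hle hRR w hw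
    have h1 : IsPGroup r ((R'.comap H.subtype).comap N.subtype) :=
      (hR'.comap_of_injective _ H.subtype_injective).comap_of_injective _ N.subtype_injective
    have h2 := P.is_maximal' h1 (fun n hn => hRR ⟨_, ⟨n, hn, rfl⟩, rfl⟩)
    exact ⟨⟨w, ptS_le (hle hw)⟩, ⟨⟨⟨w, ptS_le (hle hw)⟩, hle hw⟩, h2.le hw, rfl⟩, rfl⟩
  · intro g hg
    have h1 := P.normalizer_sup_eq_top
    have h2 : (⟨g, mem_stabS hg⟩ : H) ∈
        ((Subgroup.normalizer (((P : Subgroup N).map N.subtype : Subgroup H) : Set H) ⊔ N : Subgroup H) : Set H) := by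
      rw [h1]; trivial
    rw [Subgroup.mul_normal] at h2
    obtain ⟨m, hm, n, hn, e⟩ := h2
    refine ⟨m.1, fun v hv => ?_, ?_⟩
    · have e' : m.1 * n.1 = g := congrArg Subtype.val e
      have hn' : n.1 ∈ ptS ρ E := hn
      rw [← e', app_mul, hn' v hv]
    · rintro _ ⟨w, hw, rfl⟩
      exact ⟨m * w * m⁻¹, (Subgroup.mem_normalizer_iff.1 hm w).1 hw, rfl⟩

omit [Fintype F] [Module.Finite F V] [Finite G] in
theorem ind2_map {x y : V} (h : Ind2 F x y) (g : G) : Ind2 F (ρ g x) (ρ g y) := by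
  refine ⟨fun e => h.1 ?_, fun e => h.2 ?_⟩
  · rw [← app_inv (ρ := ρ) g x, e, map_zero]
  · obtain ⟨a, ha⟩ := mem_span_singleton.1 e
    refine mem_span_singleton.2 ⟨a, ?_⟩
    rw [← app_inv (ρ := ρ) g y, ← ha, map_smul, app_inv]

omit [Fintype F] [Module.Finite F V] in
theorem finrank_pair {x y : V} (h : Ind2 F x y) : finrank F (span F {x, y} : Submodule F V) = 2 := by
  have h1 : LinearIndependent F ![x, y] := by
    rw [LinearIndependent.pair_iff' h.1]
    intro a e
    exact h.2 (mem_span_singleton.2 ⟨a, e⟩)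
  have h2 := finrank_span_eq_card h1
  have h3 : Set.range ![x, y] = {x, y} := by
    ext v
    simp [eq_comm, or_comm]
  rw [h3] at h2
  simpa using h2

end Fr

open Fr

variable {F V G : Type*} [Field F] [Fintype F] [AddCommGroup V] [Module F V] [Module.Finite F V]
  [Group G] [Finite G] {ρ : Representation F G V}

theorem fr (hi : Function.Injective ρ) (hsc : Sc ρ) {c : ℕ} {W : V → V → Submodule F V} (hW : WS ρ c W) (hc : 3 ≤ c)
    (hk : finrank F V < 2 * c + 2) {r : ℕ} (hr : r.Prime) (hq : IsPrimitiveRoot (Fintype.card F : ZMod r) c)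
    {x y : V} (hxy : Ind2 F x y) : ∃ C z, FRD ρ (W x y) C z r := by
  haveI := Fact.mk hr
  haveI : Finite V := Module.finite_of_finite F
  have hc0 : 0 < c := by omega
  have hrk := hW.rank x y hxy
  obtain ⟨R, hR, hRle, hmax, hfr⟩ := frattini (ρ := ρ) (r := r) (W x y)
  let Y : Subgroup G := stabS ρ (span F {x}) ⊓ stabS ρ (span F {x, y})
  have hYmem : ∀ g, ρ g x ∈ span F {x} → ρ g y ∈ span F {x, y} → g ∈ Y := by
    intro g h1 h2
    refine ⟨mem_stabS fun v hv => ?_, mem_stabS fun v hv => ?_⟩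
    · obtain ⟨a, rfl⟩ := mem_span_singleton.1 hv
      rw [map_smul]; exact smul_mem _ _ h1
    · obtain ⟨a, b, rfl⟩ := mem_span_pair.1 hv
      rw [map_add, map_smul, map_smul]
      exact add_mem (smul_mem _ _ (span_mono (by simp) h1)) (smul_mem _ _ h2)
  have hx : x ∈ span F {x, y} := subset_span (by simp)
  have hy : y ∈ span F {x, y} := subset_span (by simp)
  have hYW : ∀ g ∈ Y, ∀ v ∈ W x y, ρ g v ∈ W x y := by
    intro g hg v hv
    rw [← hW.congr x y _ _ hxy (ind2_map hxy g) ((hg.2 x).1 hx) ((hg.2 y).1 hy), hW.equi g x y hxy]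
    exact ⟨v, hv, rfl⟩
  have hptY : ptS ρ (W x y) ≤ Y := fun g hg => hYmem g
    (by rw [hg x (hW.left x y hxy)]; exact mem_span_singleton_self x)
    (by rw [hg y (hW.right x y hxy)]; exact hy)
  obtain ⟨P, hP⟩ := (hR.comap_of_injective Y.subtype Y.subtype_injective).exists_le_sylow
  let R1 : Subgroup G := (P : Subgroup Y).map Y.subtype
  have hR1 : IsPGroup r R1 := P.isPGroup'.map _
  have hR1Y : R1 ≤ Y := by
    rintro _ ⟨g, -, rfl⟩
    exact g.2
  have hlW : span F {x, y} ≤ W x y := by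
    rw [span_le]
    rintro v (rfl | rfl)
    · exact hW.left _ _ hxy
    · exact hW.right _ _ hxy
  have hl2 := finrank_pair hxy
  have hR1pt : R1 ≤ ptS ρ (W x y) := by
    have h1 := dimc hr hq hc0 hR1 (span F {x, y}) fun g hg v hv => ((hR1Y hg).2 v).1 hv
    have h1' := Nat.eq_zero_of_dvd_of_lt h1 (by omega)
    have h2 := dimc hr hq hc0 hR1 (W x y) fun g hg => hYW g (hR1Y hg)
    have h3 : finrank F (span F {x, y} ⊓ fixS ρ R1 : Submodule F V) ≤
        finrank F (W x y ⊓ fixS ρ R1 : Submodule F V) := Submodule.finrank_mono (inf_le_inf_right _ hlW)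
    have h2' := Nat.eq_zero_of_dvd_of_lt h2 (by omega)
    have h4 := Submodule.eq_of_le_of_finrank_le (inf_le_left : W x y ⊓ fixS ρ R1 ≤ W x y) (by omega)
    intro g hg v hv
    exact (h4.ge hv).2 g hg
  have hR1R : R1 ≤ R := hmax R1 hR1 hR1pt fun g hg => ⟨⟨g, hptY (hRle hg)⟩, hP hg, rfl⟩
  have hfix : fixS ρ R = W x y := by
    refine le_antisymm (fun v hv => ?_) fun v hv g hg => hRle hg v hv
    by_contra hvW
    letI : MulAction Y {z : V // z ∉ W x y} :=
      { smul := fun g z => ⟨ρ g.1 z.1, fun h => z.2 ((mem_stabS (hYW g.1 g.2) z.1).2 h)⟩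
        one_smul := fun z => Subtype.ext (by
          change ρ 1 z.1 = z.1
          rw [map_one]; rfl)
        mul_smul := fun g h z => Subtype.ext (app_mul g.1 h.1 z.1) }
    haveI : MulAction.IsPretransitive Y {z : V // z ∉ W x y} := ⟨fun z z' => by
      obtain ⟨g, h1, h2, h3⟩ := hW.trans x y z.1 z'.1 hxy z.2 z'.2
      exact ⟨⟨g, hYmem g h1 h2⟩, Subtype.ext h3⟩⟩
    have h1 := MulAction.index_stabilizer_of_transitive Y (⟨v, hvW⟩ : {z : V // z ∉ W x y})
    have h2 : (P : Subgroup Y) ≤ MulAction.stabilizer Y (⟨v, hvW⟩ : {z : V // z ∉ W x y}) :=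
      fun g hg => Subtype.ext (hv g.1 (hR1R ⟨g, hg, rfl⟩))
    apply P.not_dvd_index
    refine dvd_trans ?_ (Subgroup.index_dvd_of_le h2)
    rw [h1]
    have h3 : Nat.card (W x y) + Nat.card {z : V // z ∉ W x y} = Nat.card V := by
      classical
      rw [← Nat.card_sum]
      exact Nat.card_congr (Equiv.sumCompl fun z : V => z ∈ W x y)
    rw [Module.natCard_eq_pow_finrank (K := F) (V := V),
      Module.natCard_eq_pow_finrank (K := F) (V := W x y), Nat.card_eq_fintype_card, ← hrk] at h3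
    rw [← ZMod.natCast_eq_zero_iff]
    have h4 := congrArg (Nat.cast : ℕ → ZMod r) h3
    push_cast at h4
    rw [pow_add, hq.pow_eq_one, mul_one] at h4
    simpa using h4
  rw [← hfix] at hrk hfr ⊢
  exact core hi hr hq hc0 hR hrk hfr

end Cfsg.Agent.Sg
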