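import Cfsg.Agent.Sg.IIa2

set_option autoImplicit false
open Module Submodule

namespace Cfsg.Agent.Sg

variable {F V V' G : Type*} [Field F] [AddCommGroup V] [Module F V]
  [AddCommGroup V'] [Module F V'] [Group G]
  {ρ : Representation F G V} {ρ' : Representation F G V'} {B : V →ₗ[F] V' →ₗ[F] F}

namespace IIa

/-- the annihilator -/
def orth (B : V →ₗ[F] V' →ₗ[F] F) (S : Submodule F V') : Submodule F V :=
  ⨅ η ∈ S, LinearMap.ker (B.flip η)

theorem mem_orth {S : Submodule F V'} {y : V} : y ∈ orth B S ↔ ∀ η ∈ S, B y η = 0 := by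
  simp [orth, mem_iInf]

theorem rank_orth [Module.Finite F V] [Module.Finite F V'] (h : B.IsPerfPair) (S : Submodule F V') :
    finrank F (orth B S) + finrank F S = finrank F V := by
  have e : (orth B S).map (B.toPerfPair : V →ₗ[F] Dual F V') = S.dualAnnihilator := by
    ext φ
    obtain ⟨y, rfl⟩ := B.toPerfPair.surjective φ
    rw [mem_dualAnnihilator]
    constructor
    · rintro ⟨z, hz, hzy⟩
      obtain rfl : z = y := B.toPerfPair.injective hzy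
      exact mem_orth.1 hz
    · exact fun hy => ⟨y, mem_orth.2 hy, rfl⟩
  rw [← B.toPerfPair.finrank_map_eq, e, add_comm, Subspace.finrank_add_finrank_dualAnnihilator_eq,
    Module.finrank_of_isPerfPair B]

/-- `ρ g` as an equivalence -/
noncomputable def eqv (ρ : Representation F G V) (g : G) : V ≃ₗ[F] V :=
  LinearEquiv.ofLinearMap (ρ g) (ρ g⁻¹) (by rw [← Module.End.mul_eq_comp, ← map_mul]; simp; rfl)
    (by rw [← Module.End.mul_eq_comp, ← map_mul]; simp; rfl)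

theorem inv_app (g : G) (v : V) : ρ g (ρ g⁻¹ v) = v := by
  rw [← Module.End.mul_apply, ← map_mul]; simp

theorem app_ne (g : G) {v : V} (h : v ≠ 0) : ρ g v ≠ 0 := (eqv ρ g).map_ne_zero_iff.2 h

theorem mem_span_app (g : G) {x y : V} : ρ g y ∈ span F {ρ g x} ↔ y ∈ span F {x} := by
  simp only [mem_span_singleton]
  exact ⟨fun ⟨a, ha⟩ => ⟨a, (eqv ρ g).injective (by rw [map_smul]; exact ha)⟩,
    fun ⟨a, ha⟩ => ⟨a, by rw [← ha, map_smul]⟩⟩

theorem ind2_app (g : G) {x y : V} (h : Ind2 F x y) : Ind2 F (ρ g x) (ρ g y) :=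
  ⟨app_ne g h.1, fun hc => h.2 ((mem_span_app g).1 hc)⟩

theorem ind2_symm {x y : V} (h : Ind2 F x y) : Ind2 F y x := by
  refine ⟨ne0 h.2, fun hc => ?_⟩
  obtain ⟨a, rfl⟩ := mem_span_singleton.1 hc
  have ha : a ≠ 0 := by rintro rfl; exact h.1 (by simp)
  exact h.2 (mem_span_singleton.2 ⟨a⁻¹, by rw [smul_smul, inv_mul_cancel₀ ha, one_smul]⟩)

variable {c : ℕ} {W : V → V → Submodule F V} {T : V → V' → Submodule F V}

theorem T_equi (h : Ctx ρ ρ' B) (hW : WS ρ c W) (hT : TS ρ ρ' B c W T) (g : G) {x : V} {ξ : V'}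
    (hx : x ≠ 0) (hξ : ξ ≠ 0) (h0 : B x ξ = 0) (y : V) :
    ρ g y ∈ T (ρ g x) (ρ' g ξ) ↔ y ∈ T x ξ := by
  rw [hT.mem _ _ _ (app_ne g hx) (app_ne g hξ) (by rw [h.inv, h0]), hT.mem _ _ _ hx hξ h0, mem_span_app]
  by_cases hy : y ∈ span F {x}
  · simp [hy]
  simp only [hy, false_or]
  rw [hW.equi g x y ⟨hx, hy⟩]
  exact ⟨fun hh w hw => by rw [← h.inv g]; exact hh _ (mem_map_of_mem hw),
    fun hh _ ⟨w, hw, e⟩ => by rw [← e, h.inv]; exact hh w hw⟩

theorem T_map (h : Ctx ρ ρ' B) (hW : WS ρ c W) (hT : TS ρ ρ' B c W T) (g : G) {x : V} {ξ : V'}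
    (hx : x ≠ 0) (hξ : ξ ≠ 0) (h0 : B x ξ = 0) : T (ρ g x) (ρ' g ξ) = (T x ξ).map (ρ g) := by
  ext y
  obtain ⟨y, rfl⟩ := (eqv ρ g).surjective y
  refine (T_equi h hW hT g hx hξ h0 y).trans ⟨fun hy => mem_map_of_mem hy, fun ⟨z, hz, e⟩ => ?_⟩
  rwa [← (eqv ρ g).injective e]

theorem T_smul (hW : WS ρ c W) (hT : TS ρ ρ' B c W T) {x : V} {ξ : V'}
    (hx : x ≠ 0) (hξ : ξ ≠ 0) (h0 : B x ξ = 0) {a b : F} (ha : a ≠ 0) (hb : b ≠ 0) :
    T (a • x) (b • ξ) = T x ξ := by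
  ext y
  rw [hT.mem _ _ _ (smul_ne_zero ha hx) (smul_ne_zero hb hξ) (by simp [h0]), hT.mem _ _ _ hx hξ h0,
    span_singleton_smul_eq ha.isUnit]
  by_cases hy : y ∈ span F {x}
  · simp [hy]
  simp only [hy, false_or]
  rw [hW.congr x y (a • x) y ⟨hx, hy⟩ ⟨smul_ne_zero ha hx, by rwa [span_singleton_smul_eq ha.isUnit]⟩
    (smul_mem _ _ (subset_span (by simp))) (subset_span (by simp))]
  simp [hb]

theorem T_le (hW : WS ρ c W) (hT : TS ρ ρ' B c W T) {x : V} {ξ : V'}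
    (hx : x ≠ 0) (hξ : ξ ≠ 0) (h0 : B x ξ = 0) {y : V} (hy : y ∈ T x ξ) : B y ξ = 0 := by
  by_cases hy' : y ∈ span F {x}
  · obtain ⟨a, rfl⟩ := mem_span_singleton.1 hy'
    simp [h0]
  · exact (((hT.mem _ _ _ hx hξ h0).1 hy).resolve_left hy') y (hW.right x y ⟨hx, hy'⟩)

theorem T_self (hT : TS ρ ρ' B c W T) {x : V} {ξ : V'}
    (hx : x ≠ 0) (hξ : ξ ≠ 0) (h0 : B x ξ = 0) : x ∈ T x ξ :=
  (hT.mem _ _ _ hx hξ h0).2 (Or.inl (mem_span_singleton_self x))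

theorem T_symm (hW : WS ρ c W) (hT : TS ρ ρ' B c W T) {x : V} {ξ : V'}
    (hx : x ≠ 0) (hξ : ξ ≠ 0) (h0 : B x ξ = 0) {y : V} (hy : y ∈ T x ξ) (hy0 : y ≠ 0) : x ∈ T y ξ := by
  rw [hT.mem _ _ _ hy0 hξ (T_le hW hT hx hξ h0 hy)]
  by_cases hxy : x ∈ span F {y}
  · exact Or.inl hxy
  have i2 : Ind2 F y x := ⟨hy0, hxy⟩
  rw [hW.congr x y y x (ind2_symm i2) i2 (subset_span (by simp)) (subset_span (by simp))]
  exact Or.inr (((hT.mem _ _ _ hx hξ h0).1 hy).resolve_left (ind2_symm i2).2)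

theorem exs {ξ : V'} (hξ : ξ ≠ 0) {g : G} (hg : ρ' g ξ ∈ span F {ξ}) : ∃ b : F, b ≠ 0 ∧ ρ' g ξ = b • ξ := by
  obtain ⟨b, hb⟩ := mem_span_singleton.1 hg
  exact ⟨b, by rintro rfl; exact app_ne g hξ (by rw [← hb, zero_smul]), hb.symm⟩

end IIa

open IIa in
theorem iia [Fintype F] [Module.Finite F V] [Module.Finite F V'] (h : Ctx ρ ρ' B) {c c' j : ℕ}
    {W : V → V → Submodule F V} {T : V → V' → Submodule F V}
    {W' : V' → V' → Submodule F V'} {T' : V' → V → Submodule F V'} (hW : WS ρ c W) (hT : TS ρ ρ' B c W T)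
    (hW' : WS ρ' c' W') (hT' : TS ρ' ρ B.flip c' W' T') (hn : finrank F V = 2 * c + j + 1) (hj : 2 ≤ j) (hjc : j < c)
    (hc' : 2 ≤ c') (hcc : c' ≤ c) :
    j = 2 ∧ ∀ x y ξ, x ≠ 0 → y ≠ 0 → ξ ≠ 0 → B x ξ = 0 → y ∈ T x ξ → T y ξ = T x ξ := by
  have : Finite V := Module.finite_of_finite F
  let _ : Fintype V := Fintype.ofFinite _
  have mH : ∀ {ξ : V'} {x : V}, x ∈ orth B (span F {ξ}) ↔ B x ξ = 0 := fun {ξ x} => by
    rw [mem_orth]
    refine ⟨fun hh => hh ξ (mem_span_singleton_self ξ), fun hh η hη => ?_⟩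
    obtain ⟨a, rfl⟩ := mem_span_singleton.1 hη
    simp [hh]
  have key : ∀ ξ, ξ ≠ 0 → HS (orth B (span F {ξ})) (fun x => T x ξ) (fun x => orth B (T' ξ x)) c c'
      (2 * c + j - c') := by
    intro ξ hξ
    have aut : ∀ g, ρ' g ξ ∈ span F {ξ} →
        Aut (orth B (span F {ξ})) (fun x => T x ξ) (fun x => orth B (T' ξ x)) (eqv ρ g) := by
      intro g hg
      obtain ⟨b, hb, e⟩ := exs hξ hg
      have a1 : ∀ u, B u ξ = 0 → B (ρ g u) ξ = 0 := fun u hu => by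
        have := h.inv g u ξ
        rw [e, hu] at this
        simpa [hb] using this
      refine ⟨fun u hu => mH.2 (a1 u (mH.1 hu)), fun u hu hu0 => ⟨?_, ?_⟩⟩
      · have := T_map h hW hT g hu0 hξ (mH.1 hu)
        rw [e, ← one_smul F (ρ g u), T_smul hW hT (app_ne g hu0) hξ (a1 u (mH.1 hu)) one_ne_zero hb] at this
        exact this
      · have := T_map h.flip hW' hT' g hξ hu0 (mH.1 hu)
        rw [e, ← one_smul F (ρ g u), T_smul hW' hT' hξ (app_ne g hu0) (a1 u (mH.1 hu)) hb one_ne_zero] at this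
        show orth B (T' ξ (ρ g u)) = (orth B (T' ξ u)).map (ρ g)
        rw [this]
        ext y
        obtain ⟨y, rfl⟩ := (eqv ρ g).surjective y
        constructor
        · intro hy
          exact mem_map_of_mem (mem_orth.2 fun η hη => by
            rw [← h.inv g]; exact mem_orth.1 hy _ (mem_map_of_mem hη))
        · rintro ⟨z, hz, e⟩
          refine mem_orth.2 ?_
          rintro _ ⟨η, hη, rfl⟩
          rw [← e, h.inv]; exact mem_orth.1 hz η hη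
    refine ⟨?_, ⟨fun x hx h0 => T_self hT h0 hξ (mH.1 hx), fun x hx h0 y hy => mH.2 (T_le hW hT h0 hξ (mH.1 hx) hy),
      fun x hx h0 => hT.rank x ξ h0 hξ (mH.1 hx), fun x hx h0 a ha => ?_,
      fun x hx h0 y hy hy0 => T_symm hW hT h0 hξ (mH.1 hx) hy hy0⟩,
      ⟨fun x hx h0 => mem_orth.2 fun η hη => T_le hW' hT' hξ h0 (mH.1 hx) hη,
      fun x hx h0 y hy => mH.2 (mem_orth.1 hy ξ (T_self hT' hξ h0 (mH.1 hx))), fun x hx h0 => ?_,
      fun x hx h0 a ha => ?_, fun x hx h0 y hy hy0 => mem_orth.2 ?_⟩, fun x hx h0 y hy y' hy' n1 n2 => ?_,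
      fun x hx h0 y hy y' hy' n1 n2 => ?_, fun x hx h0 E e1 e2 e3 => ?_⟩
    · have := rank_orth h.perf (span F {ξ})
      rw [finrank_span_singleton hξ] at this
      omega
    · have := T_smul hW hT h0 hξ (mH.1 hx) ha one_ne_zero
      rwa [one_smul] at this
    · have := rank_orth h.perf (T' ξ x)
      rw [hT'.rank ξ x hξ h0 (mH.1 hx)] at this
      show finrank F (orth B (T' ξ x)) = _
      omega
    · have := T_smul hW' hT' hξ h0 (mH.1 hx) one_ne_zero ha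
      rw [one_smul] at this
      show orth B (T' ξ (a • x)) = _
      rw [this]
    · exact hT'.symm ξ x y hξ h0 hy0 (mH.1 hx) (mem_orth.1 hy ξ (T_self hT' hξ h0 (mH.1 hx))) (mem_orth.1 hy)
    · obtain ⟨g, g1, g2, g3⟩ := hT.transIn x ξ y y' h0 hξ (mH.1 hx) hy hy' n1 n2
      exact ⟨_, aut g g2, g1, g3⟩
    · have k : ∀ y, y ∉ orth B (T' ξ x) → ∃ u ∈ T' ξ x, B.flip u y ≠ 0 := fun y hy => by
        by_contra hc
        push Not at hc
        exact hy (mem_orth.2 hc)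
      obtain ⟨g, g1, g2, g3⟩ := hT'.transOut ξ x y y' hξ h0 (mH.1 hx) (mH.1 hy) (mH.1 hy') (k y n1) (k y' n2)
      exact ⟨_, aut g g1, g2, g3⟩
    · exact hT.minT x ξ h0 hξ (mH.1 hx) E e1 e2 fun g g1 g2 v hv => e3 _ (aut g g2) g1 v hv
  have hV' : finrank F V' = 2 * c + j + 1 := by
    have := h.perf
    rw [← Module.finrank_of_isPerfPair B, hn]
  have : Nontrivial V' := Module.nontrivial_of_finrank_pos (R := F) (by omega)
  obtain ⟨ξ, hξ⟩ := exists_ne (0 : V')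
  obtain ⟨x, hx, h0⟩ := ex_not (A := ⊥) (A' := orth B (span F {ξ})) (by rw [(key ξ hξ).rH, finrank_bot]; omega)
  have h0 : x ≠ 0 := by simpa using h0
  obtain ⟨y, hy, hy'⟩ := (key ξ hξ).exT (by omega) hx h0
  obtain ⟨t, ht, ht'⟩ := (key ξ hξ).exW (by omega) hx h0
  have e := ((key ξ hξ).st2 hc' hcc hx h0 hy hy' ht ht').2.2
  have e2 := (key ξ hξ).w_eq hc' hcc hx h0 (by omega) (by omega)
  exact ⟨by omega, fun x y ξ hx hy hξ h0 hm => (key ξ hξ).spread hc' hcc (mH.2 h0) hx (by omega) (by omega) hm hy⟩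

theorem cc_flip (h : Ctx ρ ρ' B) (hc : CC ρ') : CC ρ := by
  have := h.perf
  obtain ⟨g, a, ξ, f, hξ, hf, e⟩ := hc
  obtain ⟨x, rfl⟩ := B.toPerfPair.surjective f
  refine ⟨g⁻¹, a, x, B.flip ξ, by rintro rfl; exact hf (map_zero _), fun hc => hξ ?_, fun v => ?_⟩
  · exact B.flip.toPerfPair.injective (by rw [map_zero]; exact hc)
  · apply B.toPerfPair.injective
    ext η
    show B _ η = B _ η
    rw [← h.inv g, IIa.inv_app, e]
    simp [mul_comm]

end Cfsg.Agent.Sg
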