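import Cfsg.Agent.Sg.Defs

set_option autoImplicit false
open Module Submodule Finset

namespace Cfsg.Agent.Sg.IIa

variable {F V : Type*} [Field F] [Fintype F] [AddCommGroup V] [Module F V] [Fintype V]

open Classical in
theorem card_diff (S S' : Submodule F V) :
    ((univ.filter fun v => v ∈ S ∧ v ∉ S').card : ℤ) =
      (Fintype.card F : ℤ) ^ finrank F S - (Fintype.card F : ℤ) ^ finrank F ↥(S ⊓ S') := by
  have h : ∀ U : Submodule F V, (univ.filter fun v => v ∈ U).card = Fintype.card F ^ finrank F U := by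
    intro U
    rw [← Module.card_eq_pow_finrank (K := F) (V := U), Fintype.card_subtype]
  have h2 : (univ.filter fun v => v ∈ S ∧ v ∉ S').card + (univ.filter fun v => v ∈ S ⊓ S').card =
      (univ.filter fun v => v ∈ S).card := by
    rw [← card_union_of_disjoint]
    · congr 1; ext v; simp only [mem_union, mem_filter, mem_univ, true_and, Submodule.mem_inf]; tauto
    · rw [disjoint_filter]; intro v _ h1 h2; exact h1.2 (mem_inf.1 h2).2
  rw [h, h] at h2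
  have := congrArg (Nat.cast : ℕ → ℤ) h2
  push_cast at this
  linarith

theorem val {q A B : ℤ} (hq : 2 ≤ q) {s t : ℕ} (hA : q ∣ A - 1) (hB : q ∣ B - 1)
    (h : q ^ s * A = q ^ t * B) : s = t ∧ A = B := by
  have key : ∀ {A B : ℤ} {s t : ℕ}, q ∣ A - 1 → q ^ s * A = q ^ t * B → t ≤ s := by
    intro A B s t hA h
    by_contra hc
    obtain ⟨d, rfl⟩ : ∃ d, t = s + (d + 1) := ⟨t - s - 1, by omega⟩
    have h1 : A = q ^ (d + 1) * B := by
      apply mul_left_cancel₀ (pow_ne_zero s (by omega : q ≠ 0))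
      rw [h]; ring
    have h2 : q ∣ A := ⟨q ^ d * B, by rw [h1]; ring⟩
    have h3 : q ∣ 1 := by simpa using dvd_sub h2 hA
    have := Int.le_of_dvd one_pos h3
    omega
  have e : s = t := le_antisymm (key hB h.symm) (key hA h)
  subst e
  exact ⟨rfl, mul_left_cancel₀ (pow_ne_zero s (by omega : q ≠ 0)) h⟩

theorem dvd_pp (q : ℤ) {a b : ℕ} (ha : 1 ≤ a) (hb : 1 ≤ b) : q ∣ (q ^ a - 1) * (q ^ b - 1) - 1 := by
  obtain ⟨a, rfl⟩ : ∃ d, a = d + 1 := ⟨a - 1, by omega⟩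
  obtain ⟨b, rfl⟩ : ∃ d, b = d + 1 := ⟨b - 1, by omega⟩
  exact ⟨q ^ a * q ^ (b + 1) - q ^ a - q ^ b, by ring⟩

/-- the numeric consequence of the double count -/
theorem num {q : ℤ} (hq : 2 ≤ q) {c c' w z i k : ℕ} (hc : 1 ≤ c) (hc' : 1 ≤ c') (hi : i ≤ z) (hk : 1 ≤ k)
    (h : (q ^ (c + 1) - q ^ 1) * (q ^ z - q ^ i) = (q ^ (w + c') - q ^ w) * (q ^ k - q ^ 0)) :
    i < z ∧ i + 1 = w ∧ (q ^ c - 1) * (q ^ (z - i) - 1) = (q ^ c' - 1) * (q ^ k - 1) := by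
  have pos : ∀ a : ℕ, 1 ≤ a → 0 < q ^ a - 1 := fun a ha => by
    have := one_lt_pow₀ (by omega : (1 : ℤ) < q) (by omega : a ≠ 0); omega
  obtain ⟨d, rfl⟩ : ∃ d, z = i + d := ⟨z - i, by omega⟩
  have h' : q ^ (i + 1) * ((q ^ c - 1) * (q ^ d - 1)) = q ^ w * ((q ^ c' - 1) * (q ^ k - 1)) := by
    linear_combination h
  have hd : 1 ≤ d := by
    rcases Nat.eq_zero_or_pos d with rfl | hd
    · exfalso
      have := mul_pos (pow_pos (by omega : (0 : ℤ) < q) w) (mul_pos (pos c' hc') (pos k hk))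
      rw [← h'] at this; simp at this
    · exact hd
  obtain ⟨e1, e2⟩ := val hq (dvd_pp q hc hd) (dvd_pp q hc' hk) h'
  exact ⟨by omega, e1, by simpa using e2⟩

theorem num2 {q : ℤ} (hq : 2 ≤ q) {c c' k : ℕ} (hc : 2 ≤ c) (hc' : 2 ≤ c') (hk : 1 ≤ k)
    (h : (q ^ c - 1) * (q ^ 1 - 1) = (q ^ c' - 1) * (q ^ k - 1)) : k = 1 ∧ c = c' := by
  have hk1 : k = 1 := by
    by_contra hne
    obtain ⟨a, rfl⟩ : ∃ d, c = d + 2 := ⟨c - 2, by omega⟩
    obtain ⟨b, rfl⟩ : ∃ d, c' = d + 2 := ⟨c' - 2, by omega⟩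
    obtain ⟨k, rfl⟩ : ∃ d, k = d + 2 := ⟨k - 2, by omega⟩
    have : q * 1 = q * (q * (q ^ a * (q - 1) - q ^ b * q ^ (k + 2) + q ^ b + q ^ k)) := by
      linear_combination -h
    have h1 := mul_left_cancel₀ (by omega : q ≠ 0) this
    have := Int.le_of_dvd one_pos (⟨_, h1⟩ : q ∣ 1)
    omega
  subst hk1
  have h1 := mul_right_cancel₀ (by rw [pow_one]; omega : q ^ 1 - 1 ≠ 0) h
  exact ⟨rfl, pow_right_injective₀ (by omega : (0 : ℤ) < q) (by omega) (by simpa using h1)⟩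

/-- automorphisms of the configuration -/
def Aut (H : Submodule F V) (T W : V → Submodule F V) (g : V ≃ₗ[F] V) : Prop :=
  (∀ u ∈ H, g u ∈ H) ∧ ∀ u ∈ H, u ≠ 0 → T (g u) = (T u).map (g : V →ₗ[F] V) ∧
    W (g u) = (W u).map (g : V →ₗ[F] V)

/-- a symmetric family of subspaces -/
structure Fam (H : Submodule F V) (Z : V → Submodule F V) (z : ℕ) : Prop where
  self : ∀ x ∈ H, x ≠ 0 → x ∈ Z x
  le : ∀ x ∈ H, x ≠ 0 → Z x ≤ H
  rank : ∀ x ∈ H, x ≠ 0 → finrank F (Z x) = z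
  smul : ∀ x ∈ H, x ≠ 0 → ∀ a : F, a ≠ 0 → Z (a • x) = Z x
  symm : ∀ x ∈ H, x ≠ 0 → ∀ y ∈ Z x, y ≠ 0 → x ∈ Z y

structure HS (H : Submodule F V) (T W : V → Submodule F V) (c c' w : ℕ) : Prop where
  rH : finrank F H = w + c'
  fT : Fam H T (c + 1)
  fW : Fam H W w
  tin : ∀ x ∈ H, x ≠ 0 → ∀ y ∈ T x, ∀ y' ∈ T x, y ∉ span F {x} → y' ∉ span F {x} →
    ∃ g, Aut H T W g ∧ g x ∈ span F {x} ∧ g y = y'
  tout : ∀ x ∈ H, x ≠ 0 → ∀ y ∈ H, ∀ y' ∈ H, y ∉ W x → y' ∉ W x →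
    ∃ g, Aut H T W g ∧ g x ∈ span F {x} ∧ g y = y'
  min : ∀ x ∈ H, x ≠ 0 → ∀ E : Submodule F V, x ∈ E → E ≠ span F {x} →
    (∀ g, Aut H T W g → g x ∈ span F {x} → ∀ v ∈ E, g v ∈ E) → T x ≤ E

variable {H : Submodule F V} {T W Z : V → Submodule F V} {c c' w z : ℕ}

omit [Fintype F] [Fintype V] in
theorem Fam.fix (h : Fam H Z z) {x : V} (hx : x ∈ H) (h0 : x ≠ 0) {g : V ≃ₗ[F] V}
    (hg : g x ∈ span F {x}) : Z (g x) = Z x := by
  obtain ⟨a, ha⟩ := mem_span_singleton.1 hg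
  have : a ≠ 0 := by rintro rfl; exact h0 (by simpa using ha.symm)
  rw [← ha, h.smul x hx h0 a this]

omit [Fintype F] [Fintype V] in
theorem rank_map_inf (g : V ≃ₗ[F] V) (A A' : Submodule F V) :
    finrank F ↥(A.map (g : V →ₗ[F] V) ⊓ A'.map (g : V →ₗ[F] V)) = finrank F ↥(A ⊓ A') := by
  rw [← Submodule.map_inf _ g.injective, LinearEquiv.finrank_map_eq]

omit [Fintype F] [Fintype V] in
theorem ne0 {x y : V} (h : y ∉ span F {x}) : y ≠ 0 := by rintro rfl; exact h (zero_mem _)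

omit [Fintype F] [Fintype V] in
theorem inf_span_eq_bot {x : V} {A : Submodule F V} (h : x ∉ A) : A ⊓ span F {x} = ⊥ :=
  disjoint_iff.1 (disjoint_span_singleton_of_notMem h)

open Classical in
/-- the double count -/
theorem HS.dc (h : HS H T W c c' w) (hZ : Fam H Z z)
    (he : ∀ g, Aut H T W g → ∀ u ∈ H, u ≠ 0 → Z (g u) = (Z u).map (g : V →ₗ[F] V))
    {x y t : V} (hx : x ∈ H) (h0 : x ≠ 0) (hZW : Z x ≤ W x) (hy : y ∈ T x) (hy' : y ∉ span F {x})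
    (ht : t ∈ H) (ht' : t ∉ W x) :
    ((Fintype.card F : ℤ) ^ (c + 1) - (Fintype.card F : ℤ) ^ 1) *
      ((Fintype.card F : ℤ) ^ z - (Fintype.card F : ℤ) ^ finrank F ↥(Z y ⊓ W x)) =
    ((Fintype.card F : ℤ) ^ (w + c') - (Fintype.card F : ℤ) ^ w) *
      ((Fintype.card F : ℤ) ^ finrank F ↥(T x ⊓ Z t) - (Fintype.card F : ℤ) ^ 0) := by
  set A := univ.filter fun v => v ∈ T x ∧ v ∉ span F {x} with hA
  set D := univ.filter fun v => v ∈ H ∧ v ∉ W x with hD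
  have cA := card_diff (T x) (span F {x})
  rw [h.fT.rank x hx h0, inf_eq_right.2 ((span_singleton_le_iff_mem _ _).2 (h.fT.self x hx h0)),
    finrank_span_singleton h0] at cA
  have cD := card_diff H (W x)
  rw [h.rH, inf_eq_right.2 (h.fW.le x hx h0), h.fW.rank x hx h0] at cD
  have hyH := h.fT.le x hx h0 hy
  have ht0 : t ≠ 0 := by rintro rfl; exact ht' (zero_mem _)
  have c1 := card_diff (Z y) (W x)
  rw [hZ.rank y hyH (ne0 hy')] at c1
  have c2 := card_diff (T x ⊓ Z t) (span F {x})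
  have nx : ∀ t ∈ H, t ∉ W x → x ∉ T x ⊓ Z t := fun t ht ht' hm =>
    ht' (hZW (hZ.symm t ht (by rintro rfl; exact ht' (zero_mem _)) x hm.2 h0))
  rw [inf_span_eq_bot (nx t ht ht'), finrank_bot] at c2
  rw [← cA, ← cD, ← c1, ← c2]
  norm_cast
  apply card_mul_eq_card_mul (fun a b => b ∈ Z a)
  · intro a ha
    obtain ⟨ha1, ha2⟩ := (mem_filter.1 ha).2
    obtain ⟨g, hg, hg1, rfl⟩ := h.tin x hx h0 y hy a ha1 hy' ha2
    have e1 := card_diff (Z (g y)) (W x)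
    have e2 : finrank F ↥(Z (g y) ⊓ W x) = finrank F ↥(Z y ⊓ W x) := by
      rw [he g hg y hyH (ne0 hy'), ← rank_map_inf g (Z y) (W x), ← (hg.2 x hx h0).2, h.fW.fix hx h0 hg1]
    rw [hZ.rank _ (hg.1 y hyH) (ne0 ha2), e2, ← c1] at e1
    rw [← Nat.cast_inj (R := ℤ), ← e1]
    congr 2; ext b
    simp only [bipartiteAbove, hD, mem_filter, mem_univ, true_and]
    exact ⟨fun hb => ⟨hb.2, hb.1.2⟩, fun hb => ⟨⟨hZ.le _ (hg.1 y hyH) (ne0 ha2) hb.1, hb.2⟩, hb.1⟩⟩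
  · intro b hb
    obtain ⟨hb1, hb2⟩ := (mem_filter.1 hb).2
    have hb0 : b ≠ 0 := by rintro rfl; exact hb2 (zero_mem _)
    obtain ⟨g, hg, hg1, rfl⟩ := h.tout x hx h0 t ht b hb1 ht' hb2
    have e1 := card_diff (T x ⊓ Z (g t)) (span F {x})
    have e2 : finrank F ↥(T x ⊓ Z (g t)) = finrank F ↥(T x ⊓ Z t) := by
      rw [he g hg t ht ht0, ← rank_map_inf g (T x) (Z t), ← (hg.2 x hx h0).1, h.fT.fix hx h0 hg1]
    rw [inf_span_eq_bot (nx _ hb1 hb2), finrank_bot, e2, ← c2] at e1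
    rw [← Nat.cast_inj (R := ℤ), ← e1]
    congr 2; ext a
    simp only [bipartiteBelow, hA, mem_filter, mem_univ, true_and, Submodule.mem_inf]
    exact ⟨fun ha => ⟨⟨ha.1.1, hZ.symm a (h.fT.le x hx h0 ha.1.1) (ne0 ha.1.2) _ ha.2 hb0⟩, ha.1.2⟩,
      fun ha => ⟨⟨ha.1.1, ha.2⟩, hZ.symm _ hb1 hb0 a ha.1.2 (ne0 ha.2)⟩⟩

end Cfsg.Agent.Sg.IIa
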