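import Cfsg.Agent.Sg.IIa0

set_option autoImplicit false
open Module Submodule Finset

namespace Cfsg.Agent.Sg.IIa

variable {F V : Type*} [Field F] [Fintype F] [AddCommGroup V] [Module F V] [Fintype V]
variable {H : Submodule F V} {T W : V → Submodule F V} {c c' w : ℕ}

theorem q2 : (2 : ℤ) ≤ Fintype.card F := by exact_mod_cast Fintype.one_lt_card

theorem ex_not {A A' : Submodule F V} (h : finrank F A < finrank F A') : ∃ v ∈ A', v ∉ A := by
  by_contra hc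
  push Not at hc
  exact absurd (Submodule.finrank_mono (show A' ≤ A from hc)) (by omega)

/-- `T x ≤ W x` -/
theorem HS.TW (h : HS H T W c c' w) (hw : c + 1 < w + c') {x : V} (hx : x ∈ H) (h0 : x ≠ 0) :
    T x ≤ W x := by
  intro t ht
  by_contra ht'
  have key : ∀ y ∈ H, y ∉ W x → y ∈ T x := by
    intro y hy hy'
    obtain ⟨g, hg, hg1, rfl⟩ := h.tout x hx h0 t (h.fT.le x hx h0 ht) y hy ht' hy'
    rw [← h.fT.fix hx h0 hg1, (hg.2 x hx h0).1]
    exact mem_map_of_mem ht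
  obtain ⟨v, hv, hv'⟩ := ex_not (A := T x) (A' := H) (by rw [h.rH, h.fT.rank x hx h0]; exact hw)
  have hvW : v ∈ W x := by by_contra hc; exact hv' (key v hv hc)
  have : v + t ∈ T x := key _ (add_mem hv (h.fT.le x hx h0 ht))
    fun hc => ht' (by simpa using sub_mem hc hvW)
  exact hv' (by simpa using sub_mem this ht)

theorem HS.exT (h : HS H T W c c' w) (hc : 1 ≤ c) {x : V} (hx : x ∈ H) (h0 : x ≠ 0) :
    ∃ y ∈ T x, y ∉ span F {x} :=
  ex_not (by rw [h.fT.rank x hx h0, finrank_span_singleton h0]; omega)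

theorem HS.exW (h : HS H T W c c' w) (hc : 1 ≤ c') {x : V} (hx : x ∈ H) (h0 : x ≠ 0) :
    ∃ y ∈ H, y ∉ W x :=
  ex_not (by rw [h.fW.rank x hx h0, h.rH]; omega)

/-- step 1 -/
theorem HS.TW2 (h : HS H T W c c' w) (hc : 1 ≤ c) (hc' : 1 ≤ c') (hw : c + 2 ≤ w) {x y : V}
    (hx : x ∈ H) (h0 : x ≠ 0) (hy : y ∈ T x) (hy0 : y ≠ 0) : T y ≤ W x := by
  have hyH := h.fT.le x hx h0 hy
  by_cases hy' : y ∈ span F {x}
  · obtain ⟨a, rfl⟩ := mem_span_singleton.1 hy'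
    rw [h.fT.smul x hx h0 a (by rintro rfl; simp at hy0)]
    exact h.TW (by omega) hx h0
  obtain ⟨t, ht, ht'⟩ := h.exW hc' hx h0
  have dc := h.dc h.fT (fun g hg u hu hu0 => (hg.2 u hu hu0).1) hx h0 (h.TW (by omega) hx h0) hy hy' ht ht'
  have hi : finrank F ↥(T y ⊓ W x) ≤ c + 1 := by
    rw [← h.fT.rank y hyH hy0]; exact Submodule.finrank_mono inf_le_left
  rcases Nat.eq_zero_or_pos (finrank F ↥(T x ⊓ T t)) with hk | hk
  · rw [hk, sub_self, mul_zero, mul_eq_zero] at dc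
    have hq := q2 (F := F)
    have inj := pow_right_injective₀ (by omega : (0 : ℤ) < Fintype.card F) (by omega)
    rcases dc with dc | dc
    · have := inj (sub_eq_zero.1 dc); omega
    · have := inj (sub_eq_zero.1 dc)
      have e := eq_of_le_of_finrank_eq (inf_le_left : T y ⊓ W x ≤ T y) (by rw [h.fT.rank y hyH hy0, this])
      exact inf_eq_left.1 e
  · have := num q2 hc hc' hi hk dc
    omega

/-- step 2 -/
theorem HS.st2 (h : HS H T W c c' w) (hc' : 2 ≤ c') (hcc : c' ≤ c) {x y t : V}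
    (hx : x ∈ H) (h0 : x ≠ 0) (hy : y ∈ T x) (hy' : y ∉ span F {x}) (ht : t ∈ H) (ht' : t ∉ W x) :
    finrank F ↥(W y ⊓ W x) + 1 = w ∧ finrank F ↥(T x ⊓ W t) = 1 ∧ c = c' := by
  have hyH := h.fT.le x hx h0 hy
  have ht0 : t ≠ 0 := by rintro rfl; exact ht' (zero_mem _)
  have dc := h.dc h.fW (fun g hg u hu hu0 => (hg.2 u hu hu0).2) hx h0 le_rfl hy hy' ht ht'
  have hi : finrank F ↥(W y ⊓ W x) ≤ w := by
    rw [← h.fW.rank y hyH (ne0 hy')]; exact Submodule.finrank_mono inf_le_left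
  have hk : 1 ≤ finrank F ↥(T x ⊓ W t) := by
    have e := finrank_sup_add_finrank_inf_eq (T x) (W t)
    have e2 := Submodule.finrank_mono (sup_le (h.fT.le x hx h0) (h.fW.le t ht ht0))
    rw [h.rH] at e2
    rw [h.fT.rank x hx h0, h.fW.rank t ht ht0] at e
    omega
  obtain ⟨-, e1, e2⟩ := num q2 (by omega) (by omega) hi hk dc
  rw [show w - finrank F ↥(W y ⊓ W x) = 1 by omega] at e2
  exact ⟨e1, num2 q2 (by omega) hc' hk e2⟩

/-- the fibre through `y` -/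
def Fb (T W : V → Submodule F V) (x : V) (J : Submodule F V) : Submodule F V :=
  T x ⊓ ⨅ t ∈ J, ⨅ (_ : t ≠ 0), W t

omit [Fintype F] [Fintype V] in
theorem HS.memFb (h : HS H T W c c' w) {x s : V} (hx : x ∈ H) (h0 : x ≠ 0) {J : Submodule F V}
    (hJ : J ≤ H) (hs : s ≠ 0) : s ∈ Fb T W x J ↔ s ∈ T x ∧ J ≤ W s := by
  simp only [Fb, Submodule.mem_inf, mem_iInf]
  refine and_congr_right fun hsT => ⟨fun hh t ht => ?_, fun hh t ht ht0 => ?_⟩
  · by_cases ht0 : t = 0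
    · subst ht0; exact zero_mem _
    · exact h.fW.symm t (hJ ht) ht0 s (hh t ht ht0) hs
  · exact h.fW.symm s (h.fT.le x hx h0 hsT) hs t (hh ht) ht0

section
variable (h : HS H T W c c' w) (hc' : 2 ≤ c') (hcc : c' ≤ c) {x : V} (hx : x ∈ H) (h0 : x ≠ 0)
include h hc' hcc hx h0

theorem HS.rI {y : V} (hy : y ∈ T x) (hy' : y ∉ span F {x}) : finrank F ↥(W y ⊓ W x) + 1 = w := by
  obtain ⟨t, ht, ht'⟩ := h.exW (by omega) hx h0
  exact (h.st2 hc' hcc hx h0 hy hy' ht ht').1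

theorem HS.eqI {y s : V} (hy : y ∈ T x) (hy' : y ∉ span F {x}) (hs : s ∈ T x) (hs' : s ∉ span F {x})
    (hle : W y ⊓ W x ≤ W s) : W y ⊓ W x = W s ⊓ W x := by
  refine eq_of_le_of_finrank_eq (le_inf hle inf_le_right) ?_
  have := h.rI hc' hcc hx h0 hy hy'
  have := h.rI hc' hcc hx h0 hs hs'
  omega

omit [Fintype F] [Fintype V] hc' hcc in
theorem HS.xFb {y : V} : span F {x} ≤ Fb T W x (W y ⊓ W x) :=
  (span_singleton_le_iff_mem _ _).2 ((h.memFb hx h0 (inf_le_right.trans (h.fW.le x hx h0)) h0).2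
    ⟨h.fT.self x hx h0, inf_le_right⟩)

omit [Fintype F] hc' hcc in
theorem HS.rFb {y s : V} (hy : y ∈ T x) (hy' : y ∉ span F {x}) (hs : s ∈ T x) (hs' : s ∉ span F {x}) :
    finrank F (Fb T W x (W y ⊓ W x)) ≤ finrank F (Fb T W x (W s ⊓ W x)) := by
  obtain ⟨g, hg, hg1, rfl⟩ := h.tin x hx h0 y hy s hs hy' hs'
  rw [← g.finrank_map_eq]
  refine Submodule.finrank_mono ?_
  rintro _ ⟨v, hv, rfl⟩
  by_cases hv0 : v = 0
  · subst hv0; simp
  have hJ : ∀ y, W y ⊓ W x ≤ H := fun y => inf_le_right.trans (h.fW.le x hx h0)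
  obtain ⟨hv1, hv2⟩ := (h.memFb hx h0 (hJ y) hv0).1 hv
  refine (h.memFb hx h0 (hJ _) (by simpa using hv0)).2 ⟨?_, ?_⟩
  · rw [← h.fT.fix hx h0 hg1, (hg.2 x hx h0).1]; exact mem_map_of_mem hv1
  · show W (g y) ⊓ W x ≤ W (g v)
    rw [← h.fW.fix hx h0 hg1, (hg.2 x hx h0).2, (hg.2 y (h.fT.le x hx h0 hy) (ne0 hy')).2,
      (hg.2 v (h.fT.le x hx h0 hv1) hv0).2, ← Submodule.map_inf _ g.injective]
    exact Submodule.map_mono hv2

open Classical in
/-- any set of points of `T x` with the same `I` is small -/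
theorem HS.cardFb {y : V} (hy : y ∈ T x) (hy' : y ∉ span F {x}) (S : Finset V)
    (hS : ∀ s ∈ S, s ∈ T x ∧ s ∉ span F {x})
    (hS' : ∀ s ∈ S, ∀ s' ∈ S, W s ⊓ W x ≤ W s') :
    (S.card : ℤ) ≤ (Fintype.card F : ℤ) ^ finrank F (Fb T W x (W y ⊓ W x)) - (Fintype.card F : ℤ) ^ 1 := by
  have hq := q2 (F := F)
  rcases S.eq_empty_or_nonempty with rfl | ⟨s, hs⟩
  · have := Submodule.finrank_mono (h.xFb hx h0 (y := y))
    rw [finrank_span_singleton h0] at this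
    simpa using pow_le_pow_right₀ (by omega : (1 : ℤ) ≤ Fintype.card F) this
  have e := card_diff (Fb T W x (W s ⊓ W x)) (span F {x})
  rw [inf_eq_right.2 (h.xFb hx h0), finrank_span_singleton h0,
    le_antisymm (h.rFb hx h0 (hS s hs).1 (hS s hs).2 hy hy') (h.rFb hx h0 hy hy' (hS s hs).1 (hS s hs).2)] at e
  rw [← e]
  norm_cast
  refine card_le_card fun s' hs' => mem_filter.2 ⟨mem_univ _, ?_, (hS s' hs').2⟩
  exact (h.memFb hx h0 (inf_le_right.trans (h.fW.le x hx h0)) (ne0 (hS s' hs').2)).2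
    ⟨(hS s' hs').1, hS' s hs s' hs'⟩

end

end Cfsg.Agent.Sg.IIa
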