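import Cfsg.Agent.Sg.IIa1

set_option autoImplicit false
open Module Submodule Finset

namespace Cfsg.Agent.Sg.IIa

variable {F V : Type*} [Field F] [Fintype F] [AddCommGroup V] [Module F V] [Fintype V]
variable {H : Submodule F V} {T W : V → Submodule F V} {c c' w : ℕ}

theorem ineq1 {q : ℤ} (hq : 2 ≤ q) {f v : ℕ} (hf : 1 ≤ f)
    (h : (q ^ (2 * f + 1) - q ^ 1) * (q ^ (v + 1) - q ^ v) ≤ (q ^ (v + 2) - q ^ v) * (q ^ (f + 1) - q ^ 1)) :
    f = 1 := by
  by_contra hne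
  have h1 : q ^ 1 < q ^ f := pow_lt_pow_right₀ (by omega) (by omega)
  have h2 : 0 < q ^ v := pow_pos (by omega) v
  have h3 : 0 < q * q ^ v * (q - 1) * (q ^ f - 1) * (q ^ f - q) := by
    have : 0 < q - 1 := by omega
    have : 0 < q ^ f - 1 := by rw [pow_one] at h1; omega
    have : 0 < q ^ f - q := by rw [pow_one] at h1; omega
    have : 0 < q := by omega
    positivity
  have : (q ^ (2 * f + 1) - q ^ 1) * (q ^ (v + 1) - q ^ v) - (q ^ (v + 2) - q ^ v) * (q ^ (f + 1) - q ^ 1) =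
    q * q ^ v * (q - 1) * (q ^ f - 1) * (q ^ f - q) := by ring
  omega

theorem ineq2 {q : ℤ} (hq : 2 ≤ q) {c N a : ℕ} (ha : a < c)
    (h : (q ^ (c + 1) - q ^ 1) * (q ^ (N + 1) - q ^ N) ≤ (q ^ (N + a) - q ^ N) * (q ^ 2 - q ^ 1)) : False := by
  have h1 : q ^ a < q ^ c := pow_lt_pow_right₀ (by omega) ha
  have h3 : 0 < q * q ^ N * (q - 1) * (q ^ c - q ^ a) := by
    have : 0 < q - 1 := by omega
    have : 0 < q ^ c - q ^ a := by omega
    have : 0 < q := by omega
    positivity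
  have : (q ^ (c + 1) - q ^ 1) * (q ^ (N + 1) - q ^ N) - (q ^ (N + a) - q ^ N) * (q ^ 2 - q ^ 1) =
    q * q ^ N * (q - 1) * (q ^ c - q ^ a) := by ring
  omega

section
variable (h : HS H T W c c' w) (hc' : 2 ≤ c') (hcc : c' ≤ c) {x : V} (hx : x ∈ H) (h0 : x ≠ 0)
include h hc' hcc hx h0

open Classical in
theorem HS.f1 {y y' : V} (hy : y ∈ T x) (hy1 : y ∉ span F {x}) (hy' : y' ∈ T x) (hy1' : y' ∉ span F {x})
    (hne : W y ⊓ W x ≠ W y' ⊓ W x) : finrank F (Fb T W x (W y ⊓ W x)) = 2 := by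
  have hJ : ∀ y, W y ⊓ W x ≤ H := fun y => inf_le_right.trans (h.fW.le x hx h0)
  have r1 := h.rI hc' hcc hx h0 hy hy1
  have r2 := h.rI hc' hcc hx h0 hy' hy1'
  have rW := h.fW.rank x hx h0
  set I := W y ⊓ W x with hI
  set I' := W y' ⊓ W x with hI'
  have r3 : finrank F ↥(I ⊓ I') + 2 = w := by
    have e := finrank_sup_add_finrank_inf_eq I I'
    have e2 : finrank F ↥(I ⊔ I') ≤ finrank F (W x) := Submodule.finrank_mono (sup_le inf_le_right inf_le_right)
    have e3 : finrank F I < finrank F ↥(I ⊔ I') := finrank_lt_finrank_of_lt (lt_of_le_of_ne le_sup_left fun he =>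
      hne (eq_of_le_of_finrank_eq (he ▸ le_sup_right : I' ≤ I) (by omega)).symm)
    omega
  have b1 : Fb T W x I ⊓ Fb T W x I' = span F {x} := by
    refine le_antisymm (fun s hs => ?_) (le_inf (h.xFb hx h0) (h.xFb hx h0))
    by_contra hs'
    have a1 := (h.memFb hx h0 (hJ y) (ne0 hs')).1 hs.1
    have a2 := (h.memFb hx h0 (hJ y') (ne0 hs')).1 hs.2
    exact hne ((h.eqI hc' hcc hx h0 hy hy1 a1.1 hs' a1.2).trans (h.eqI hc' hcc hx h0 hy' hy1' a1.1 hs' a2.2).symm)
  have b2 : finrank F (Fb T W x I') = finrank F (Fb T W x I) :=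
    le_antisymm (h.rFb hx h0 hy' hy1' hy hy1) (h.rFb hx h0 hy hy1 hy' hy1')
  have b3 : 1 < finrank F (Fb T W x I) := by
    rw [← finrank_span_singleton (K := F) h0]
    refine finrank_lt_finrank_of_lt (lt_of_le_of_ne (h.xFb hx h0) fun he => hy1 ?_)
    rw [he]; exact (h.memFb hx h0 (hJ y) (ne0 hy1)).2 ⟨hy, inf_le_left⟩
  obtain ⟨f, hf⟩ : ∃ f, finrank F (Fb T W x I) = f + 1 := ⟨_, (Nat.sub_add_cancel b3.le).symm⟩
  have b4 : finrank F ↥(Fb T W x I ⊔ Fb T W x I') = 2 * f + 1 := by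
    have e := finrank_sup_add_finrank_inf_eq (Fb T W x I) (Fb T W x I')
    rw [b1, finrank_span_singleton h0] at e; omega
  have mono : ∀ J J' : Submodule F V, J' ≤ J → Fb T W x J ≤ Fb T W x J' := fun J J' hl =>
    inf_le_inf_left _ (le_iInf₂ fun t ht => iInf₂_le t (hl ht))
  have b5 : ∀ s ∈ Fb T W x I ⊔ Fb T W x I', s ∉ span F {x} → s ∈ T x ∧ I ⊓ I' ≤ W s := fun s hs hs' =>
    (h.memFb hx h0 (inf_le_left.trans (hJ y)) (ne0 hs')).1
      (sup_le (mono _ _ inf_le_left) (mono _ _ inf_le_right) hs)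
  have hIW : I ⊓ I' ≤ W x := inf_le_left.trans inf_le_right
  obtain ⟨v, rfl⟩ : ∃ v, w = v + 2 := ⟨_, r3.symm⟩
  have cA := card_diff (Fb T W x I ⊔ Fb T W x I') (span F {x})
  rw [b4, inf_eq_right.2 ((h.xFb hx h0).trans le_sup_left), finrank_span_singleton h0] at cA
  have cD := card_diff (W x) (I ⊓ I')
  rw [rW, inf_eq_right.2 hIW, show finrank F ↥(I ⊓ I') = v by omega] at cD
  have key := card_nsmul_le_card_nsmul (fun s t => t ∈ W s)
    (s := univ.filter fun v => v ∈ Fb T W x I ⊔ Fb T W x I' ∧ v ∉ span F {x})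
    (t := univ.filter fun v => v ∈ W x ∧ v ∉ I ⊓ I')
    (m := (Fintype.card F : ℤ) ^ (v + 1) - (Fintype.card F : ℤ) ^ v)
    (n := (Fintype.card F : ℤ) ^ (f + 1) - (Fintype.card F : ℤ) ^ 1) ?_ ?_
  · rw [nsmul_eq_mul, nsmul_eq_mul, cA, cD] at key
    have := ineq1 q2 (by omega) key
    omega
  · intro s hs
    obtain ⟨hs1, hs2⟩ := (mem_filter.1 hs).2
    obtain ⟨a1, a2⟩ := b5 s hs1 hs2
    have e := card_diff (W s ⊓ W x) (I ⊓ I')
    have := h.rI hc' hcc hx h0 a1 hs2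
    rw [inf_eq_right.2 (le_inf a2 hIW), show finrank F ↥(I ⊓ I') = v by omega,
      show finrank F ↥(W s ⊓ W x) = v + 1 by omega] at e
    rw [← e]
    norm_cast
    refine card_le_card fun t ht => ?_
    simp only [bipartiteAbove, mem_filter, mem_univ, true_and] at ht ⊢
    exact ⟨⟨ht.1.2, ht.2⟩, ht.1.1⟩
  · intro t ht
    obtain ⟨ht1, ht2⟩ := (mem_filter.1 ht).2
    rw [← hf]
    refine h.cardFb hc' hcc hx h0 hy hy1 _ (fun s hs => ?_) fun s hs s' hs' => ?_
    · simp only [bipartiteBelow, mem_filter, mem_univ, true_and] at hs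
      exact ⟨(b5 s hs.1.1 hs.1.2).1, hs.1.2⟩
    · simp only [bipartiteBelow, mem_filter, mem_univ, true_and] at hs hs'
      have k : ∀ s, (s ∈ Fb T W x I ⊔ Fb T W x I' ∧ s ∉ span F {x}) ∧ t ∈ W s →
          (I ⊓ I') ⊔ span F {t} ≤ W s ⊓ W x := fun s hs =>
        sup_le (le_inf (b5 s hs.1.1 hs.1.2).2 hIW) ((span_singleton_le_iff_mem _ _).2 ⟨hs.2, ht1⟩)
      have e := finrank_sup_add_finrank_inf_eq (I ⊓ I') (span F {t})
      rw [inf_span_eq_bot ht2, finrank_bot, finrank_span_singleton (by rintro rfl; exact ht2 (zero_mem _))] at e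
      have := h.rI hc' hcc hx h0 (b5 s hs.1.1 hs.1.2).1 hs.1.2
      rw [← eq_of_le_of_finrank_eq (k s hs) (by omega)]
      exact (k s' hs').trans inf_le_left

open Classical in
theorem HS.constI (hw : c + 2 ≤ w) (hw' : w < 2 * c) {y y' : V} (hy : y ∈ T x) (hy1 : y ∉ span F {x})
    (hy' : y' ∈ T x) (hy1' : y' ∉ span F {x}) : W y ⊓ W x = W y' ⊓ W x := by
  by_contra hne
  have f1 := h.f1 hc' hcc hx h0 hy hy1 hy' hy1' hne
  have : Finite (Dual F V) := Module.finite_of_finite F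
  let _ : Fintype (Dual F V) := Fintype.ofFinite _
  have rW := h.fW.rank x hx h0
  have rT := h.fT.rank x hx h0
  have TW : T x ≤ W x := h.TW (by omega) hx h0
  have TI : ∀ s ∈ T x, s ∉ span F {x} → T x ≤ W s ⊓ W x := fun s hs hs' => le_inf
    (h.TW2 (by omega) (by omega) hw (h.fT.le x hx h0 hs) (ne0 hs') (h.fT.symm x hx h0 s hs (ne0 hs')) h0) TW
  have a1 := Subspace.finrank_add_finrank_dualAnnihilator_eq (W x)
  have a2 := Subspace.finrank_add_finrank_dualAnnihilator_eq (T x)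
  set N := finrank F (W x).dualAnnihilator with hN
  have cA := card_diff (T x) (span F {x})
  rw [rT, inf_eq_right.2 ((span_singleton_le_iff_mem _ _).2 (h.fT.self x hx h0)),
    finrank_span_singleton h0] at cA
  have cD := card_diff (T x).dualAnnihilator (W x).dualAnnihilator
  rw [inf_eq_right.2 (dualAnnihilator_anti TW), ← hN,
    show finrank F (T x).dualAnnihilator = N + (w - c - 1) by omega] at cD
  have key := card_nsmul_le_card_nsmul (fun s (η : Dual F V) => η ∈ (W s ⊓ W x).dualAnnihilator)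
    (s := univ.filter fun v => v ∈ T x ∧ v ∉ span F {x})
    (t := univ.filter fun v => v ∈ (T x).dualAnnihilator ∧ v ∉ (W x).dualAnnihilator)
    (m := (Fintype.card F : ℤ) ^ (N + 1) - (Fintype.card F : ℤ) ^ N)
    (n := (Fintype.card F : ℤ) ^ 2 - (Fintype.card F : ℤ) ^ 1) ?_ ?_
  · rw [nsmul_eq_mul, nsmul_eq_mul, cA, cD] at key
    exact ineq2 q2 (by omega) key
  · intro s hs
    obtain ⟨hs1, hs2⟩ := (mem_filter.1 hs).2
    have e := card_diff (W s ⊓ W x).dualAnnihilator (W x).dualAnnihilator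
    have a3 := Subspace.finrank_add_finrank_dualAnnihilator_eq (W s ⊓ W x)
    have := h.rI hc' hcc hx h0 hs1 hs2
    rw [inf_eq_right.2 (dualAnnihilator_anti inf_le_right), ← hN,
      show finrank F (W s ⊓ W x).dualAnnihilator = N + 1 by omega] at e
    rw [← e]
    norm_cast
    refine card_le_card fun t ht => ?_
    simp only [bipartiteAbove, mem_filter, mem_univ, true_and] at ht ⊢
    exact ⟨⟨dualAnnihilator_anti (TI s hs1 hs2) ht.1, ht.2⟩, ht.1⟩
  · intro η hη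
    obtain ⟨ht1, ht2⟩ := (mem_filter.1 hη).2
    rw [← f1]
    refine h.cardFb hc' hcc hx h0 hy hy1 _ (fun s hs => ?_) fun s hs s' hs' => ?_
    · simp only [bipartiteBelow, mem_filter, mem_univ, true_and] at hs
      exact hs.1
    · simp only [bipartiteBelow, mem_filter, mem_univ, true_and] at hs hs'
      have k : ∀ s, (s ∈ T x ∧ s ∉ span F {x}) ∧ η ∈ (W s ⊓ W x).dualAnnihilator →
          W s ⊓ W x = LinearMap.ker η ⊓ W x := fun s hs => by
        refine eq_of_le_of_finrank_le (le_inf (fun v hv => (mem_dualAnnihilator _).1 hs.2 v hv) inf_le_right) ?_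
        have := h.rI hc' hcc hx h0 hs.1.1 hs.1.2
        have e : finrank F ↥(LinearMap.ker η ⊓ W x) < finrank F (W x) :=
          finrank_lt_finrank_of_lt (lt_of_le_of_ne inf_le_right fun he =>
            ht2 ((mem_dualAnnihilator _).2 fun v hv => (he.ge hv).1))
        omega
      rw [k s hs, ← k s' hs']
      exact inf_le_left

/-- `W` is injective on points -/
theorem HS.injW {s : V} (hs : s ∈ H) (hs0 : s ≠ 0) (he : W s = W x) : s ∈ span F {x} := by
  by_contra hs'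
  have hWH := h.fW.le x hx h0
  let E : Submodule F V := ⨅ t ∈ W x, ⨅ (_ : t ≠ 0), W t
  have mE : ∀ v ∈ H, v ≠ 0 → (v ∈ E ↔ W x ≤ W v) := fun v hv hv0 => by
    simp only [E, mem_iInf]
    refine ⟨fun hh t ht => ?_, fun hh t ht ht0 => h.fW.symm v hv hv0 t (hh ht) ht0⟩
    by_cases ht0 : t = 0
    · subst ht0; exact zero_mem _
    · exact h.fW.symm t (hWH ht) ht0 v (hh t ht ht0) hv0
  have EH : E ≤ H := (iInf₂_le x (h.fW.self x hx h0)).trans ((iInf_le _ h0).trans hWH)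
  have := h.min x hx h0 E ((mE x hx h0).2 le_rfl) (fun hE => hs' (hE ▸ (mE s hs hs0).2 he.ge))
    fun g hg hg1 v hv => by
      by_cases hv0 : v = 0
      · subst hv0; simp
      refine (mE _ (hg.1 v (EH hv)) (by simpa using hv0)).2 ?_
      rw [← h.fW.fix hx h0 hg1, (hg.2 x hx h0).2, (hg.2 v (EH hv) hv0).2]
      exact Submodule.map_mono ((mE v (EH hv) hv0).1 hv)
  obtain ⟨y, hy, hy'⟩ := h.exT (by omega) hx h0
  have e := (mE y (h.fT.le x hx h0 hy) (ne0 hy')).1 (this hy)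
  have r := h.rI hc' hcc hx h0 hy hy'
  rw [inf_eq_right.2 e, h.fW.rank x hx h0] at r
  omega

theorem HS.spread (hw : c + 2 ≤ w) (hw' : w < 2 * c) {y : V} (hy : y ∈ T x) (hy0 : y ≠ 0) : T y = T x := by
  have hyH := h.fT.le x hx h0 hy
  by_cases hy' : y ∈ span F {x}
  · obtain ⟨a, rfl⟩ := mem_span_singleton.1 hy'
    exact h.fT.smul x hx h0 a (by rintro rfl; simp at hy0)
  refine eq_of_le_of_finrank_eq (fun s hs => ?_) (by rw [h.fT.rank x hx h0, h.fT.rank y hyH hy0])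
  by_cases hs' : s ∈ span F {y}
  · exact (span_singleton_le_iff_mem _ _).2 hy hs'
  have hsH := h.fT.le y hyH hy0 hs
  have hxy : x ∉ span F {y} := fun hc => by
    obtain ⟨a, rfl⟩ := mem_span_singleton.1 hc
    have ha : a ≠ 0 := by rintro rfl; simp at h0
    exact hy' (mem_span_singleton.2 ⟨a⁻¹, by rw [smul_smul, inv_mul_cancel₀ ha, one_smul]⟩)
  have e := h.constI hc' hcc hyH hy0 hw hw' hs hs' (h.fT.symm x hx h0 y hy hy0) hxy
  have r := h.rI hc' hcc hyH hy0 hs hs'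
  have rs := h.fW.rank s hsH (ne0 hs')
  obtain ⟨t, ht, ht'⟩ := ex_not (A := W s ⊓ W y) (A' := W s) (by omega)
  have r2 := finrank_sup_add_finrank_inf_eq (W s ⊓ W y) (span F {t})
  rw [inf_span_eq_bot ht', finrank_bot, finrank_span_singleton (by rintro rfl; exact ht' (zero_mem _))] at r2
  have k : ∀ u ∈ H, u ≠ 0 → W s ⊓ W y ≤ W u → t ∈ W u → W u = (W s ⊓ W y) ⊔ span F {t} := fun u hu hu0 a b =>
    (eq_of_le_of_finrank_eq (sup_le a ((span_singleton_le_iff_mem _ _).2 b))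
      (by rw [h.fW.rank u hu hu0]; omega)).symm
  have ks := k s hsH (ne0 hs') inf_le_left ht
  by_cases htx : t ∈ W x
  · have := h.injW hc' hcc hx h0 hsH (ne0 hs') (ks.trans (k x hx h0 (e ▸ inf_le_left) htx).symm)
    exact (span_singleton_le_iff_mem _ _).2 (h.fT.self x hx h0) this
  have htH := h.fW.le s hsH (ne0 hs') ht
  have ht0 : t ≠ 0 := by rintro rfl; exact htx (zero_mem _)
  obtain ⟨u, hu, hu'⟩ := ex_not (A := ⊥) (A' := T x ⊓ W t)
    (by rw [(h.st2 hc' hcc hx h0 hy hy' htH htx).2.1, finrank_bot]; omega)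
  have hu0 : u ≠ 0 := by simpa using hu'
  have huH := h.fT.le x hx h0 hu.1
  have htu : t ∈ W u := h.fW.symm t htH ht0 u hu.2 hu0
  have hux : u ∉ span F {x} := fun hc => by
    obtain ⟨a, rfl⟩ := mem_span_singleton.1 hc
    rw [h.fW.smul x hx h0 a (by rintro rfl; simp at hu0)] at htu
    exact htx htu
  have e2 := h.constI hc' hcc hx h0 hw hw' hy hy' hu.1 hux
  have := h.injW hc' hcc huH hu0 hsH (ne0 hs')
    (ks.trans (k u huH hu0 (by rw [e, inf_comm, e2]; exact inf_le_left) htu).symm)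
  exact (span_singleton_le_iff_mem _ _).2 hu.1 this

theorem HS.w_eq (hw : c + 2 ≤ w) (hw' : w < 2 * c) : w = c + 2 := by
  by_contra hne
  obtain ⟨y, hy, hy'⟩ := h.exT (by omega) hx h0
  have r := h.rI hc' hcc hx h0 hy hy'
  have rT := h.fT.rank x hx h0
  obtain ⟨t, ht, ht'⟩ := ex_not (A := T x) (A' := W y ⊓ W x) (by omega)
  have htH := h.fW.le x hx h0 ht.2
  have ht0 : t ≠ 0 := by rintro rfl; exact ht' (zero_mem _)
  have TWt : T x ≤ W t := fun s hs => by
    by_cases hs0 : s = 0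
    · subst hs0; exact zero_mem _
    refine h.fW.symm s (h.fT.le x hx h0 hs) hs0 t ?_ ht0
    by_cases hs' : s ∈ span F {x}
    · obtain ⟨a, rfl⟩ := mem_span_singleton.1 hs'
      rw [h.fW.smul x hx h0 a (by rintro rfl; simp at hs0)]; exact ht.2
    · exact (h.constI hc' hcc hx h0 hw hw' hy hy' hs hs' ▸ ht : t ∈ W s ⊓ W x).1
  have dis : T x ⊓ T t = ⊥ := by
    rw [eq_bot_iff]
    intro u hu
    by_contra hu0
    have hu0 : u ≠ 0 := by simpa using hu0
    have e1 := h.spread hc' hcc hx h0 hw hw' hu.1 hu0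
    have e2 := h.spread hc' hcc htH ht0 hw hw' hu.2 hu0
    exact ht' (by rw [← e1, e2]; exact h.fT.self t htH ht0)
  have e := finrank_sup_add_finrank_inf_eq (T x) (T t)
  rw [dis, finrank_bot, rT, h.fT.rank t htH ht0] at e
  have := Submodule.finrank_mono (sup_le TWt (h.TW (by omega) htH ht0))
  rw [h.fW.rank t htH ht0] at this
  omega

end

end Cfsg.Agent.Sg.IIa
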