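import Cfsg.Agent.Sg.Defs

set_option autoImplicit false
open Module Submodule

namespace Cfsg.Agent.Sg

namespace Iib

variable {F V V' G : Type*} [Field F] [AddCommGroup V] [Module F V] [AddCommGroup V'] [Module F V']
  [Group G] {ρ : Representation F G V} {ρ' : Representation F G V'} {B : V →ₗ[F] V' →ₗ[F] F}

theorem sep (hB : B.IsPerfPair) (E : Submodule F V) {u : V} (hu : u ∉ E) :
    ∃ ζ, (∀ t ∈ E, B t ζ = 0) ∧ B u ζ ≠ 0 := by
  obtain ⟨f, hf, hE⟩ := Submodule.exists_dual_map_eq_bot_of_notMem hu inferInstance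
  obtain ⟨ζ, hζ⟩ := hB.bijective_right.2 f
  refine ⟨ζ, fun t ht => ?_, ?_⟩
  · have : f t ∈ E.map f := mem_map_of_mem ht
    rw [hE, mem_bot] at this
    rw [← this, ← hζ]; rfl
  · have : B u ζ = f u := by rw [← hζ]; rfl
    rwa [this]

theorem fr_sup [Module.Finite F V] (E : Submodule F V) {z : V} (hz : z ∉ E) :
    finrank F (E ⊔ span F {z} : Submodule F V) = finrank F E + 1 := by
  have h0 : z ≠ 0 := fun h => hz (h ▸ E.zero_mem)
  have h1 := Submodule.finrank_sup_add_finrank_inf_eq E (span F {z})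
  have h2 : E ⊓ span F {z} = ⊥ := disjoint_iff.1 ((disjoint_span_singleton' h0).2 hz)
  rw [h2, finrank_bot, finrank_span_singleton h0] at h1
  omega

theorem ind2_symm {x y : V} (h : Ind2 F x y) : Ind2 F y x := by
  have hy : y ≠ 0 := fun e => h.2 (e ▸ zero_mem _)
  refine ⟨hy, fun hx => h.2 ?_⟩
  obtain ⟨a, ha⟩ := mem_span_singleton.1 hx
  have ha0 : a ≠ 0 := fun e => h.1 (by rw [← ha, e, zero_smul])
  exact mem_span_singleton.2 ⟨a⁻¹, by rw [← ha, smul_smul, inv_mul_cancel₀ ha0, one_smul]⟩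

theorem inv_app (g : G) (v : V) : ρ g⁻¹ (ρ g v) = v := by
  rw [← Module.End.mul_apply, ← map_mul, inv_mul_cancel, map_one, Module.End.one_apply]

theorem app_inv (g : G) (v : V) : ρ g (ρ g⁻¹ v) = v := by
  rw [← Module.End.mul_apply, ← map_mul, mul_inv_cancel, map_one, Module.End.one_apply]

theorem app_ne (g : G) {v : V} (hv : v ≠ 0) : ρ g v ≠ 0 := fun e => hv (by
  rw [← inv_app (ρ := ρ) g v, e, map_zero])

variable {c : ℕ} {W : V → V → Submodule F V} {T : V → V' → Submodule F V}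

theorem T_self (hT : TS ρ ρ' B c W T) {x : V} {ξ : V'} (hx : x ≠ 0) (hξ : ξ ≠ 0) (h0 : B x ξ = 0) :
    x ∈ T x ξ := (hT.mem x ξ x hx hξ h0).2 (Or.inl (mem_span_singleton_self x))

theorem T_ker (hW : WS ρ c W) (hT : TS ρ ρ' B c W T) {x : V} {ξ : V'} (hx : x ≠ 0) (hξ : ξ ≠ 0)
    (h0 : B x ξ = 0) {y : V} (hy : y ∈ T x ξ) : B y ξ = 0 := by
  by_cases hs : y ∈ span F {x}
  · obtain ⟨a, rfl⟩ := mem_span_singleton.1 hs
    simp [h0]
  · rcases (hT.mem x ξ y hx hξ h0).1 hy with h | h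
    · exact absurd h hs
    · exact h y (hW.right x y ⟨hx, hs⟩)

theorem T_smul (hT : TS ρ ρ' B c W T) {x : V} {ξ : V'} (hx : x ≠ 0) (hξ : ξ ≠ 0)
    (h0 : B x ξ = 0) {a : F} (ha : a ≠ 0) : T x (a • ξ) = T x ξ := by
  ext y
  rw [hT.mem x ξ y hx hξ h0, hT.mem x (a • ξ) y hx (smul_ne_zero ha hξ) (by simp [h0])]
  simp [ha]

theorem T_equi (h : Ctx ρ ρ' B) (hW : WS ρ c W) (hT : TS ρ ρ' B c W T) {x : V} {ξ : V'}
    (hx : x ≠ 0) (hξ : ξ ≠ 0) (h0 : B x ξ = 0) (g : G) {y : V} (hy : y ∈ T x ξ) :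
    ρ g y ∈ T (ρ g x) (ρ' g ξ) := by
  rw [hT.mem _ _ _ (app_ne g hx) (app_ne g hξ) (by rw [h.inv, h0])]
  by_cases hs : y ∈ span F {x}
  · obtain ⟨a, rfl⟩ := mem_span_singleton.1 hs
    exact Or.inl (mem_span_singleton.2 ⟨a, by rw [map_smul]⟩)
  · rcases (hT.mem x ξ y hx hξ h0).1 hy with h1 | h1
    · exact absurd h1 hs
    · refine Or.inr fun w hw => ?_
      rw [hW.equi g x y ⟨hx, hs⟩] at hw
      obtain ⟨w', hw', rfl⟩ := mem_map.1 hw
      rw [h.inv]; exact h1 w' hw'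

variable [Module.Finite F V] [Module.Finite F V']

theorem uniq (h : Ctx ρ ρ' B) (hW : WS ρ c W) (hT : TS ρ ρ' B c W T) (hn : finrank F V = 2 * c + 3)
    (hs : ∀ x y ξ, x ≠ 0 → y ≠ 0 → ξ ≠ 0 → B x ξ = 0 → y ∈ T x ξ → T y ξ = T x ξ)
    {ξ η : V'} (hi : Ind2 F ξ η) {x x' : V} (hx : x ≠ 0) (hx' : x' ≠ 0) (h0 : B x η = 0)
    (h0' : B x' η = 0) (h1 : ∀ u ∈ T x η, B u ξ = 0) (h1' : ∀ u ∈ T x' η, B u ξ = 0) :
    T x η = T x' η := by
  have hη : η ≠ 0 := (ind2_symm hi).1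
  by_cases hd : T x η ⊓ T x' η = ⊥
  · exfalso
    have e1 := Submodule.finrank_sup_add_finrank_inf_eq (T x η) (T x' η)
    rw [hd, finrank_bot, hT.rank x η hx hη h0, hT.rank x' η hx' hη h0'] at e1
    set M : Submodule F V := LinearMap.ker (B.flip ξ) ⊓ LinearMap.ker (B.flip η) with hM
    have hle : T x η ⊔ T x' η ≤ M := by
      refine sup_le (fun u hu => ⟨h1 u hu, T_ker hW hT hx hη h0 hu⟩)
        (fun u hu => ⟨h1' u hu, T_ker hW hT hx' hη h0' hu⟩)
    have l1 : M < LinearMap.ker (B.flip ξ) := by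
      refine lt_of_le_of_ne inf_le_left fun e => ?_
      obtain ⟨v, hv, hv'⟩ := sep h.perf.flip (span F {ξ}) hi.2
      have : v ∈ M := by rw [e]; exact hv ξ (mem_span_singleton_self ξ)
      exact hv' this.2
    have l2 : LinearMap.ker (B.flip ξ) < ⊤ := by
      refine lt_top_iff_ne_top.2 fun e => ?_
      obtain ⟨v, -, hv'⟩ := sep h.perf.flip (⊥ : Submodule F V') (u := ξ) (by simpa using hi.1)
      have : v ∈ LinearMap.ker (B.flip ξ) := by rw [e]; trivial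
      exact hv' this
    have a1 := Submodule.finrank_mono hle
    have a2 := Submodule.finrank_lt_finrank_of_lt l1
    have a3 := Submodule.finrank_lt_finrank_of_lt l2
    rw [finrank_top] at a3
    omega
  · obtain ⟨y, hy, hy0⟩ := Submodule.exists_mem_ne_zero_of_ne_bot hd
    rw [← hs x y η hx hy0 hη h0 hy.1, ← hs x' y η hx' hy0 hη h0' hy.2]

theorem claim (h : Ctx ρ ρ' B) (hW : WS ρ c W) (hT : TS ρ ρ' B c W T) (hp : PT ρ')
    (hn : finrank F V = 2 * c + 3)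
    (hs : ∀ x y ξ, x ≠ 0 → y ≠ 0 → ξ ≠ 0 → B x ξ = 0 → y ∈ T x ξ → T y ξ = T x ξ)
    {x : V} {ξ η : V'} (hx : x ≠ 0) (hξ : ξ ≠ 0) (hη : η ≠ 0) (h0 : B x ξ = 0)
    (h1 : ∀ u ∈ T x ξ, B u η = 0) : T x η = T x ξ := by
  have h0' : B x η = 0 := h1 x (T_self hT hx hξ h0)
  by_cases hd : η ∈ span F {ξ}
  · obtain ⟨a, rfl⟩ := mem_span_singleton.1 hd
    exact T_smul hT hx hξ h0 (fun e => hη (by rw [e, zero_smul]))
  have hi : Ind2 F ξ η := ⟨hξ, hd⟩
  have h2 : ∀ u ∈ T x η, B u ξ = 0 := hT.symm x ξ η hx hξ hη h0 h0' h1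
  have hle : T x η ≤ T x ξ := by
    intro u hu
    by_contra hu'
    obtain ⟨ζ, hζ, hζu⟩ := sep h.perf (T x ξ) hu'
    apply hζu
    by_cases hz : ζ ∈ span F {ξ} ⊔ span F {η}
    · obtain ⟨a, ha, b, hb, rfl⟩ := mem_sup.1 hz
      obtain ⟨a, rfl⟩ := mem_span_singleton.1 ha
      obtain ⟨b, rfl⟩ := mem_span_singleton.1 hb
      simp [h2 u hu, T_ker hW hT hx hη h0' hu]
    set π : Submodule F V' := span F {ξ} ⊔ span F {η} ⊔ span F {ζ} with hπ
    have h3 : finrank F π = 3 := by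
      rw [hπ, fr_sup _ hz, fr_sup _ hd, finrank_span_singleton hξ]
    have mξ : ξ ∈ π := mem_sup_left (mem_sup_left (mem_span_singleton_self ξ))
    have mη : η ∈ π := mem_sup_left (mem_sup_right (mem_span_singleton_self η))
    have mζ : ζ ∈ π := mem_sup_right (mem_span_singleton_self ζ)
    have hperp : ∀ t ∈ T x ξ, ∀ θ ∈ π, B t θ = 0 := by
      intro t ht θ hθ
      have : π ≤ LinearMap.ker (B t) := by
        refine sup_le (sup_le ?_ ?_) ?_ <;> rw [span_singleton_le_iff_mem, LinearMap.mem_ker]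
        · exact T_ker hW hT hx hξ h0 ht
        · exact h1 t ht
        · exact hζ t ht
      exact this hθ
    obtain ⟨g, hg, hgξ, -⟩ := hp π h3 ξ mξ η mη η mη ξ mξ hi (ind2_symm hi)
    have hgx : ρ g x ≠ 0 := app_ne g hx
    have hgx0 : B (ρ g x) η = 0 := by rw [← hgξ, h.inv, h0]
    have hperp' : ∀ t ∈ T (ρ g x) η, ∀ θ ∈ π, B t θ = 0 := by
      intro t ht θ hθ
      have m1 := T_equi h hW hT hgx hη hgx0 g⁻¹ ht
      rw [inv_app, ← hgξ, inv_app] at m1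
      rw [← hg] at hθ
      obtain ⟨θ', hθ', rfl⟩ := mem_map.1 hθ
      rw [← app_inv (ρ := ρ) g t, h.inv]
      exact hperp _ m1 θ' hθ'
    have e := uniq h hW hT hn hs hi hx hgx h0' hgx0 h2 (fun t ht => hperp' t ht ξ mξ)
    rw [e] at hu
    exact hperp' u hu ζ mζ
  exact Submodule.eq_of_le_of_finrank_eq hle (by rw [hT.rank x η hx hη h0', hT.rank x ξ hx hξ h0])

end Iib

variable {F V V' G : Type*} [Field F] [Fintype F] [AddCommGroup V] [Module F V] [Module.Finite F V]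
  [AddCommGroup V'] [Module F V'] [Module.Finite F V'] [Group G] [Finite G]
  {ρ : Representation F G V} {ρ' : Representation F G V'} {B : V →ₗ[F] V' →ₗ[F] F}

open Iib in
theorem iib (h : Ctx ρ ρ' B) {c : ℕ} {W : V → V → Submodule F V} {T : V → V' → Submodule F V}
    (hW : WS ρ c W) (hT : TS ρ ρ' B c W T) (hp : PT ρ') (hn : finrank F V = 2 * c + 3)
    (hs : ∀ x y ξ, x ≠ 0 → y ≠ 0 → ξ ≠ 0 → B x ξ = 0 → y ∈ T x ξ → T y ξ = T x ξ) : False := by
  have hc := hW.c_pos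
  have : Nontrivial V := Module.nontrivial_of_finrank_pos (R := F) (by omega)
  obtain ⟨x, hx⟩ := exists_ne (0 : V)
  have top : ∀ E : Submodule F V, finrank F E < finrank F V → ∃ ζ : V', ζ ≠ 0 ∧ ∀ t ∈ E, B t ζ = 0 := by
    intro E hE
    have : ∃ u, u ∉ E := by
      by_contra hh
      push Not at hh
      have : E = ⊤ := eq_top_iff.2 fun u _ => hh u
      rw [this, finrank_top] at hE
      exact lt_irrefl _ hE
    obtain ⟨u, hu⟩ := this
    obtain ⟨ζ, h1, h2⟩ := sep h.perf E hu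
    exact ⟨ζ, fun e => h2 (by rw [e, map_zero]), h1⟩
  obtain ⟨ξ, hξ, h0⟩ := top (span F {x}) (by rw [finrank_span_singleton hx]; omega)
  have h0 : B x ξ = 0 := h0 x (mem_span_singleton_self x)
  have : ∃ y ∈ T x ξ, y ∉ span F {x} := by
    by_contra hh
    push Not at hh
    have := Submodule.finrank_mono (show T x ξ ≤ span F {x} from hh)
    rw [finrank_span_singleton hx, hT.rank x ξ hx hξ h0] at this
    omega
  obtain ⟨y, hy, hyx⟩ := this
  obtain ⟨η, h1, h2⟩ := sep h.perf (span F {x}) hyx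
  have h1 : B x η = 0 := h1 x (mem_span_singleton_self x)
  have hη : η ≠ 0 := fun e => h2 (by rw [e, map_zero])
  have e1 := Submodule.finrank_sup_add_finrank_inf_eq (T x ξ) (T x η)
  rw [hT.rank x ξ hx hξ h0, hT.rank x η hx hη h1] at e1
  obtain ⟨ζ, hζ, hζ'⟩ := top (T x ξ ⊔ T x η) (by omega)
  have a1 := claim h hW hT hp hn hs hx hξ hζ h0 (fun u hu => hζ' u (mem_sup_left hu))
  have a2 := claim h hW hT hp hn hs hx hη hζ h1 (fun u hu => hζ' u (mem_sup_right hu))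
  rw [← a1, a2] at hy
  exact h2 (T_ker hW hT hx hη h1 hy)

end Cfsg.Agent.Sg
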