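import Cfsg.Agent.Sg.Defs
import Cfsg.Agent.SG.Deg

set_option autoImplicit false
open Module Submodule

namespace Cfsg.Agent.Sg

namespace Poly

variable {F V G : Type*} [Field F] [AddCommGroup V] [Module F V] [Group G]
  {ρ : Representation F G V} {c : ℕ} {W : V → V → Submodule F V}

theorem ind_symm {x y : V} (h : Ind2 F x y) : Ind2 F y x := by
  have y0 : y ≠ 0 := by rintro rfl; exact h.2 (Submodule.zero_mem _)
  refine ⟨y0, fun k => ?_⟩
  obtain ⟨a, rfl⟩ := mem_span_singleton.1 k
  have a0 : a ≠ 0 := by rintro rfl; exact h.1 (zero_smul _ _)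
  exact h.2 (mem_span_singleton.2 ⟨a⁻¹, by simp [smul_smul, a0]⟩)

theorem ind_map {V' : Type*} [AddCommGroup V'] [Module F V'] (f : V →ₗ[F] V')
    (hf : Function.Injective f) {x y : V} (h : Ind2 F x y) : Ind2 F (f x) (f y) := by
  refine ⟨fun e => h.1 (hf (by simpa using e)), fun k => h.2 ?_⟩
  obtain ⟨a, e⟩ := mem_span_singleton.1 k
  exact mem_span_singleton.2 ⟨a, hf (by simpa using e)⟩

/-- the symmetric ternary relation -/
def Ph (F : Type*) {V : Type*} [Field F] [AddCommGroup V] [Module F V]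
    (W : V → V → Submodule F V) (x y z : V) : Prop := Ind2 F x y → z ∈ W x y

theorem ph12 (hW : WS ρ c W) {x y z : V} (h : Ph F W x y z) : Ph F W y x z := fun k => by
  rw [hW.congr x y y x (ind_symm k) k (subset_span (by simp)) (subset_span (by simp))]
  exact h (ind_symm k)

theorem ph23 (hW : WS ρ c W) {x y z : V} (h : Ph F W x y z) : Ph F W x z y := fun k => by
  by_cases k2 : Ind2 F x y
  · exact hW.swap x y z k2 k (h k2)
  · have : y ∈ span F {x} := by_contra fun e => k2 ⟨k.1, e⟩
    obtain ⟨a, rfl⟩ := mem_span_singleton.1 this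
    exact Submodule.smul_mem _ _ (hW.left _ _ k)

theorem phg (hW : WS ρ c W) (g : G) {x y z : V} (h : Ph F W x y z) :
    Ph F W (ρ g x) (ρ g y) (ρ g z) := fun k => by
  have ri : ∀ v, ρ g⁻¹ (ρ g v) = v := fun v => by
    rw [← Module.End.mul_apply, ← map_mul]; simp
  have ri' : ∀ v, ρ g (ρ g⁻¹ v) = v := fun v => by
    rw [← Module.End.mul_apply, ← map_mul]; simp
  have k2 := ind_map (ρ g⁻¹) (fun a b e => by rw [← ri' a, e, ri']) k
  rw [ri, ri] at k2
  rw [hW.equi g x y k2]
  exact ⟨z, h k2, rfl⟩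

end Poly

variable {F V G : Type*} [Field F] [Fintype F] [AddCommGroup V] [Module F V] [Module.Finite F V]
  [Group G] [Finite G] {ρ : Representation F G V} {K : Type*} [Field K] [Fintype K] [Algebra F K]

open Poly in
theorem poly (e : V ≃ₗ[F] K) (hp : (finrank F K).Prime) (h13 : 13 ≤ finrank F K) (hS : Sing ρ e)
    {c : ℕ} {W : V → V → Submodule F V} (hW : WS ρ c W) : finrank F V ≤ 3 * c := by
  classical
  let W' : K → K → Submodule F K := fun a b =>
    if Ind2 F (e.symm a) (e.symm b) then (W (e.symm a) (e.symm b)).map (e : V →ₗ[F] K) else ⊤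
  have hm : ∀ a b x, x ∈ W' a b ↔ Ph F W (e.symm a) (e.symm b) (e.symm x) := fun a b x => by
    simp only [W', Ph]
    split_ifs with k
    · rw [Submodule.mem_map_equiv]; simp [k]
    · simp [k]
  obtain ⟨b, hb⟩ : ∃ b : K, b ∉ span F {(1 : K)} := by
    by_contra hc
    push Not at hc
    have := finrank_span_singleton (K := F) (one_ne_zero (α := K))
    rw [Submodule.eq_top_iff'.2 hc, finrank_top] at this
    omega
  rw [e.finrank_eq]
  refine SG.deg W' (fun a b x => ?_) (fun a b x => ?_) (fun a b => ?_)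
    (Units.map (Algebra.norm F : K →* F)).ker ?_ (fun s hs a b x => ?_) (a := 1) (b := b)
    fun s => ?_
  · rw [hm, hm]
    exact ⟨fun k => ph12 hW (ph23 hW (ph12 hW k)), fun k => ph12 hW (ph23 hW (ph12 hW k))⟩
  · rw [hm, hm]
    exact ⟨ph23 hW, ph23 hW⟩
  · by_cases k : Ind2 F (e.symm a) (e.symm b)
    · rw [show W' a b = _ from if_pos k, LinearEquiv.finrank_map_eq, hW.rank _ _ k, e.finrank_eq]
    · rw [show W' a b = _ from if_neg k]; simp
  · rw [Subgroup.index_ker]
    have := Subgroup.card_le_card_group (Units.map (Algebra.norm F : K →* F)).range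
    rw [Nat.card_units] at this
    have h1 : 0 < Nat.card F := Nat.card_pos
    omega
  · obtain ⟨g, hg⟩ := hS s (by
      rw [MonoidHom.mem_ker, ← Units.val_inj] at hs; exact hs)
    have k : ∀ v : K, e.symm (s * v) = ρ g (e.symm v) := fun v => by
      rw [LinearEquiv.symm_apply_eq, hg]; simp
    rw [hm, hm, k, k, k]
    exact phg hW g
  · have k : Ind2 F (e.symm (s * 1)) (e.symm (s * b)) :=
      ind_map (e.symm : K →ₗ[F] V) e.symm.injective (ind_map (LinearMap.mulLeft F (s : K))
        (mul_right_injective₀ s.ne_zero) ⟨one_ne_zero, hb⟩)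
    intro h
    have h1 := hW.rank _ _ k
    have h2 := hW.c_pos
    simp only [W', if_pos k] at h
    have h3 := congrArg (fun U : Submodule F K => finrank F U) h
    simp only [LinearEquiv.finrank_map_eq, finrank_top] at h3
    rw [e.finrank_eq] at h1
    omega

end Cfsg.Agent.Sg
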