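import Cfsg.Agent.Sg.Af

/-!
The stabiliser of a plane is flag-transitive.
-/

set_option autoImplicit false
open Module Submodule

namespace Cfsg.Agent.Sg

open Cfsg.Agent.H7

variable {F V V' G : Type*} [Field F] [AddCommGroup V] [Module F V]
  [AddCommGroup V'] [Module F V'] [Group G]
  {ρ : Representation F G V} {ρ' : Representation F G V'} {B : V →ₗ[F] V' →ₗ[F] F}

namespace Pt

open H8.T2tv

/-- transitive on hyperplanes implies transitive on points -/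
theorem pt_of_hyp [Finite F] [FiniteDimensional F V] {Y : Subgroup (V ≃ₗ[F] V)}
    (hn : 2 ≤ finrank F V)
    (ht : ∀ φ ψ : Dual F V, φ ≠ 0 → ψ ≠ 0 → ∃ g ∈ Y, ∃ b : F, ∀ z, ψ (g z) = b * φ z)
    {u u' : V} (hu : u ≠ 0) (hu' : u' ≠ 0) : ∃ g ∈ Y, ∃ a : F, g u = a • u' := by
  classical
  haveI : Finite V := Module.finite_of_finite F
  letI := Fintype.ofFinite V
  letI := Fintype.ofFinite F
  let S : V → Prop := fun w => ∃ g ∈ Y, ∃ b : F, b ≠ 0 ∧ g u = b • w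
  let S' : V → Prop := fun w => w ≠ 0
  have hSS : ∀ w, S w → S' w := by
    rintro w ⟨g, -, b, hb, e2⟩ rfl
    rw [smul_zero, g.map_eq_zero_iff] at e2
    exact hu e2
  have cst : ∀ R : V → Prop, (∀ w, R w → ∀ h ∈ Y, R (h w)) → ∀ φ ψ : Dual F V, φ ≠ 0 → ψ ≠ 0 →
      (Finset.univ.filter fun w => φ w = 0 ∧ R w).card ≤
        (Finset.univ.filter fun w => ψ w = 0 ∧ R w).card := by
    intro R hR φ ψ hφ hψ
    obtain ⟨h, hh, b, e⟩ := ht φ ψ hφ hψ
    refine Finset.card_le_card_of_injOn h ?_ (fun _ _ _ _ e => h.injective e)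
    intro w hw
    simp only [Finset.coe_filter, Finset.mem_univ, true_and, Set.mem_setOf_eq] at hw ⊢
    exact ⟨by rw [e, hw.1, mul_zero], hR w hw.2 h hh⟩
  have iS : ∀ w, S w → ∀ h ∈ Y, S (h w) := by
    rintro w ⟨g, hg, b, hb, e⟩ h hh
    exact ⟨h * g, Y.mul_mem hh hg, b, hb, by rw [LinearEquiv.mul_apply, e, map_smul]⟩
  have iS' : ∀ w, S' w → ∀ h ∈ Y, S' (h w) := fun w hw h _ => h.map_ne_zero_iff.2 hw
  obtain ⟨φ0, hφ0⟩ := exists_dual_one' (F := F) hu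
  have hφ0' : φ0 ≠ 0 := by rintro rfl; simp at hφ0
  set β := (Finset.univ.filter fun w => φ0 w = 0 ∧ S w).card with hβ
  set M := (Finset.univ.filter fun w => φ0 w = 0 ∧ S' w).card with hM
  have hMpos : 0 < M := by
    obtain ⟨x, h1, h2⟩ := Af.exists_ker hn φ0
    exact Finset.card_pos.2 ⟨x, by
      simp only [Finset.mem_filter, Finset.mem_univ, true_and, S']
      exact ⟨h2, h1⟩⟩
  let d : V → ℤ := fun w => (if S w then (M : ℤ) else 0) - (if S' w then (β : ℤ) else 0)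
  have hd : ∀ w, d w = 0 := by
    refine radon' (F := F) hn d ?_ ?_ ?_
    · have h1 : ¬ S' 0 := by simp [S']
      simp only [d, if_neg h1, if_neg (fun h => h1 (hSS _ h)), sub_zero]
    · intro c w hc
      have h1 : S' (c • w) ↔ S' w := by simp [S', hc]
      have h2 : S (c • w) ↔ S w := by
        constructor
        · rintro ⟨g, hg, b, hb, e⟩
          exact ⟨g, hg, b * c, mul_ne_zero hb hc, by rw [e, smul_smul]⟩
        · rintro ⟨g, hg, b, hb, e⟩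
          exact ⟨g, hg, b * c⁻¹, mul_ne_zero hb (inv_ne_zero hc), by rw [e, smul_smul]; simp [hc]⟩
      simp only [d, h1, h2]
    · intro φ hφ
      simp only [d]
      rw [Finset.sum_sub_distrib, ← Finset.sum_filter, ← Finset.sum_filter, Finset.filter_filter,
        Finset.filter_filter, Finset.sum_const, Finset.sum_const]
      have a1 : (Finset.univ.filter fun w => φ w = 0 ∧ S w).card = β := by
        convert le_antisymm (cst S iS φ φ0 hφ hφ0') (cst S iS φ0 φ hφ0' hφ)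
      have a2 : (Finset.univ.filter fun w => φ w = 0 ∧ S' w).card = M := by
        convert le_antisymm (cst S' iS' φ φ0 hφ hφ0') (cst S' iS' φ0 φ hφ0' hφ)
      rw [a1, a2]
      simp [mul_comm]
  have h1 := hd u
  have hSu : S u := ⟨1, Y.one_mem, 1, one_ne_zero, by simp⟩
  simp only [d, if_pos hSu, if_pos (hSS _ hSu)] at h1
  have h2 := hd u'
  have hS' : S' u' := hu'
  simp only [d, if_pos hS'] at h2
  by_cases hS : S u'
  · obtain ⟨g, hg, b, -, e⟩ := hS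
    exact ⟨g, hg, b, e⟩
  · rw [if_neg hS] at h2
    omega

theorem span3 [FiniteDimensional F V] {π : Submodule F V} (h3 : finrank F π = 3) {x u v : V}
    (hxp : x ∈ π) (hup : u ∈ π) (hvp : v ∈ π) (hx : x ≠ 0) (hu : u ∉ F ∙ x)
    (hv : v ∉ (F ∙ x) ⊔ (F ∙ u)) {z : V} (hz : z ∈ π) :
    ∃ a b c : F, z = a • x + b • u + c • v := by
  have h1 : (F ∙ x) < (F ∙ x) ⊔ (F ∙ u) := lt_of_le_of_ne le_sup_left
    (fun e => hu (e ▸ mem_sup_right (mem_span_singleton_self u)))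
  have h2 : (F ∙ x) ⊔ (F ∙ u) < (F ∙ x) ⊔ (F ∙ u) ⊔ (F ∙ v) := lt_of_le_of_ne le_sup_left
    (fun e => hv (e ▸ mem_sup_right (mem_span_singleton_self v)))
  have h4 := finrank_lt_finrank_of_lt h1
  have h5 := finrank_lt_finrank_of_lt h2
  rw [finrank_span_singleton hx] at h4
  have : (F ∙ x) ⊔ (F ∙ u) ⊔ (F ∙ v) = π := eq_of_le_of_finrank_le
    (sup_le (sup_le ((span_singleton_le_iff_mem _ _).2 hxp) ((span_singleton_le_iff_mem _ _).2 hup))
      ((span_singleton_le_iff_mem _ _).2 hvp)) (by omega)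
  rw [← this] at hz
  obtain ⟨w, hw, c, rfl⟩ := mem_sup_span_singleton.1 hz
  obtain ⟨w', hw', b, rfl⟩ := mem_sup_span_singleton.1 hw
  obtain ⟨a, rfl⟩ := mem_span_singleton.1 hw'
  exact ⟨a, b, c, rfl⟩

variable {X : Subgroup (V ≃ₗ[F] V)}

/-- moving a line through `x` to another one inside a plane -/
theorem move [Finite F] [FiniteDimensional F V] (ht : H8.T2tv.T2 X) (hn : 4 ≤ finrank F V)
    {π : Submodule F V} (h3 : finrank F π = 3) {x v w : V} (hxp : x ∈ π) (hvp : v ∈ π)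
    (hwp : w ∈ π) (hx : x ≠ 0) (hv : v ∉ F ∙ x) (hw : w ∉ (F ∙ x) ⊔ (F ∙ v)) :
    ∃ g ∈ X, g ∈ stab π ∧ ∃ a b d s t : F, g x = d • x ∧ g (v + w) = a • (v + w) + s • x ∧
      g v = b • w + t • x ∧ ∀ z ∈ π, ∃ a b c : F, z = a • x + b • (v + w) + c • v := by
  have m2 : v ∈ (F ∙ x) ⊔ (F ∙ v) := mem_sup_right (mem_span_singleton_self v)
  have hu : v + w ∉ F ∙ x := fun hm => hw (by
    simpa using sub_mem (mem_sup_left hm : v + w ∈ (F ∙ x) ⊔ (F ∙ v)) m2)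
  have hv' : v ∉ (F ∙ x) ⊔ (F ∙ (v + w)) := notMem_sup_span_swap hv fun hm => hw (by
    simpa using sub_mem hm m2)
  obtain ⟨g, hg, a, b, d, s, t, e0, e1, e2⟩ := ht.plane hn hx hu hv' (-1)
  have e2' : g v = (-b) • w + t • x := by rw [e2]; simp
  have sp := fun z hz => span3 h3 hxp (add_mem hvp hwp) hvp hx hu hv' (z := z) hz
  refine ⟨g, hg, mem_stab_of_forall fun z hz => ?_, a, -b, d, s, t, e0, e1, e2', sp⟩
  obtain ⟨a', b', c', rfl⟩ := sp z hz
  rw [map_add, map_add, map_smul, map_smul, map_smul, e0, e1, e2']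
  exact add_mem (add_mem (smul_mem _ _ (smul_mem _ _ hxp)) (smul_mem _ _ (add_mem
    (smul_mem _ _ (add_mem hvp hwp)) (smul_mem _ _ hxp))))
    (smul_mem _ _ (add_mem (smul_mem _ _ hwp) (smul_mem _ _ hxp)))

/-- the group induced on a subspace -/
def rgrp (X : Subgroup (V ≃ₗ[F] V)) (π : Submodule F V) : Subgroup (π ≃ₗ[F] π) where
  carrier := {h | ∃ g ∈ X, ∀ v : π, (h v : V) = g v}
  one_mem' := ⟨1, X.one_mem, fun _ => rfl⟩
  mul_mem' := by
    rintro a b ⟨g, hg, e⟩ ⟨k, hk, e'⟩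
    exact ⟨g * k, X.mul_mem hg hk, fun v => by
      rw [LinearEquiv.mul_apply, LinearEquiv.mul_apply, e, e']⟩
  inv_mem' := by
    rintro a ⟨g, hg, e⟩
    refine ⟨g⁻¹, X.inv_mem hg, fun v => g.injective ?_⟩
    rw [← e]; simp

theorem plane_pt [Finite F] [FiniteDimensional F V] (ht : H8.T2tv.T2 X) (hn : 4 ≤ finrank F V)
    {π : Submodule F V} (h3 : finrank F π = 3) {x x' : V} (hxp : x ∈ π) (hxp' : x' ∈ π)
    (hx : x ≠ 0) (hx' : x' ≠ 0) : ∃ g ∈ X, g ∈ stab π ∧ ∃ a : F, g x = a • x' := by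
  obtain ⟨h, ⟨g, hg, e⟩, a, e1⟩ := pt_of_hyp (Y := rgrp X π) (by omega) (fun φ ψ hφ hψ => by
    by_cases hk : ∀ z, φ z = 0 → ψ z = 0
    · obtain ⟨c, hc⟩ := eq_smul_of_ker hφ hk
      exact ⟨1, one_mem _, c, fun z => by rw [hc]; simp⟩
    push Not at hk
    obtain ⟨v, hv1, hv2⟩ := hk
    obtain ⟨w, hw1, hw2⟩ : ∃ w, ψ w = 0 ∧ φ w ≠ 0 := by
      by_contra hc
      push Not at hc
      obtain ⟨c, rfl⟩ := eq_smul_of_ker hψ hc
      have : c = 0 := by simpa [hv2] using hv1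
      exact hφ (by simp [this])
    have h1 := finrank_inf_ker_ge (⊤ : Submodule F π) φ
    have h2 := finrank_inf_ker_ge ((⊤ : Submodule F π) ⊓ LinearMap.ker φ) ψ
    rw [finrank_top] at h1
    obtain ⟨⟨y, ⟨hy3, hy1⟩, hy2⟩, hy⟩ := finrank_pos_iff_exists_ne_zero.1
      (show 0 < finrank F ↥((⊤ : Submodule F π) ⊓ LinearMap.ker φ ⊓ LinearMap.ker ψ) by omega)
    have hy0 : (y : V) ≠ 0 := fun e => hy (Subtype.ext (Subtype.ext e))
    replace hy1 : φ y = 0 := hy1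
    replace hy2 : ψ y = 0 := hy2
    obtain ⟨g, hg, hs, a, b, d, s, t, e0, e1, e2, sp⟩ := move ht hn h3 y.2 v.2 w.2 hy0
      (fun hm => by
        obtain ⟨c, hc⟩ := mem_span_singleton.1 hm
        have : v = c • y := Subtype.ext hc.symm
        exact hv2 (by rw [this, map_smul, hy2, smul_zero]))
      (fun hm => by
        obtain ⟨_, hu, c, hc⟩ := mem_sup_span_singleton.1 hm
        obtain ⟨c', rfl⟩ := mem_span_singleton.1 hu
        have : w = c' • y + c • v := Subtype.ext hc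
        exact hw2 (by rw [this]; simp [hy1, hv1]))
    let h := LinearEquiv.ofSubmodules g π π (mem_stab_iff_map.1 hs)
    have hh : ∀ z : π, (h z : V) = g z := fun _ => rfl
    have f0 : h y = d • y := Subtype.ext e0
    have f1 : h (v + w) = a • (v + w) + s • y := Subtype.ext e1
    have f2 : h v = b • w + t • y := Subtype.ext e2
    refine ⟨h, ⟨g, hg, hh⟩, a * ψ v * (φ w)⁻¹, fun z => ?_⟩
    obtain ⟨a', b', c', hz⟩ := sp z z.2
    have hz' : z = a' • y + b' • (v + w) + c' • v := Subtype.ext hz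
    rw [hz', map_add h, map_add h, map_smul h, map_smul h, map_smul h, f0, f1, f2]
    simp [hy1, hy2, hv1, hw1]
    field_simp)
    (u := ⟨x, hxp⟩) (u' := ⟨x', hxp'⟩) (fun e => hx (congrArg Subtype.val e))
    (fun e => hx' (congrArg Subtype.val e))
  refine ⟨g, hg, mem_stab_of_forall fun z hz => ?_, a, ?_⟩
  · rw [← e ⟨z, hz⟩]; exact (h _).2
  · rw [← e ⟨x, hxp⟩, e1]; rfl

omit [AddCommGroup V'] [Module F V'] in
theorem span_pair (x y : V) : span F {x, y} = (F ∙ x) ⊔ (F ∙ y) := by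
  rw [span_insert]

theorem t2_of_f3 (h : Ctx ρ ρ' B) (h3 : F3 ρ ρ' B) : T2 ρ := by
  intro x y x' y' hi hi'
  have ex : ∀ x y : V, Ind2 F x y → ∃ ξ, B x ξ = 1 ∧ B y ξ = 0 := by
    intro x y hi
    obtain ⟨φ, h1, h2⟩ := exists_dual_one (indep_swap hi.1 hi.2).2
    obtain ⟨ξ, e⟩ := Af.exists_of_dual h φ
    exact ⟨ξ, by rw [e, h1], by rw [e, h2 _ (mem_span_singleton_self _)]⟩
  obtain ⟨ξ, a1, a2⟩ := ex x y hi
  obtain ⟨ξ', b1, b2⟩ := ex x' y' hi'
  obtain ⟨g, e1, -, e2⟩ := h3 x ξ y x' ξ' y' a1 a2 (indep_swap hi.1 hi.2).1 b1 b2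
    (indep_swap hi'.1 hi'.2).1
  exact ⟨g, e1, e2⟩

end Pt

variable [Fintype F] [Module.Finite F V]

theorem pt (h : Ctx ρ ρ' B) (h3 : F3 ρ ρ' B) (hn : 4 ≤ finrank F V) : PT ρ := by
  intro π hπ x hx y hy x' hx' y' hy' hi hi'
  have ht := Af.t2 (Pt.t2_of_f3 h h3)
  obtain ⟨g1, hg1, s1, a, e1⟩ := Pt.plane_pt ht hn hπ hx hx' hi.1 hi'.1
  have ha := H8.T2tv.ne_zero_of_eq_smul hi.1 e1
  have hy1 : g1 y ∉ F ∙ x' := by
    rw [← span_singleton_smul_eq (Ne.isUnit ha), ← e1]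
    exact ((H8.T2tv.indep_map g1).2 hi).2
  obtain ⟨g, hg, hs, d, e2, e3⟩ : ∃ g ∈ Af.XX ρ, g ∈ stab π ∧ ∃ d : F, g x = d • x' ∧
      g y ∈ (F ∙ x') ⊔ (F ∙ y') := by
    by_cases hc : y' ∈ (F ∙ x') ⊔ (F ∙ g1 y)
    · refine ⟨g1, hg1, s1, a, e1, ?_⟩
      by_contra hc'
      exact notMem_sup_span_swap hi'.2 hc' hc
    · obtain ⟨g2, hg2, s2, a', b, d, s, t, f0, -, f2, -⟩ :=
        Pt.move ht hn hπ hx' ((s1 y).1 hy) hy' hi'.1 hy1 hc
      refine ⟨g2 * g1, mul_mem hg2 hg1, mul_mem s2 s1, a * d, ?_, ?_⟩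
      · rw [LinearEquiv.mul_apply, e1, map_smul, f0, smul_smul]
      · rw [LinearEquiv.mul_apply, f2]
        exact add_mem (mem_sup_right (smul_mem _ _ (mem_span_singleton_self _)))
          (mem_sup_left (smul_mem _ _ (mem_span_singleton_self _)))
  have hd := H8.T2tv.ne_zero_of_eq_smul hi.1 e2
  obtain ⟨g, rfl⟩ := hg
  obtain ⟨s, hs'⟩ := h.sc d⁻¹ (inv_ne_zero hd)
  have hst : Af.eqv ρ (s * g) ∈ stab π := by
    rw [map_mul]
    refine mul_mem (mem_stab_of_forall fun v hv => ?_) hs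
    rw [Af.eqv_apply, hs']; exact smul_mem _ _ hv
  refine ⟨s * g, mem_stab_iff_map.1 hst, ?_, ?_⟩
  · rw [map_mul, Module.End.mul_apply, hs', ← Af.eqv_apply, e2, smul_smul,
      inv_mul_cancel₀ hd, one_smul]
  · rw [map_mul, Module.End.mul_apply, hs', Pt.span_pair]
    exact smul_mem _ _ e3

end Cfsg.Agent.Sg
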