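import Cfsg.Agent.Sg.Defs

set_option autoImplicit false
open Module Submodule

namespace Cfsg.Agent.Sg.Sp

variable {F V V' G : Type*} [Field F] [Fintype F] [AddCommGroup V] [Module F V] [Module.Finite F V]
  [AddCommGroup V'] [Module F V'] [Module.Finite F V'] [Group G] [Finite G]
  {ρ : Representation F G V} {ρ' : Representation F G V'} {B : V →ₗ[F] V' →ₗ[F] F}

omit [Fintype F] [Module.Finite F V] [Finite G] in
theorem rm (ρ : Representation F G V) (g h : G) (v : V) : ρ (g * h) v = ρ g (ρ h v) := by simp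

omit [Fintype F] [Module.Finite F V] [Finite G] in
theorem rinj (ρ : Representation F G V) (g : G) {v : V} (h : ρ g v = 0) : v = 0 := by
  have := congrArg (ρ g⁻¹) h
  simpa using this

omit [Fintype F] [Module.Finite F V] [Finite G] in
theorem ind_map (g : G) {x y : V} (h : Ind2 F x y) : Ind2 F (ρ g x) (ρ g y) := by
  refine ⟨fun h0 => h.1 (rinj ρ g h0), fun h1 => h.2 ?_⟩
  obtain ⟨a, ha⟩ := mem_span_singleton.1 h1
  refine mem_span_singleton.2 ⟨a, ?_⟩
  have := congrArg (ρ g⁻¹) ha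
  simpa using this

omit [Fintype F] [Module.Finite F V] in
theorem ind_symm {x y : V} (h : Ind2 F x y) : Ind2 F y x := by
  refine ⟨fun h0 => h.2 (h0 ▸ zero_mem _), fun h1 => ?_⟩
  obtain ⟨a, ha⟩ := mem_span_singleton.1 h1
  have ha0 : a ≠ 0 := by rintro rfl; exact h.1 (by simpa using ha.symm)
  exact h.2 (mem_span_singleton.2 ⟨a⁻¹, by rw [← ha, smul_smul, inv_mul_cancel₀ ha0, one_smul]⟩)

omit [Fintype F] [Module.Finite F V] in
theorem ind_eq {x y : V} (h : Ind2 F x y) {a b : F} (e : a • x + b • y = 0) : a = 0 ∧ b = 0 := by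
  have hb : b = 0 := by
    by_contra hb
    refine h.2 (mem_span_singleton.2 ⟨-(b⁻¹ * a), ?_⟩)
    have : b • y = -(a • x) := eq_neg_of_add_eq_zero_right e
    rw [neg_smul, mul_smul, ← smul_neg, ← this, smul_smul, inv_mul_cancel₀ hb, one_smul]
  subst hb
  exact ⟨by simpa [h.1] using e, rfl⟩

theorem inv_of (S : Submonoid G) {g : G} (h : g ∈ S) : g⁻¹ ∈ S := by
  have h1 : g⁻¹ = g ^ (orderOf g - 1) := by
    rw [eq_comm, ← mul_eq_one_iff_eq_inv, ← pow_succ, Nat.sub_add_cancel (orderOf_pos g), pow_orderOf_eq_one]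
  rw [h1]; exact S.pow_mem h _

/-- the monoid version -/
def NM (ρ : Representation F G V) (Bl C : Submodule F V) (z : G) : Submonoid G where
  carrier := {g | (∀ v ∈ Bl, ρ g v ∈ Bl) ∧ (∀ v ∈ C, ρ g v ∈ C) ∧ g * z * g⁻¹ ∈ Subgroup.zpowers z}
  one_mem' := ⟨by simp, by simp, by simp⟩
  mul_mem' := by
    rintro g h ⟨a1, a2, a3⟩ ⟨b1, b2, i, b3⟩
    refine ⟨fun v hv => by rw [rm]; exact a1 _ (b1 v hv), fun v hv => by rw [rm]; exact a2 _ (b2 v hv), ?_⟩
    have : g * h * z * (g * h)⁻¹ = (g * z * g⁻¹) ^ i := by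
      rw [conj_zpow]; simp only at b3; rw [b3]; group
    rw [this]; exact Subgroup.zpow_mem _ a3 _

/-- the normaliser of the data -/
def NN (ρ : Representation F G V) (Bl C : Submodule F V) (z : G) : Subgroup G :=
  { NM ρ Bl C z with inv_mem' := fun h => inv_of (NM ρ Bl C z) h }

theorem comm_z {Bl C : Submodule F V} {z g h : G} (hg : g ∈ NN ρ Bl C z) (hh : h ∈ NN ρ Bl C z) :
    ((h * g)⁻¹ * (g * h)) * z = z * ((h * g)⁻¹ * (g * h)) := by
  obtain ⟨i, hi⟩ := hg.2.2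
  obtain ⟨j, hj⟩ := hh.2.2
  simp only at hi hj
  have e1 : g * h * z * (g * h)⁻¹ = (z ^ i) ^ j := by
    rw [hi, conj_zpow, hj]; group
  have e2 : h * g * z * (h * g)⁻¹ = (z ^ j) ^ i := by
    rw [hj, conj_zpow, hi]; group
  have e3 : g * h * z * (g * h)⁻¹ = h * g * z * (h * g)⁻¹ := by
    rw [e1, e2, ← zpow_mul, ← zpow_mul, mul_comm]
  calc _ = (h * g)⁻¹ * (g * h * z * (g * h)⁻¹) * (g * h) := by group
    _ = _ := by rw [e3]; group

/-- the context -/
structure Cx (ρ : Representation F G V) (ρ' : Representation F G V') (B : V →ₗ[F] V' →ₗ[F] F) (c : ℕ)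
    (W : V → V → Submodule F V) (x y : V) (C : Submodule F V) (z : G) (r : ℕ) : Prop where
  h : Ctx ρ ρ' B
  hi : Function.Injective ρ
  h2 : T2 ρ
  h3 : F3 ρ ρ' B
  hW : WS ρ c W
  hs : Spread F W
  hc : 3 ≤ c
  hxy : Ind2 F x y
  hz : FRD ρ (W x y) C z r
  ncc : ¬ CC ρ

variable {c : ℕ} {W : V → V → Submodule F V} {x y : V} {C : Submodule F V} {z : G} {r : ℕ}

namespace Cx
variable (H : Cx ρ ρ' B c W x y C z r)
include H

theorem xm : x ∈ W x y := H.hW.left _ _ H.hxy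
theorem ym : y ∈ W x y := H.hW.right _ _ H.hxy

theorem keepB {u v : V} (h : Ind2 F u v) (hu : u ∈ W x y) (hv : v ∈ W x y) {g : G} (gu : ρ g u ∈ W x y)
    (gv : ρ g v ∈ W x y) : ∀ w ∈ W x y, ρ g w ∈ W x y := fun w hw => by
  have e1 := H.hs _ _ _ _ H.hxy h hu hv
  have e2 := H.hs _ _ _ _ H.hxy (ind_map (ρ := ρ) g h) gu gv
  rw [← e2, H.hW.equi g _ _ h, e1]
  exact mem_map_of_mem hw

theorem toN {g : G} (hg : ∀ w ∈ W x y, ρ g w ∈ W x y) :
    ∃ n ∈ NN ρ (W x y) C z, ∀ w ∈ W x y, ρ n w = ρ g w := by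
  obtain ⟨n, h1, h2, h3⟩ := H.hz.frat g hg
  exact ⟨n, ⟨fun v hv => by rw [h1 v hv]; exact hg v hv, h2, h3⟩, h1⟩

theorem eq_one {g : G} (h : ∀ v, ρ g v = v) : g = 1 := H.hi (by ext v; simp [h])

theorem cc1 {g : G} {b : V} (h : ∀ v, ρ g v - v ∈ span F {b}) : g = 1 := by
  by_cases hb : b = 0
  · exact H.eq_one fun v => by simpa [hb, sub_eq_zero] using h v
  let f : V →ₗ[F] F := (LinearEquiv.toSpanNonzeroSingleton F V b hb).symm.toLinearMap ∘ₗ
    ((ρ g - LinearMap.id).codRestrict (span F {b}) h)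
  have hf : ∀ v, f v • b = ρ g v - v := fun v => by
    have := (LinearEquiv.toSpanNonzeroSingleton F V b hb).apply_symm_apply ⟨ρ g v - v, h v⟩
    exact congrArg Subtype.val this
  by_cases h0 : f = 0
  · exact H.eq_one fun v => by
      have := hf v
      rw [h0] at this
      simpa [sub_eq_zero] using this.symm
  · exact absurd ⟨g, 1, b, f, hb, h0, fun v => by rw [hf]; simp⟩ H.ncc

theorem dec (v : V) : ∃ u ∈ W x y, ∃ m ∈ C, u + m = v :=
  mem_sup.1 (H.hz.compl.sup_eq_top ▸ mem_top)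

theorem disj {v : V} (h1 : v ∈ W x y) (h2 : v ∈ C) : v = 0 :=
  (mem_bot F).1 (H.hz.compl.inf_eq_bot ▸ mem_inf.2 ⟨h1, h2⟩)

theorem rkC : finrank F C = c := by
  have h1 := finrank_add_eq_of_isCompl H.hz.compl
  have h2 := H.hW.rank _ _ H.hxy
  omega

theorem exC : ∃ m ∈ C, m ≠ 0 := by
  apply (Submodule.ne_bot_iff _).1
  rintro rfl
  have := H.rkC; have := H.hc
  simp at *; omega

theorem indC {b m : V} (hb : b ∈ W x y) (b0 : b ≠ 0) (hm : m ∈ C) (m0 : m ≠ 0) : Ind2 F b m :=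
  ⟨b0, fun h => m0 (H.disj ((span_singleton_le_iff_mem _ _).2 hb h) hm)⟩

theorem inter {b m w : V} (hb : b ∈ W x y) (b0 : b ≠ 0) (hm : m ∈ C) (m0 : m ≠ 0) (h1 : w ∈ W b m)
    (h2 : w ∈ W x y) : w ∈ span F {b} := by
  by_contra hw
  have := H.hW.swap _ _ _ (H.indC hb b0 hm m0) ⟨b0, hw⟩ h1
  rw [H.hs _ _ _ _ H.hxy ⟨b0, hw⟩ hb h2] at this
  exact m0 (H.disj this hm)

theorem partner {b : V} (b0 : b ≠ 0) : ∃ u ∈ W x y, Ind2 F b u := by
  by_contra hc
  push Not at hc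
  have h1 : x ∈ span F {b} := by by_contra h; exact hc x H.xm ⟨b0, h⟩
  have h2 : y ∈ span F {b} := by by_contra h; exact hc y H.ym ⟨b0, h⟩
  obtain ⟨a, ha⟩ := mem_span_singleton.1 h1
  have a0 : a ≠ 0 := by rintro rfl; exact H.hxy.1 (by simpa using ha.symm)
  obtain ⟨d, hd⟩ := mem_span_singleton.1 h2
  exact H.hxy.2 (mem_span_singleton.2 ⟨d * a⁻¹, by rw [← ha, ← hd, smul_smul, mul_assoc, inv_mul_cancel₀ a0, mul_one]⟩)

theorem t2N {b u b' u' : V} (h : Ind2 F b u) (h' : Ind2 F b' u') (hb : b ∈ W x y) (hu : u ∈ W x y)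
    (hb' : b' ∈ W x y) (hu' : u' ∈ W x y) : ∃ n ∈ NN ρ (W x y) C z, ρ n b = b' ∧ ρ n u ∈ span F {u'} := by
  obtain ⟨g, h1, h2⟩ := H.h2 _ _ _ _ h h'
  obtain ⟨n, hn, e⟩ := H.toN (H.keepB h hb hu (g := g) (h1 ▸ hb') ((span_singleton_le_iff_mem _ _).2 hu' h2))
  exact ⟨n, hn, by rw [e b hb, h1], by rw [e u hu]; exact h2⟩

theorem span2 (hk : finrank F (W x y) = 2) {b u w : V} (h : Ind2 F b u) (hb : b ∈ W x y) (hu : u ∈ W x y)
    (hw : w ∈ W x y) : ∃ α β : F, α • b + β • u = w := by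
  have h1 : span F {b, u} ≤ W x y := span_le.2 (by rintro _ (rfl | rfl) <;> assumption)
  have h2 : finrank F (span F ({b, u} : Set V)) = 2 := by
    have li : LinearIndependent F ![b, u] := LinearIndependent.pair_iff.2 fun s t e => ind_eq h e
    have := finrank_span_eq_card li
    rw [show Set.range ![b, u] = {b, u} by ext; simp [or_comm]] at this
    simpa using this
  rw [← eq_of_le_of_finrank_eq h1 (h2.trans hk.symm)] at hw
  exact mem_span_pair.1 hw

theorem out3 (hk : finrank F (W x y) ≠ 2) {u v : V} (h : Ind2 F u v) (a b : V) : ∃ w ∈ W u v, w ∉ span F {a, b} := by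
  by_contra hc
  push Not at hc
  have h1 : finrank F (W u v) ≤ finrank F (span F ({a, b} : Set V)) := finrank_mono hc
  have h2 : finrank F (span F ({a, b} : Set V)) ≤ 2 := by
    have := finrank_range_le_card (R := F) ![a, b]
    rw [show Set.range ![a, b] = {a, b} by ext; simp [or_comm]] at this
    simpa [Set.finrank] using this
  have h3 : finrank F (W u v) = finrank F (W x y) := by
    have := H.hW.rank _ _ h; have := H.hW.rank _ _ H.hxy; omega
  have h4 : span F {x, y} ≤ W x y := span_le.2 (by rintro _ (rfl | rfl); exacts [H.xm, H.ym])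
  have h5 : finrank F (span F ({x, y} : Set V)) = 2 := by
    have li : LinearIndependent F ![x, y] := LinearIndependent.pair_iff.2 fun s t e => ind_eq H.hxy e
    have := finrank_span_eq_card li
    rw [show Set.range ![x, y] = {x, y} by ext; simp [or_comm]] at this
    simpa using this
  have h6 := finrank_mono h4
  omega

theorem one_of {g : G} (h1 : ∀ u ∈ W x y, ρ g u = u) (h2 : ∀ m ∈ C, ρ g m = m) : g = 1 :=
  H.eq_one fun v => by
    obtain ⟨u, hu, m, hm, rfl⟩ := H.dec v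
    rw [map_add, h1 u hu, h2 m hm]

/-- an element trivial on `C` and fixing a vector of the block is trivial -/
theorem faith {g : G} {b : V} (hb : b ∈ W x y) (b0 : b ≠ 0) (hg : ∀ w ∈ W x y, ρ g w ∈ W x y)
    (gb : ρ g b = b) (gC : ∀ m ∈ C, ρ g m = m) : g = 1 := by
  have red : ∀ d : V, (∀ u ∈ W x y, ρ g u - u ∈ span F {d}) → g = 1 := fun d hd => H.cc1 (b := d) fun v => by
    obtain ⟨u, hu, m, hm, rfl⟩ := H.dec v
    rw [map_add, gC m hm, add_sub_add_right_eq_sub]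
    exact hd u hu
  by_cases hk : finrank F (W x y) = 2
  · obtain ⟨u, hu, hi⟩ := H.partner b0
    refine red (ρ g u - u) fun w hw => ?_
    obtain ⟨α, β, rfl⟩ := H.span2 hk hi hb hu hw
    refine mem_span_singleton.2 ⟨β, ?_⟩
    rw [map_add, map_smul, map_smul, gb, smul_sub]; abel
  by_cases h1 : ∃ m ∈ C, m ≠ 0 ∧ ∃ u ∈ W x y, u ∉ span F {b} ∧ ∃ m' ∈ C, u + m' ∈ W b m
  · obtain ⟨m, hm, m0, u, hu, ub, m', hm', h1⟩ := h1
    refine red b fun w hw => ?_
    by_cases hwb : w ∈ span F {b}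
    · obtain ⟨a, rfl⟩ := mem_span_singleton.1 hwb
      simp [gb]
    obtain ⟨n, hn, nb, nu⟩ := H.t2N ⟨b0, ub⟩ ⟨b0, hwb⟩ hb hu hb hw
    obtain ⟨a, ha⟩ := mem_span_singleton.1 nu
    have a0 : a ≠ 0 := by
      rintro rfl
      exact ub (by rw [rinj ρ n (v := u) (by simpa using ha.symm)]; exact zero_mem _)
    have nm0 : ρ n m ≠ 0 := fun h => m0 (rinj ρ n h)
    have h2 : ρ n (u + m') ∈ W b (ρ n m) := by
      have := H.hW.equi n _ _ (H.indC hb b0 hm m0)
      rw [nb] at this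
      rw [this]; exact mem_map_of_mem h1
    have h3 : ρ g (ρ n (u + m')) ∈ W b (ρ n m) := by
      have := H.hW.equi g _ _ (H.indC hb b0 (hn.2.1 m hm) nm0)
      rw [gb, gC _ (hn.2.1 m hm)] at this
      rw [this]; exact mem_map_of_mem h2
    have h4 : ρ g (ρ n (u + m')) - ρ n (u + m') = a • (ρ g w - w) := by
      rw [map_add, map_add, gC _ (hn.2.1 m' hm'), ← ha, map_smul, smul_sub]; abel
    have h5 := sub_mem h3 h2
    rw [h4] at h5
    have h6 := H.inter hb b0 (hn.2.1 m hm) nm0 h5 (smul_mem _ _ (sub_mem (hg w hw) hw))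
    have := smul_mem _ a⁻¹ h6
    rwa [smul_smul, inv_mul_cancel₀ a0, one_smul] at this
  · push Not at h1
    have eig : ∀ b' ∈ W x y, ρ g b' ∈ span F {b'} := fun b' hb' => by
      by_cases b0' : b' = 0
      · simp [b0']
      obtain ⟨m, hm, m0⟩ := H.exC
      have i1 := H.indC hb' b0' hm m0
      obtain ⟨w, hw, wn⟩ := H.out3 hk i1 b' m
      obtain ⟨u, hu, m', hm', rfl⟩ := H.dec w
      have hu' : u ∈ span F {b'} := by
        by_contra hn
        obtain ⟨v, hv, iv⟩ := H.partner b0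
        obtain ⟨n, hn', nb, -⟩ := H.t2N ⟨b0', hn⟩ iv hb' hu hb hv
        have i2 := ind_map (ρ := ρ) n (x := b') (y := u) ⟨b0', hn⟩
        rw [nb] at i2
        refine h1 (ρ n m) (hn'.2.1 m hm) (fun h => m0 (rinj ρ n h)) (ρ n u) (hn'.1 u hu) i2.2 (ρ n m')
          (hn'.2.1 m' hm') ?_
        have := H.hW.equi n _ _ i1
        rw [nb] at this
        rw [this, ← map_add]; exact mem_map_of_mem hw
      have hb1 := H.hW.left _ _ i1
      have hm1 : m' ∈ W b' m := by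
        have := sub_mem hw ((span_singleton_le_iff_mem _ _).2 hb1 hu')
        simpa using this
      have i3 : Ind2 F m m' := ⟨m0, fun h => wn (add_mem (span_mono (by simp) hu') (span_mono (by simp) h))⟩
      have e1 := H.hs _ _ _ _ i1 i3 (H.hW.right _ _ i1) hm1
      have e2 := H.hW.equi g _ _ i3
      rw [gC m hm, gC m' hm', e1] at e2
      exact H.inter hb' b0' hm m0 (by rw [e2]; exact mem_map_of_mem hb1) (hg b' hb')
    refine H.one_of (fun u hu => ?_) gC
    by_cases hub : u ∈ span F {b}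
    · obtain ⟨a, rfl⟩ := mem_span_singleton.1 hub
      simp [gb]
    obtain ⟨l, hl⟩ := mem_span_singleton.1 (eig u hu)
    obtain ⟨μ, hμ⟩ := mem_span_singleton.1 (eig _ (add_mem hb hu))
    rw [map_add, gb, ← hl] at hμ
    have := ind_eq (F := F) ⟨b0, hub⟩ (a := μ - 1) (b := μ - l) (by
      rw [sub_smul, sub_smul, one_smul, ← sub_eq_zero.2 hμ, smul_add]; abel)
    rw [← hl, ← sub_eq_zero.1 this.2, sub_eq_zero.1 this.1, one_smul]

theorem fixC {g : G} (hc : g * z = z * g) {a : F} {v : V} (hv : v ∈ C) (v0 : v ≠ 0) (e : ρ g v = a • v) :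
    ∀ m ∈ C, ρ g m = a • m := by
  rcases H.hz.irr (C ⊓ LinearMap.ker (ρ g - a • LinearMap.id)) inf_le_left (fun w hw => ⟨H.hz.inv w hw.1, by
      have : ρ g w = a • w := by simpa [sub_eq_zero] using hw.2
      simp only [SetLike.mem_coe, LinearMap.mem_ker, LinearMap.sub_apply, LinearMap.smul_apply, LinearMap.id_apply]
      rw [← rm, hc, rm, this, map_smul, sub_self]⟩) with h | h
  · exact absurd ((mem_bot F).1 (h ▸ mem_inf.2 ⟨hv, by simp [e]⟩)) v0
  · intro m hm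
    have := (h.symm ▸ hm : m ∈ C ⊓ LinearMap.ker (ρ g - a • LinearMap.id)).2
    simpa [sub_eq_zero] using this

end Cx

end Cfsg.Agent.Sg.Sp
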