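import Cfsg.Agent.Sg.Sp0

set_option autoImplicit false
open Module Submodule

namespace Cfsg.Agent.Sg.Sp

variable {F V V' G : Type*} [Field F] [Fintype F] [AddCommGroup V] [Module F V] [Module.Finite F V]
  [AddCommGroup V'] [Module F V'] [Module.Finite F V'] [Group G] [Finite G]
  {ρ : Representation F G V} {ρ' : Representation F G V'} {B : V →ₗ[F] V' →ₗ[F] F}

omit [Fintype F] [Module.Finite F V] in
theorem nil_fix (ν : Module.End F V) (C : Submodule F V) (hC : ∀ v ∈ C, ν v ∈ C) :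
    ∀ (k : ℕ) (v : V), v ∈ C → v ≠ 0 → (ν ^ k) v = 0 → ∃ w ∈ C, w ≠ 0 ∧ ν w = 0
  | 0, v, _, v0, h => absurd (by simpa using h) v0
  | k + 1, v, hv, v0, h => by
    by_cases h1 : ν v = 0
    · exact ⟨v, hv, v0, h1⟩
    · exact nil_fix ν C hC k (ν v) (hC v hv) h1 (by rwa [pow_succ, Module.End.mul_apply] at h)

omit [Fintype F] [Module.Finite F V] in
theorem sub_one_pow (p : ℕ) [Fact p.Prime] [CharP F p] (t : Module.End F V) : (t - 1) ^ p = t ^ p - 1 := by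
  have : (Polynomial.X - 1 : Polynomial F) ^ p = Polynomial.X ^ p - 1 := by rw [sub_pow_char, one_pow]
  simpa using congrArg (Polynomial.aeval t) this

/-- stabiliser of a vector -/
def St (ρ : Representation F G V) (b : V) : Subgroup G where
  carrier := {g | ρ g b = b}
  one_mem' := by simp
  mul_mem' := fun {g h} (a1 : ρ g b = b) (a2 : ρ h b = b) => show ρ (g * h) b = b by rw [rm, a2, a1]
  inv_mem' := fun {g} (a : ρ g b = b) => show ρ g⁻¹ b = b by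
    have := congrArg (ρ g⁻¹) a
    simpa using this.symm

variable {c : ℕ} {W : V → V → Submodule F V} {x y : V} {C : Submodule F V} {z : G} {r : ℕ}

namespace Cx
variable (H : Cx ρ ρ' B c W x y C z r)
include H

theorem exd (f : V →ₗ[F] F) : ∃ ξ, ∀ v, B v ξ = f v := by
  obtain ⟨ξ, h⟩ := H.h.perf.bijective_right.2 f
  exact ⟨ξ, fun v => by rw [← h]; rfl⟩

theorem exf {b u : V} (h : Ind2 F b u) (α β : F) : ∃ ξ, B b ξ = α ∧ B u ξ = β := by
  obtain ⟨f1, a1, a2⟩ := Submodule.exists_le_ker_of_notMem h.2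
  obtain ⟨f2, b1, b2⟩ := Submodule.exists_le_ker_of_notMem (ind_symm h).2
  have a3 : f1 b = 0 := a2 (mem_span_singleton_self b)
  have b3 : f2 u = 0 := b2 (mem_span_singleton_self u)
  obtain ⟨ξ, e⟩ := H.exd ((α / f2 b) • f2 + (β / f1 u) • f1)
  exact ⟨ξ, by simp [e, a3, b1], by simp [e, b3, a1]⟩

theorem sep {b d : V} {ξ₀ : V'} (h0 : B b ξ₀ = 1) (h : ∀ ξ, B b ξ = 1 → B d ξ = 0) : d = 0 := by
  apply H.h.perf.bijective_left.1
  ext η
  have := h (η + (1 - B b η) • ξ₀) (by simp [h0])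
  simpa [h ξ₀ h0] using this

theorem transAff {b : V} (hb : b ∈ W x y) (b0 : b ≠ 0) {ξ ξ' : V'} (h : B b ξ = 1) (h' : B b ξ' = 1) :
    ∃ n ∈ NN ρ (W x y) C z, ρ n b = b ∧ ∀ v ∈ W x y, B (ρ n v) ξ' = B v ξ := by
  obtain ⟨u, hu, iu⟩ := H.partner b0
  have i : ∀ a : F, Ind2 F b (u - a • b) := fun a => ⟨b0, fun hh => iu.2 (by
    simpa using add_mem hh (smul_mem _ a (mem_span_singleton_self b)))⟩
  have m : ∀ a : F, u - a • b ∈ W x y := fun a => sub_mem hu (smul_mem _ _ hb)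
  obtain ⟨g, g1, g2, g3⟩ := H.h3 b ξ (u - B u ξ • b) b ξ' (u - B u ξ' • b) h (by simp [h]) (ind_symm (i _)).1 h'
    (by simp [h']) (ind_symm (i _)).1
  obtain ⟨n, hn, e⟩ := H.toN (H.keepB (i _) hb (m _) (g := g) (g1.symm ▸ hb)
    ((span_singleton_le_iff_mem _ _).2 (m _) g3))
  exact ⟨n, hn, by rw [e b hb, g1], fun v hv => by rw [e v hv, ← g2, H.h.inv]⟩

theorem Mtriv {b : V} (hb : b ∈ W x y) (b0 : b ≠ 0) {m : G} (hm : m ∈ NN ρ (W x y) C z) (mb : ρ m b = b)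
    (mz : m * z = z * m) : ∀ v ∈ W x y, ρ m v = v := by
  let M : Subgroup G := NN ρ (W x y) C z ⊓ (St ρ b ⊓ Subgroup.centralizer {z})
  have memM : ∀ g, g ∈ M ↔ g ∈ NN ρ (W x y) C z ∧ ρ g b = b ∧ g * z = z * g := fun g => by
    simp only [M, Subgroup.mem_inf, Subgroup.mem_centralizer_singleton_iff]; rfl
  haveI := Fintype.ofFinite M
  have hcard : (Fintype.card M : F) ≠ 0 := by
    intro h0
    obtain ⟨p, hp⟩ := CharP.exists F
    haveI := Fact.mk (CharP.char_is_prime F p)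
    obtain ⟨t, ht⟩ := exists_prime_orderOf_dvd_card p ((CharP.cast_eq_zero_iff F p _).1 h0)
    obtain ⟨t1, t2, t3⟩ := (memM t).1 t.2
    obtain ⟨v, hv, v0⟩ := H.exC
    have tp : (t : G) ^ p = 1 := by rw [← Subgroup.coe_pow, ← ht, pow_orderOf_eq_one]; rfl
    obtain ⟨w, hw, w0, e⟩ := nil_fix (ρ t - 1) C (fun v hv => sub_mem (t1.2.1 v hv) hv) p v hv v0 (by
      rw [sub_one_pow, ← map_pow, tp]; simp)
    have h1 := H.fixC t3 (a := 1) hw w0 (by simpa [sub_eq_zero] using e)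
    have h2 : (t : G) = 1 := H.faith hb b0 t1.1 t2 (by simpa using h1)
    have h3 : t = 1 := Subtype.ext h2
    rw [h3, orderOf_one] at ht
    exact (Fact.out : p.Prime).ne_one ht.symm
  obtain ⟨u, hu, iu⟩ := H.partner b0
  obtain ⟨ξ₀, x0, -⟩ := H.exf iu 1 0
  let ξ : V' := (Fintype.card M : F)⁻¹ • ∑ t : M, ρ' t ξ₀
  have x1 : B b ξ = 1 := by
    have : ∀ t : M, B b (ρ' t ξ₀) = 1 := fun t => by
      rw [← x0, ← H.h.inv t b ξ₀, ((memM t).1 t.2).2.1]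
    simp only [ξ, map_smul, map_sum, this, Finset.sum_const, Finset.card_univ, nsmul_eq_mul, mul_one, smul_eq_mul]
    exact inv_mul_cancel₀ hcard
  have x2 : ∀ s : M, ρ' s ξ = ξ := fun s => by
    simp only [ξ, map_smul, map_sum]
    congr 1
    refine Fintype.sum_equiv (Equiv.mulLeft s) _ _ fun t => ?_
    simp
  have x3 : ∀ s ∈ M, ∀ v, B (ρ s v) ξ = B v ξ := fun s hs v => by
    conv_lhs => rw [← x2 ⟨s, hs⟩]
    exact H.h.inv s v ξ
  intro v hv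
  rw [← sub_eq_zero]
  refine H.sep x0 fun ξ' h' => ?_
  obtain ⟨n, hn, nb, e⟩ := H.transAff hb b0 x1 h'
  have hs : n⁻¹ * m * n ∈ M := by
    refine (memM _).2 ⟨mul_mem (mul_mem (inv_mem hn) hm) hn, ?_, ?_⟩
    · exact (St ρ b).mul_mem ((St ρ b).mul_mem ((St ρ b).inv_mem nb) mb) nb
    · obtain ⟨i, hi⟩ := hn.2.2
      simp only at hi
      have : m * z ^ i = z ^ i * m := (Commute.zpow_right mz i).eq
      rw [hi] at this
      calc _ = n⁻¹ * (m * (n * z * n⁻¹)) * n := by group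
        _ = _ := by rw [this]; group
  have hv' : ρ n⁻¹ v ∈ W x y := (inv_mem hn : n⁻¹ ∈ NN ρ (W x y) C z).1 v hv
  have e1 := e _ (((memM _).1 hs).1.1 _ hv')
  have e2 := e _ hv'
  rw [x3 _ hs, ← e2, ← rm, ← rm, ← rm] at e1
  rw [map_sub, LinearMap.sub_apply, sub_eq_zero]
  simpa [mul_assoc] using e1

theorem reg {b : V} (hb : b ∈ W x y) (b0 : b ≠ 0) {g : G} (hg : ∀ w ∈ W x y, ρ g w ∈ W x y) (gb : ρ g b = b)
    {ξ : V'} (h : B b ξ = 1) (gξ : ∀ v ∈ W x y, B (ρ g v) ξ = B v ξ) : ∀ v ∈ W x y, ρ g v = v := by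
  obtain ⟨n, hn, e⟩ := H.toN hg
  intro v hv
  rw [← e v hv, ← sub_eq_zero]
  refine H.sep h fun ξ' h' => ?_
  obtain ⟨n1, hn1, nb, e1⟩ := H.transAff hb b0 h h'
  have nb' : ρ n b = b := by rw [e b hb, gb]
  have hv' : ρ n1⁻¹ v ∈ W x y := (inv_mem hn1 : n1⁻¹ ∈ NN ρ (W x y) C z).1 v hv
  have cm := H.Mtriv hb b0 (mul_mem (inv_mem (mul_mem hn1 hn)) (mul_mem hn hn1))
    ((St ρ b).mul_mem ((St ρ b).inv_mem ((St ρ b).mul_mem nb nb')) ((St ρ b).mul_mem nb' nb)) (comm_z hn hn1) _ hv'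
  have cm2 : ρ n v = ρ n1 (ρ n (ρ n1⁻¹ v)) := by
    have := congrArg (ρ (n1 * n)) cm
    rw [← rm, ← rm] at this
    simpa [mul_assoc] using this
  rw [map_sub, LinearMap.sub_apply, sub_eq_zero, cm2, e1 _ (hn.1 _ hv'), e _ hv', gξ _ hv', ← e1 _ hv']
  simp

theorem k3 : finrank F (W x y) = 2 := by
  by_contra hk
  obtain ⟨w, hw, wn⟩ := H.out3 hk H.hxy x y
  obtain ⟨ξ, x1, x2⟩ := H.exf H.hxy 1 0
  have wn' : w - B w ξ • x ∉ span F {x, y} := fun h => wn (by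
    simpa using add_mem h (smul_mem _ (B w ξ) (subset_span (by simp : x ∈ ({x, y} : Set V)))))
  have hw' : w - B w ξ • x ∈ W x y := sub_mem hw (smul_mem _ _ H.xm)
  obtain ⟨g, g1, g2, g3⟩ := H.h3 x ξ y x ξ (w - B w ξ • x) x1 x2 (ind_symm H.hxy).1 x1 (by simp [x1])
    (fun h => wn' (h ▸ zero_mem _))
  have := H.reg H.xm H.hxy.1 (H.keepB H.hxy H.xm H.ym (g := g) (g1.symm ▸ H.xm)
    ((span_singleton_le_iff_mem _ _).2 hw' g3)) g1 x1 (fun v _ => by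
      conv_lhs => rw [← g2]
      exact H.h.inv g v ξ) y H.ym
  rw [this] at g3
  obtain ⟨a, ha⟩ := mem_span_singleton.1 g3
  have a0 : a ≠ 0 := by rintro rfl; exact (ind_symm H.hxy).1 (by simpa using ha.symm)
  apply wn'
  have : w - B w ξ • x = a⁻¹ • y := by rw [← ha, smul_smul, inv_mul_cancel₀ a0, one_smul]
  rw [this]
  exact smul_mem _ _ (subset_span (by simp))

theorem eig {b u : V} (h : Ind2 F b u) (hb : b ∈ W x y) (hu : u ∈ W x y) {g : G} {l : F} (gb : ρ g b = b)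
    (gu : ρ g u = l • u) : l = 1 := by
  obtain ⟨ξ, x1, x2⟩ := H.exf h 1 0
  have := H.reg hb h.1 (H.keepB h hb hu (g := g) (gb.symm ▸ hb) (gu.symm ▸ smul_mem _ _ hu)) gb x1 (fun v hv => by
    obtain ⟨α, β, rfl⟩ := H.span2 H.k3 h hb hu hv
    simp [gb, gu, x2]) u hu
  rw [gu] at this
  have := ind_eq h (a := 0) (b := l - 1) (by rw [sub_smul, this]; simp)
  exact sub_eq_zero.1 this.2

theorem tv {b u : V} (h : Ind2 F b u) (hb : b ∈ W x y) (hu : u ∈ W x y) (s : F) :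
    ∃ n ∈ NN ρ (W x y) C z, ρ n b = b ∧ ρ n u = u + s • b := by
  obtain ⟨ξ, x1, x2⟩ := H.exf h 1 0
  obtain ⟨ξ', y1, y2⟩ := H.exf h 1 (-s)
  obtain ⟨n, hn, nb, e⟩ := H.transAff hb h.1 x1 y1
  obtain ⟨α, β, e1⟩ := H.span2 H.k3 h hb hu (hn.1 u hu)
  have hβ : β = 1 := by
    by_contra hβ
    have h1 : β - 1 ≠ 0 := sub_ne_zero.2 hβ
    refine hβ (H.eig (u := u + (α / (β - 1)) • b) ⟨h.1, fun hh => h.2 ?_⟩ hb (add_mem hu (smul_mem _ _ hb)) nb ?_)
    · simpa using sub_mem hh (smul_mem _ (α / (β - 1)) (mem_span_singleton_self b))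
    · rw [map_add, map_smul, nb, ← e1, smul_add, smul_smul,
        show β * (α / (β - 1)) = α + α / (β - 1) by field_simp; ring, add_smul]
      abel
  have e2 := e u hu
  rw [← e1, hβ] at e2
  simp only [map_add, map_smul, LinearMap.add_apply, LinearMap.smul_apply, y1, y2, x2, smul_eq_mul] at e2
  refine ⟨n, hn, nb, ?_⟩
  rw [← e1, hβ, one_smul, add_comm, show α = s by linear_combination e2]

theorem wel (t : F) (ht : t ≠ 0) : ∃ n ∈ NN ρ (W x y) C z, ρ n x = -t⁻¹ • y ∧ ρ n y = t • x := by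
  obtain ⟨a, ha, a1, a2⟩ := H.tv H.hxy H.xm H.ym t
  obtain ⟨d, hd, d1, d2⟩ := H.tv (ind_symm H.hxy) H.ym H.xm (-t⁻¹)
  refine ⟨a * d * a, mul_mem (mul_mem ha hd) ha, ?_, ?_⟩
  · simp only [rm, a1, d2, map_add, map_smul, a2, smul_add, smul_smul]
    rw [neg_mul, inv_mul_cancel₀ ht]; simp
  · simp only [rm, a2, map_add, map_smul, d1, d2, a1, smul_add, smul_smul]
    rw [mul_neg, mul_inv_cancel₀ ht, ← mul_assoc, mul_neg, mul_inv_cancel₀ ht]
    simp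

theorem sq_one (t : F) (ht : t ≠ 0) : t * t = 1 := by
  obtain ⟨a, -, a1, a2⟩ := H.wel t ht
  obtain ⟨d, -, d1, d2⟩ := H.wel (-1) (by simp)
  obtain ⟨s, hs⟩ := H.h.sc t⁻¹ (inv_ne_zero ht)
  have := H.eig H.hxy H.xm H.ym (g := s * a * d) (l := t⁻¹ * t⁻¹)
    (by simp [d1, a2, hs, smul_smul, ht]) (by simp [d2, a1, hs, smul_smul])
  field_simp at this
  linear_combination -this

end Cx

end Cfsg.Agent.Sg.Sp
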