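import Cfsg.Agent.Sg.Defs

set_option autoImplicit false
open Module Submodule

namespace Cfsg.Agent.Sg

variable {F V G : Type*} [Field F] [Fintype F] [AddCommGroup V] [Module F V] [Module.Finite F V]
  [Group G] [Finite G] {ρ : Representation F G V}

theorem St.num {q Q : ℕ} (q1 : 2 ≤ q) (q2 : q * q ≤ Q)
    (e : (Q * q - 1) * (Q * q - q) ≤ (Q * Q * q - q) * (q - 1)) : False := by
  have h0 : q < Q := by nlinarith
  have h1 : 1 ≤ Q * q := by nlinarith
  have h2 : q ≤ Q * q := by nlinarith
  have h3 : q ≤ Q * Q * q := by nlinarith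
  have h4 : 1 ≤ q := by omega
  zify [h1, h2, h3, h4] at e q1 h0
  have h6 : (0 : ℤ) < q * ((Q - 1) * (Q - q)) :=
    mul_pos (by linarith) (mul_pos (by linarith) (by linarith))
  nlinarith

theorem st {c : ℕ} {W : V → V → Submodule F V} (hW : WS ρ c W) (hs : Spread F W)
    (hn : 4 ≤ finrank F V) : finrank F V ≤ 2 * c ∨ finrank F V = c + 2 := by
  classical
  haveI : Finite V := Module.finite_of_finite F
  letI := Fintype.ofFinite V
  have out : ∀ E : Submodule F V, finrank F E < finrank F V → ∃ z, z ∉ E := fun E hE => by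
    by_contra hc
    push Not at hc
    rw [Submodule.eq_top_iff'.2 hc, finrank_top] at hE
    omega
  have cd : ∀ E : Submodule F V, (Finset.univ.filter fun x => x ∈ E).card =
      Fintype.card F ^ finrank F E := fun E => by
    rw [← Fintype.card_subtype, Module.card_eq_pow_finrank (K := F)]
  obtain ⟨x, hx⟩ : ∃ u : V, u ≠ 0 := finrank_pos_iff_exists_ne_zero.1
    (show 0 < finrank F V by omega)
  obtain ⟨y, hy⟩ := out (span F {x}) (by rw [finrank_span_singleton hx]; omega)
  have hxy : Ind2 F x y := ⟨hx, hy⟩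
  have r1 := hW.rank x y hxy
  have c1 := hW.c_pos
  obtain ⟨z, hz⟩ := out (W x y) (by omega)
  have z0 : z ≠ 0 := by rintro rfl; exact hz (Submodule.zero_mem _)
  have hxz : Ind2 F x z := ⟨hx, fun k => hz ((span_singleton_le_iff_mem _ _).2 (hW.left x y hxy) k)⟩
  have r2 := hW.rank x z hxz
  have i1 : W x y ⊓ W x z ≤ span F {x} := fun w hw => by_contra fun k => hz (by
    rw [← hs x y x w hxy ⟨hx, k⟩ (hW.left _ _ hxy) hw.1, hs x z x w hxz ⟨hx, k⟩ (hW.left _ _ hxz) hw.2]
    exact hW.right _ _ hxz)
  have i2 := Submodule.finrank_mono i1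
  rw [finrank_span_singleton hx] at i2
  have i3 := Submodule.finrank_sup_add_finrank_inf_eq (W x y) (W x z)
  have i4 := Submodule.finrank_le (W x y ⊔ W x z)
  have i5 : 1 < finrank F (W x y) := by
    rw [← finrank_span_singleton (K := F) hx]
    exact Submodule.finrank_lt_finrank_of_lt (lt_of_le_of_ne
      ((span_singleton_le_iff_mem _ _).2 (hW.left x y hxy)) fun e => hy (e ▸ hW.right x y hxy))
  by_contra hc
  push Not at hc
  have hk : finrank F (W x y) = c + 1 := by omega
  have hv : finrank F V = 2 * c + 1 := by omega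
  have c2 : 2 ≤ c := by omega
  set q := Fintype.card F with hq
  have zb : ∀ b, b ≠ 0 → b ∈ W x y → Ind2 F z b := fun b b0 hb => ⟨z0, fun k => by
    obtain ⟨a, rfl⟩ := mem_span_singleton.1 k
    have a0 : a ≠ 0 := by rintro rfl; exact b0 (zero_smul _ _)
    exact hz ((Submodule.smul_mem_iff _ a0).1 hb)⟩
  have e := Finset.card_mul_le_card_mul
    (s := (Finset.univ.filter fun b => b ∈ W x y).erase 0)
    (t := Finset.univ \ Finset.univ.filter fun w => w ∈ span F {z}) (fun b w => w ∈ W z b)
    (m := q ^ (c + 1) - q) (n := q - 1) (fun b hb => by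
      simp only [Finset.mem_erase, Finset.mem_filter, Finset.mem_univ, true_and] at hb
      have k := zb b hb.1 hb.2
      have r3 := hW.rank z b k
      have e1 := Finset.le_card_sdiff (Finset.univ.filter fun w => w ∈ span F {z})
        (Finset.univ.filter fun w => w ∈ W z b)
      rw [cd, cd, finrank_span_singleton z0, pow_one,
        show finrank F (W z b) = c + 1 by omega] at e1
      refine e1.trans (Finset.card_le_card fun w hw => ?_)
      simp only [Finset.mem_bipartiteAbove, Finset.mem_sdiff, Finset.mem_filter, Finset.mem_univ,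
        true_and] at hw ⊢
      exact ⟨hw.2, hw.1⟩) (fun w hw => by
      simp only [Finset.mem_sdiff, Finset.mem_filter, Finset.mem_univ, true_and] at hw
      rcases Finset.eq_empty_or_nonempty (Finset.bipartiteBelow (fun b w => w ∈ W z b)
        ((Finset.univ.filter fun b => b ∈ W x y).erase 0) w) with e0 | ⟨b, hb⟩
      · rw [e0]; simp
      simp only [Finset.mem_bipartiteBelow, Finset.mem_erase, Finset.mem_filter, Finset.mem_univ,
        true_and] at hb
      have e1 := cd (span F {b})
      rw [finrank_span_singleton hb.1.1, pow_one] at e1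
      rw [← e1, ← Finset.card_erase_of_mem (a := 0) (by simp)]
      refine Finset.card_le_card fun b' hb' => ?_
      simp only [Finset.mem_bipartiteBelow, Finset.mem_erase, Finset.mem_filter, Finset.mem_univ,
        true_and] at hb' ⊢
      refine ⟨hb'.1.1, by_contra fun k => hz ?_⟩
      have k1 := zb b hb.1.1 hb.1.2
      have k2 := zb b' hb'.1.1 hb'.1.2
      have k3 := hs z b z w k1 ⟨z0, hw⟩ (hW.left _ _ k1) hb.2
      have k4 := hs z b' z w k2 ⟨z0, hw⟩ (hW.left _ _ k2) hb'.2
      rw [← hs x y b b' hxy ⟨hb.1.1, k⟩ hb.1.2 hb'.1.2,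
        hs z b b b' k1 ⟨hb.1.1, k⟩ (hW.right _ _ k1) (by rw [← k3, k4]; exact hW.right _ _ k2)]
      exact hW.left _ _ k1)
  rw [Finset.card_erase_of_mem (by simp), cd, hk, Finset.card_sdiff_of_subset (by simp), cd,
    finrank_span_singleton z0, pow_one, Finset.card_univ, Module.card_eq_pow_finrank (K := F),
    hv, ← hq] at e
  have q1 : 2 ≤ q := Fintype.one_lt_card
  have q2 : q * q ≤ q ^ c := by rw [← pow_two]; exact Nat.pow_le_pow_right (by omega) c2
  rw [pow_succ, pow_succ, mul_comm 2 c, pow_mul, pow_two] at e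
  exact St.num q1 q2 e

end Cfsg.Agent.Sg
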