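import Cfsg.Agent.Sg.Defs

set_option autoImplicit false
open Module Submodule

namespace Cfsg.Agent.Sg
namespace Wt

/-- the subgroup attached to an orbit map -/
def osub {H S : Type*} [Group H] (f : H → S) (c : ∀ a b k, f a = f b → f (k * a) = f (k * b)) :
    Subgroup H where
  carrier := {k | f k = f 1}
  one_mem' := rfl
  mul_mem' {a b} ha hb := by
    have h1 := c b 1 a hb
    simp only [mul_one] at h1
    exact h1.trans ha
  inv_mem' {a} ha := by
    have h1 := c a 1 a⁻¹ ha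
    simp only [mul_one, inv_mul_cancel] at h1
    exact h1.symm

theorem osub_index {H S : Type*} [Group H] (f : H → S)
    (c : ∀ a b k, f a = f b → f (k * a) = f (k * b)) :
    (osub f c).index = Nat.card (Set.range f) := by
  have key : ∀ a b, f a = f b ↔ a⁻¹ * b ∈ osub f c := by
    intro a b
    constructor
    · intro h
      have h1 := c a b a⁻¹ h
      simp only [inv_mul_cancel] at h1
      exact h1.symm
    · intro h
      have h1 := c _ _ a h
      simp only [mul_one, mul_inv_cancel_left] at h1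
      exact h1.symm
  unfold Subgroup.index
  refine Nat.card_congr (Equiv.ofBijective
    (Quotient.lift (fun a => (⟨f a, a, rfl⟩ : Set.range f)) ?_) ⟨?_, ?_⟩)
  · intro a b hab
    exact Subtype.ext ((key a b).2 (QuotientGroup.leftRel_apply.1 hab))
  · intro a b
    refine Quotient.inductionOn₂ a b ?_
    intro a b hab
    exact Quotient.sound (QuotientGroup.leftRel_apply.2 ((key a b).1 (congrArg Subtype.val hab)))
  · rintro ⟨_, a, rfl⟩
    exact ⟨Quotient.mk _ a, rfl⟩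

/-- coprime orbits -/
theorem cop {H S₁ S₂ : Type*} [Group H] [Finite H] (f₁ : H → S₁) (f₂ : H → S₂)
    (c₁ : ∀ a b k, f₁ a = f₁ b → f₁ (k * a) = f₁ (k * b))
    (c₂ : ∀ a b k, f₂ a = f₂ b → f₂ (k * a) = f₂ (k * b))
    (hc : Nat.Coprime (Nat.card (Set.range f₁)) (Nat.card (Set.range f₂))) (a b : H) :
    ∃ g, f₁ g = f₁ a ∧ f₂ g = f₂ b := by
  classical
  let f : H → S₁ × S₂ := fun g => (f₁ g, f₂ g)
  have c : ∀ a b k, f a = f b → f (k * a) = f (k * b) := by
    intro a b k h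
    exact Prod.ext (c₁ a b k (congrArg Prod.fst h)) (c₂ a b k (congrArg Prod.snd h))
  have d₁ : Nat.card (Set.range f₁) ∣ Nat.card (Set.range f) := by
    rw [← osub_index f c, ← osub_index f₁ c₁]
    exact Subgroup.index_dvd_of_le (fun k hk => congrArg Prod.fst hk)
  have d₂ : Nat.card (Set.range f₂) ∣ Nat.card (Set.range f) := by
    rw [← osub_index f c, ← osub_index f₂ c₂]
    exact Subgroup.index_dvd_of_le (fun k hk => congrArg Prod.snd hk)
  have d := hc.mul_dvd_of_dvd_of_dvd d₁ d₂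
  let j : Set.range f → Set.range f₁ × Set.range f₂ := fun t =>
    (⟨t.1.1, by obtain ⟨_, g, rfl⟩ := t; exact ⟨g, rfl⟩⟩,
      ⟨t.1.2, by obtain ⟨_, g, rfl⟩ := t; exact ⟨g, rfl⟩⟩)
  have ji : Function.Injective j := by
    intro s t h
    exact Subtype.ext (Prod.ext (congrArg (fun u => u.1.1) h) (congrArg (fun u => u.2.1) h))
  have pos : 0 < Nat.card (Set.range f) := by
    haveI : Nonempty (Set.range f) := ⟨⟨f 1, 1, rfl⟩⟩
    exact Nat.card_pos
  have jb : Function.Bijective j := by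
    refine ji.bijective_of_nat_card_le ?_
    rw [Nat.card_prod]
    exact Nat.le_of_dvd pos d
  obtain ⟨⟨_, g, rfl⟩, hg⟩ := jb.2 (⟨f₁ a, a, rfl⟩, ⟨f₂ b, b, rfl⟩)
  exact ⟨g, congrArg (fun u => u.1.1) hg, congrArg (fun u => u.2.1) hg⟩

variable {F V V' G : Type*} [Field F] [AddCommGroup V] [Module F V]
  [AddCommGroup V'] [Module F V'] [Group G]
  {ρ : Representation F G V} {ρ' : Representation F G V'} {B : V →ₗ[F] V' →ₗ[F] F}

theorem rmul (ρ : Representation F G V) (g h : G) (v : V) : ρ (g * h) v = ρ g (ρ h v) := by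
  simp

theorem rinj (ρ : Representation F G V) (g : G) : Function.Injective (ρ g) := by
  intro a b h
  have := congrArg (ρ g⁻¹) h
  simpa using this

theorem rne (ρ : Representation F G V) (g : G) {v : V} (h : v ≠ 0) : ρ g v ≠ 0 := by
  intro h1
  exact h (rinj ρ g (by simpa using h1))

/-- stabiliser of a point -/
def stab (ρ : Representation F G V) (x : V) : Subgroup G where
  carrier := {g | ρ g x ∈ span F {x}}
  one_mem' := by simp [mem_span_singleton_self]
  mul_mem' {a b} ha hb := by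
    obtain ⟨s, hs⟩ := mem_span_singleton.1 hb
    show ρ (a * b) x ∈ span F {x}
    rw [rmul, ← hs, map_smul]
    exact smul_mem _ _ ha
  inv_mem' {a} ha := by
    obtain ⟨s, hs⟩ := mem_span_singleton.1 ha
    show ρ a⁻¹ x ∈ span F {x}
    have h1 : x = s • ρ a⁻¹ x := by
      rw [← map_smul, hs]; simp
    by_cases h0 : s = 0
    · have : x = 0 := by rw [h1, h0, zero_smul]
      simp [this]
    · refine mem_span_singleton.2 ⟨s⁻¹, ?_⟩
      conv_lhs => rw [h1]
      rw [smul_smul, inv_mul_cancel₀ h0, one_smul]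

theorem mem_stab {x : V} {g : G} : g ∈ stab ρ x ↔ ρ g x ∈ span F {x} := Iff.rfl

theorem stab_span {x v : V} {g : G} (hg : ρ g x ∈ span F {x}) (hv : v ∈ span F {x}) :
    ρ g v ∈ span F {x} := by
  obtain ⟨s, rfl⟩ := mem_span_singleton.1 hv
  rw [map_smul]; exact smul_mem _ _ hg

theorem stab_span_iff {x v : V} {g : G} (hg : ρ g x ∈ span F {x}) :
    ρ g v ∈ span F {x} ↔ v ∈ span F {x} := by
  refine ⟨fun h => ?_, stab_span hg⟩
  have := stab_span ((stab ρ x).inv_mem hg) h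
  simpa using this

theorem binv (h : Ctx ρ ρ' B) (g : G) (x : V) (ξ : V') : B (ρ g x) ξ = B x (ρ' g⁻¹ ξ) := by
  rw [← h.inv g x (ρ' g⁻¹ ξ)]; simp

theorem sep (h : Ctx ρ ρ' B) (E : Submodule F V) {z : V} (hz : z ∉ E) :
    ∃ ξ, (∀ w ∈ E, B w ξ = 0) ∧ B z ξ = 1 := by
  obtain ⟨f, hf, hE⟩ := Submodule.exists_le_ker_of_notMem hz
  obtain ⟨ξ, hξ⟩ := h.perf.bijective_right.2 ((f z)⁻¹ • f)
  have e : ∀ w, B w ξ = (f z)⁻¹ * f w := fun w => congrArg (fun φ => φ w) hξ
  refine ⟨ξ, fun w hw => ?_, ?_⟩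
  · rw [e, LinearMap.mem_ker.1 (hE hw), mul_zero]
  · rw [e, inv_mul_cancel₀ hf]

theorem sep0 (h : Ctx ρ ρ' B) {ξ : V'} (hξ : ξ ≠ 0) : ∃ v, B v ξ = 1 := by
  obtain ⟨v, -, hv⟩ := sep h.flip ⊥ (z := ξ) (by simpa using hξ)
  exact ⟨v, hv⟩

/-- action on the quotient -/
def rq (ρ : Representation F G V) (x : V) : Representation F (stab ρ x) (V ⧸ span F {x}) :=
  Representation.quotient (ρ.comp (stab ρ x).subtype) (span F {x})
    (fun g _ hv => stab_span g.2 hv)

theorem rq_mk (x : V) (g : stab ρ x) (v : V) :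
    rq ρ x g ((span F {x}).mkQ v) = (span F {x}).mkQ (ρ g v) := rfl

theorem ker_inv (h : Ctx ρ ρ' B) {x : V} {g : G} (hg : ρ g x ∈ span F {x}) {ξ : V'}
    (hξ : B x ξ = 0) : B x (ρ' g ξ) = 0 := by
  have h1 := binv h g⁻¹ x (ρ' g ξ)
  have h2 : B x (ρ' g ξ) = B (ρ g⁻¹ x) ξ := by
    rw [binv h g⁻¹ x ξ, inv_inv]
  obtain ⟨s, hs⟩ := mem_span_singleton.1 ((stab ρ x).inv_mem hg)
  rw [h2, ← hs, map_smul, LinearMap.smul_apply, hξ, smul_zero]

/-- action on the annihilator -/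
def rs (h : Ctx ρ ρ' B) (x : V) : Representation F (stab ρ x) (LinearMap.ker (B x)) :=
  Representation.subrepresentation (ρ'.comp (stab ρ x).subtype) (LinearMap.ker (B x))
    (fun g _ hv => ker_inv h g.2 hv)

theorem rs_coe (h : Ctx ρ ρ' B) (x : V) (g : stab ρ x) (ξ : LinearMap.ker (B x)) :
    ((rs h x g ξ : LinearMap.ker (B x)) : V') = ρ' g ξ := rfl

/-- the induced pairing -/
def bq (B : V →ₗ[F] V' →ₗ[F] F) (x : V) :
    (V ⧸ span F {x}) →ₗ[F] LinearMap.ker (B x) →ₗ[F] F :=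
  (span F {x}).liftQ (B.compl₂ (LinearMap.ker (B x)).subtype) (by
    rw [span_singleton_le_iff_mem, LinearMap.mem_ker]
    ext ξ
    exact ξ.2)

theorem bq_mk (x v : V) (ξ : LinearMap.ker (B x)) :
    bq B x ((span F {x}).mkQ v) ξ = B v ξ := rfl

theorem mkQ_zero {x v : V} : (span F {x}).mkQ v = 0 ↔ v ∈ span F {x} := by
  simp

theorem ctxq [Module.Finite F V] (h : Ctx ρ ρ' B) (x : V) : Ctx (rq ρ x) (rs h x) (bq B x) := by
  refine ⟨LinearMap.IsPerfPair.of_injective ?_ ?_, ?_, ?_, ?_⟩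
  · rw [injective_iff_map_eq_zero]
    intro u hu
    obtain ⟨v, rfl⟩ := (span F {x}).mkQ_surjective u
    rw [mkQ_zero]
    by_contra hv
    obtain ⟨ξ, h1, h2⟩ := sep h _ hv
    have h3 := congrArg (fun φ => φ ⟨ξ, h1 x (mem_span_singleton_self x)⟩) hu
    simp only [bq_mk, LinearMap.zero_apply] at h3
    rw [h2] at h3
    exact one_ne_zero h3
  · rw [injective_iff_map_eq_zero]
    intro ξ hξ
    by_contra h0
    obtain ⟨v, hv⟩ := sep0 h (ξ := ξ) (fun h1 => h0 (Subtype.ext h1))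
    have h3 := congrArg (fun φ => φ ((span F {x}).mkQ v)) hξ
    simp only [LinearMap.flip_apply, bq_mk, LinearMap.zero_apply] at h3
    rw [hv] at h3
    exact one_ne_zero h3
  · intro g u ξ
    obtain ⟨v, rfl⟩ := (span F {x}).mkQ_surjective u
    rw [rq_mk, bq_mk, bq_mk, rs_coe, h.inv]
  · intro a ha
    obtain ⟨g, hg⟩ := h.sc a ha
    refine ⟨⟨g, ?_⟩, fun u => ?_⟩
    · rw [mem_stab, hg]; exact smul_mem _ _ (mem_span_singleton_self x)
    · obtain ⟨v, rfl⟩ := (span F {x}).mkQ_surjective u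
      rw [rq_mk, hg, map_smul]
  · intro a ha
    obtain ⟨g, hg⟩ := h.sc a⁻¹ (inv_ne_zero ha)
    have hg' : ∀ ξ, ρ' g ξ = a • ξ := by
      intro ξ
      apply h.perf.bijective_right.1
      ext v
      have h1 := h.inv g v ξ
      rw [hg, map_smul, LinearMap.smul_apply, smul_eq_mul] at h1
      simp only [LinearMap.flip_apply, map_smul, LinearMap.smul_apply, smul_eq_mul]
      rw [← h1, ← mul_assoc, mul_inv_cancel₀ ha, one_mul]
    refine ⟨⟨g, ?_⟩, fun ξ => Subtype.ext ?_⟩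
    · rw [mem_stab, hg]; exact smul_mem _ _ (mem_span_singleton_self x)
    · rw [rs_coe, hg']; rfl

theorem atq (h : Ctx ρ ρ' B) (h3 : F3 ρ ρ' B) {x : V} (hx : x ≠ 0) :
    AT (rq ρ x) (rs h x) (bq B x) := by
  intro u ξ u' ξ' h1 h2
  obtain ⟨v, rfl⟩ := (span F {x}).mkQ_surjective u
  obtain ⟨v', rfl⟩ := (span F {x}).mkQ_surjective u'
  obtain ⟨g, g1, g2, g3⟩ := h3 v ξ x v' ξ' x h1 ξ.2 hx h2 ξ'.2 hx
  exact ⟨⟨g, g3⟩, by rw [rq_mk, g1], Subtype.ext g2⟩

/-- scalars act on both sides -/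
theorem scal (h : Ctx ρ ρ' B) {a : F} (ha : a ≠ 0) :
    ∃ g, (∀ v, ρ g v = a • v) ∧ ∀ ξ, ρ' g ξ = a⁻¹ • ξ := by
  obtain ⟨g, hg⟩ := h.sc a ha
  refine ⟨g, hg, fun ξ => ?_⟩
  apply h.perf.bijective_right.1
  ext v
  have h1 := h.inv g v ξ
  rw [hg, map_smul, LinearMap.smul_apply, smul_eq_mul] at h1
  simp only [LinearMap.flip_apply, map_smul, LinearMap.smul_apply, smul_eq_mul]
  rw [← h1, ← mul_assoc, inv_mul_cancel₀ ha, one_mul]

/-- nonzero vectors of a nonzero subspace: number prime to `q` -/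
theorem cop_card [Fintype F] [Module.Finite F V] (E : Submodule F V) (hE : E ≠ ⊥) (m : ℕ) :
    Nat.Coprime (Nat.card {v // v ∈ E ∧ v ≠ 0}) (Fintype.card F ^ m) := by
  classical
  haveI : Finite V := Module.finite_of_finite F
  have e : Nat.card {v // v ∈ E ∧ v ≠ 0} + 1 = Fintype.card F ^ finrank F E := by
    have h1 : Nat.card E = Fintype.card F ^ finrank F E := by
      rw [Module.natCard_eq_pow_finrank (K := F), Nat.card_eq_fintype_card]
    rw [← h1]
    have h2 : Nat.card {v // v ∈ E ∧ v ≠ 0} = Nat.card {v : E // v ≠ 0} := by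
      refine Nat.card_congr ⟨fun v => ⟨⟨v.1, v.2.1⟩, fun h => v.2.2 (congrArg Subtype.val h)⟩,
        fun v => ⟨v.1.1, v.1.2, fun h => v.2 (Subtype.ext h)⟩, fun _ => rfl, fun _ => rfl⟩
    rw [h2]
    haveI : Fintype E := Fintype.ofFinite _
    rw [Nat.card_eq_fintype_card, Nat.card_eq_fintype_card, Fintype.card_subtype_compl,
      Fintype.card_subtype_eq]
    have : 0 < Fintype.card E := Fintype.card_pos
    omega
  have hd : finrank F E ≠ 0 := by
    rwa [Ne, Submodule.finrank_eq_zero]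
  refine Nat.Coprime.pow_right m ?_
  have h1 : Nat.Coprime (Nat.card {v // v ∈ E ∧ v ≠ 0}) (Fintype.card F ^ finrank F E) := by
    rw [← e]; simp
  exact (Nat.coprime_pow_right_iff (Nat.pos_of_ne_zero hd) _ _).1 h1

/-- a coset of a subspace -/
theorem card_coset [Fintype F] [Module.Finite F V] (E : Submodule F V) (y : V) :
    Nat.card {v // v - y ∈ E} = Fintype.card F ^ finrank F E := by
  have h1 : Nat.card E = Fintype.card F ^ finrank F E := by
    rw [Module.natCard_eq_pow_finrank (K := F), Nat.card_eq_fintype_card]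
  rw [← h1]
  exact Nat.card_congr ⟨fun v => ⟨v.1 - y, v.2⟩, fun e => ⟨e.1 + y, by simp⟩,
    fun v => by simp, fun e => by simp⟩

end Wt
end Cfsg.Agent.Sg
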