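import Cfsg.Agent.Sg.Wt0

set_option autoImplicit false
open Module Submodule

namespace Cfsg.Agent.Sg
namespace Wt

variable {F V V' G : Type*} [Field F] [AddCommGroup V] [Module F V]
  [AddCommGroup V'] [Module F V'] [Group G]
  {ρ : Representation F G V} {ρ' : Representation F G V'} {B : V →ₗ[F] V' →ₗ[F] F}

/-- local structure, first form -/
structure Loc0 (ρ : Representation F G V) (ρ' : Representation F G V') (B : V →ₗ[F] V' →ₗ[F] F)
    (x : V) (c : ℕ) (W : V → Submodule F V) (T : V' → Submodule F V) : Prop where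
  c_pos : 1 ≤ c
  left : ∀ y, x ∈ W y
  right : ∀ y, y ∈ W y
  rank : ∀ y, y ∉ span F {x} → finrank F (W y) + c = finrank F V
  equi : ∀ g y z, ρ g x ∈ span F {x} → y ∉ span F {x} → (ρ g z ∈ W (ρ g y) ↔ z ∈ W y)
  cong : ∀ y y', y ∉ span F {x} → y' ∉ span F {x} → y' ∈ span F {x, y} → W y' = W y
  symm : ∀ y z, y ∉ span F {x} → z ∉ span F {x} → z ∈ W y → y ∈ W z
  mem : ∀ ξ y, ξ ≠ 0 → B x ξ = 0 → (y ∈ T ξ ↔ y ∈ span F {x} ∨ ∀ w ∈ W y, B w ξ = 0)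
  rankT : ∀ ξ, ξ ≠ 0 → B x ξ = 0 → finrank F (T ξ) = c + 1
  minT : ∀ ξ, ξ ≠ 0 → B x ξ = 0 → ∀ E : Submodule F V, x ∈ E → E ≠ span F {x} →
    (∀ g, ρ g x ∈ span F {x} → ρ' g ξ ∈ span F {ξ} → ∀ v ∈ E, ρ g v ∈ E) → T ξ ≤ E
  transOut : ∀ ξ η η', ξ ≠ 0 → B x ξ = 0 → B x η = 0 → B x η' = 0 →
    (∃ u ∈ T ξ, B u η ≠ 0) → (∃ u ∈ T ξ, B u η' ≠ 0) →
      ∃ g, ρ g x ∈ span F {x} ∧ ρ' g ξ ∈ span F {ξ} ∧ ρ' g η = η'
  symmT : ∀ ξ η, ξ ≠ 0 → η ≠ 0 → B x ξ = 0 → B x η = 0 →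
    (∀ u ∈ T ξ, B u η = 0) → ∀ u ∈ T η, B u ξ = 0

/-- weak transitivity inside `T` -/
def TI0 (ρ : Representation F G V) (ρ' : Representation F G V') (B : V →ₗ[F] V' →ₗ[F] F)
    (x : V) (T : V' → Submodule F V) : Prop :=
  ∀ ξ y y', ξ ≠ 0 → B x ξ = 0 → y ∈ T ξ → y' ∈ T ξ → y ∉ span F {x} → y' ∉ span F {x} →
    ∃ g, ρ g x ∈ span F {x} ∧ ρ' g ξ ∈ span F {ξ} ∧ ρ g y - y' ∈ span F {x}

theorem mk_span {x y v : V} :
    (span F {x}).mkQ v ∈ span F {(span F {x}).mkQ y} ↔ v ∈ span F {x, y} := by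
  rw [mem_span_singleton, mem_span_pair]
  constructor
  · rintro ⟨a, ha⟩
    have : (span F {x}).mkQ (v - a • y) = 0 := by rw [map_sub, map_smul, ha, sub_self]
    obtain ⟨b, hb⟩ := mem_span_singleton.1 (mkQ_zero.1 this)
    exact ⟨b, a, by rw [hb]; abel⟩
  · rintro ⟨b, a, rfl⟩
    refine ⟨a, ?_⟩
    rw [map_add, map_smul, map_smul, mkQ_zero.2 (mem_span_singleton_self x), smul_zero, zero_add]

theorem finrank_comap [Module.Finite F V] {x : V} (hx : x ≠ 0) (E : Submodule F (V ⧸ span F {x})) :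
    finrank F (E.comap (span F {x}).mkQ) = finrank F E + 1 := by
  have h1 := LinearMap.finrank_range_add_finrank_ker
    ((span F {x}).mkQ.domRestrict (E.comap (span F {x}).mkQ))
  have h2 : LinearMap.range ((span F {x}).mkQ.domRestrict (E.comap (span F {x}).mkQ)) = E := by
    rw [LinearMap.range_domRestrict, Submodule.map_comap_eq_of_surjective (mkQ_surjective _)]
  have h3 : finrank F (LinearMap.ker ((span F {x}).mkQ.domRestrict (E.comap (span F {x}).mkQ)))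
      = 1 := by
    rw [LinearMap.ker_domRestrict, ker_mkQ, ← finrank_span_singleton (K := F) hx]
    refine LinearEquiv.finrank_eq (Submodule.comapSubtypeEquivOfLe ?_)
    intro v hv
    rw [mem_comap, mkQ_zero.2 hv]
    exact zero_mem _
  rw [h2, h3] at h1
  exact h1.symm

theorem loc0 [Module.Finite F V] (h : Ctx ρ ρ' B) {x : V} (hx : x ≠ 0) {c : ℕ}
    {W0 : (V ⧸ span F {x}) → Submodule F (V ⧸ span F {x})}
    {T0 : LinearMap.ker (B x) → Submodule F (V ⧸ span F {x})}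
    (a : AS (rq ρ x) (rs h x) (bq B x) c W0 T0) :
    ∃ W T, Loc0 ρ ρ' B x c W T ∧ TI0 ρ ρ' B x T := by
  classical
  let π := (span F {x}).mkQ
  let W : V → Submodule F V := fun y => (W0 (π y)).comap π
  let T : V' → Submodule F V := fun ξ =>
    if hξ : B x ξ = 0 then (T0 ⟨ξ, hξ⟩).comap π else ⊤
  have hT : ∀ ξ (hξ : B x ξ = 0), T ξ = (T0 ⟨ξ, hξ⟩).comap π := fun ξ hξ => dif_pos hξ
  have nz : ∀ {y}, y ∉ span F {x} → π y ≠ 0 := fun hy h0 => hy (mkQ_zero.1 h0)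
  have nz' : ∀ {ξ} (hξ : B x ξ = 0), ξ ≠ 0 → (⟨ξ, hξ⟩ : LinearMap.ker (B x)) ≠ 0 :=
    fun hξ h0 h1 => h0 (congrArg Subtype.val h1)
  have sp : ∀ {ξ η} (hξ : B x ξ = 0) (hη : B x η = 0),
      (⟨η, hη⟩ : LinearMap.ker (B x)) ∈ span F {(⟨ξ, hξ⟩ : LinearMap.ker (B x))} ↔
        η ∈ span F {ξ} := by
    intro ξ η hξ hη
    rw [mem_span_singleton, mem_span_singleton]
    exact ⟨fun ⟨s, hs⟩ => ⟨s, congrArg Subtype.val hs⟩, fun ⟨s, hs⟩ => ⟨s, Subtype.ext hs⟩⟩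
  have hq : finrank F (V ⧸ span F {x}) + 1 = finrank F V := by
    rw [← (span F {x}).finrank_quotient_add_finrank, finrank_span_singleton hx]
  refine ⟨W, T, ⟨a.c_pos, ?_, ?_, ?_, ?_, ?_, ?_, ?_, ?_, ?_, ?_, ?_⟩, ?_⟩
  · intro y
    show π x ∈ W0 (π y)
    rw [mkQ_zero.2 (mem_span_singleton_self x)]; exact zero_mem _
  · intro y; exact a.self _
  · intro y hy
    have := a.rank _ (nz hy)
    rw [finrank_comap hx]; omega
  · intro g y z hg hy
    have e := a.equi ⟨g, hg⟩ _ (nz hy)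
    show π (ρ g z) ∈ W0 (π (ρ g y)) ↔ π z ∈ W0 (π y)
    have e1 : π (ρ g y) = rq ρ x ⟨g, hg⟩ (π y) := rfl
    have e2 : π (ρ g z) = rq ρ x ⟨g, hg⟩ (π z) := rfl
    rw [e1, e2, e]
    constructor
    · rintro ⟨u, hu, hu'⟩
      rwa [← rinj _ _ hu']
    · intro hz; exact ⟨_, hz, rfl⟩
  · intro y y' hy hy' hyy
    obtain ⟨s, hs⟩ := mem_span_singleton.1 (mk_span.2 hyy)
    have s0 : s ≠ 0 := by
      rintro rfl
      exact nz hy' (by rw [zero_smul] at hs; exact hs.symm)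
    show (W0 (π y')).comap π = (W0 (π y)).comap π
    rw [show π y' = s • π y from hs.symm, a.smul s _ s0]
  · intro y z hy hz hzy
    exact a.symm _ _ (nz hy) (nz hz) hzy
  · intro ξ y h0 hξ
    rw [hT ξ hξ, mem_comap, a.memT _ _ (nz' hξ h0), mkQ_zero]
    refine or_congr Iff.rfl ⟨fun h1 w hw => h1 (π w) hw, fun h1 u hu => ?_⟩
    obtain ⟨w, rfl⟩ := (span F {x}).mkQ_surjective u
    exact h1 w hu
  · intro ξ h0 hξ
    rw [hT ξ hξ, finrank_comap hx, a.rankT _ (nz' hξ h0)]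
  · intro ξ h0 hξ E hxE hE hinv
    have h1 : E.map π ≠ ⊥ := by
      intro h2
      apply hE
      refine le_antisymm (fun v hv => mkQ_zero.1 ?_) ((span_singleton_le_iff_mem _ _).2 hxE)
      have : π v ∈ E.map π := ⟨v, hv, rfl⟩
      rwa [h2, mem_bot] at this
    have h2 := a.minT _ (nz' hξ h0) (E.map π) h1 (by
      rintro g hg _ ⟨v, hv, rfl⟩
      exact ⟨ρ g v, hinv g g.2 ((sp hξ (rs h x g ⟨ξ, hξ⟩).2).1 hg) v hv, rfl⟩)
    rw [hT ξ hξ]
    intro v hv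
    obtain ⟨w, hw, hwv⟩ := h2 hv
    have h3 : v - w ∈ span F {x} := mkQ_zero.1 (by rw [map_sub]; exact sub_eq_zero.2 hwv.symm)
    have h4 : v - w ∈ E := (span_singleton_le_iff_mem _ _).2 hxE h3
    simpa using E.add_mem h4 hw
  · rintro ξ η η' h0 hξ hη hη' ⟨u, hu, hu1⟩ ⟨u', hu', hu1'⟩
    rw [hT ξ hξ] at hu hu'
    obtain ⟨g, g1, g2⟩ := a.transOut ⟨ξ, hξ⟩ ⟨η, hη⟩ ⟨η', hη'⟩ (nz' hξ h0) ⟨π u, hu, hu1⟩
      ⟨π u', hu', hu1'⟩
    exact ⟨g, g.2, (sp hξ (rs h x g ⟨ξ, hξ⟩).2).1 g1, congrArg Subtype.val g2⟩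
  · intro ξ η h0 h0' hξ hη h1 u hu
    rw [hT η hη] at hu
    rw [hT ξ hξ] at h1
    refine a.symmT ⟨ξ, hξ⟩ ⟨η, hη⟩ (nz' hξ h0) (nz' hη h0') (fun t ht => ?_) (π u) hu
    obtain ⟨w, rfl⟩ := (span F {x}).mkQ_surjective t
    exact h1 w ht
  · intro ξ y y' h0 hξ hy hy' ny ny'
    rw [hT ξ hξ] at hy hy'
    obtain ⟨g, g1, g2⟩ := a.transIn ⟨ξ, hξ⟩ (π y) (π y') (nz' hξ h0) hy hy' (nz ny) (nz ny')
    refine ⟨g, g.2, (sp hξ (rs h x g ⟨ξ, hξ⟩).2).1 g1, mkQ_zero.1 ?_⟩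
    rw [map_sub]; exact sub_eq_zero.2 g2

variable {x : V} {c : ℕ} {W : V → Submodule F V} {T : V' → Submodule F V}

theorem Loc0.equiT (l : Loc0 ρ ρ' B x c W T) (h : Ctx ρ ρ' B) {g : G} (hg : ρ g x ∈ span F {x})
    {ξ : V'} (h0 : ξ ≠ 0) (hξ : B x ξ = 0) {y : V} (hy : y ∈ T ξ) : ρ g y ∈ T (ρ' g ξ) := by
  rw [l.mem _ _ (rne ρ' g h0) (ker_inv h hg hξ)]
  by_cases hyx : y ∈ span F {x}
  · exact Or.inl (stab_span hg hyx)
  · right
    rcases (l.mem _ _ h0 hξ).1 hy with h1 | h1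
    · exact absurd h1 hyx
    · intro w hw
      have h2 : ρ g⁻¹ w ∈ W y := by
        rw [← l.equi g y _ hg hyx]; simpa using hw
      have := h1 _ h2
      rwa [binv h, inv_inv] at this

theorem span_inj {l : V →ₗ[F] F} {s t : V} (hs : l s = 1) (ht : l t = 1)
    (e : span F {s} = span F {t}) : s = t := by
  have : s ∈ span F {t} := e ▸ mem_span_singleton_self s
  obtain ⟨a, rfl⟩ := mem_span_singleton.1 this
  rw [map_smul, ht, smul_eq_mul, mul_one] at hs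
  rw [hs, one_smul]

theorem span_c (ρ : Representation F G V) (v : V) (a b k : G)
    (e : span F {ρ a v} = span F {ρ b v}) : span F {ρ (k * a) v} = span F {ρ (k * b) v} := by
  have := congrArg (Submodule.map (ρ k)) e
  simpa only [map_span, Set.image_singleton, rmul] using this

theorem span_norm {l : V →ₗ[F] F} {v : V} (hv : l v ≠ 0) :
    span F {(l v)⁻¹ • v} = span F {v} :=
  span_singleton_smul_eq (IsUnit.mk0 _ (inv_ne_zero hv)) v

theorem exact_of_span (h : Ctx ρ ρ' B) {v v' : V} (hv : v ≠ 0) (e : v ∈ span F {v'}) :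
    ∃ (s : G) (a : F), a ≠ 0 ∧ (∀ w, ρ s w = a • w) ∧ (∀ ξ, ρ' s ξ = a⁻¹ • ξ) ∧ ρ s v = v' := by
  obtain ⟨a, rfl⟩ := mem_span_singleton.1 e
  have a0 : a ≠ 0 := by rintro rfl; simp at hv
  obtain ⟨s, s1, s2⟩ := scal h (inv_ne_zero a0)
  exact ⟨s, a⁻¹, inv_ne_zero a0, s1, s2, by rw [s1, smul_smul, inv_mul_cancel₀ a0, one_smul]⟩

theorem Loc0.trans [Fintype F] [Module.Finite F V] [Finite G] (l : Loc0 ρ ρ' B x c W T)
    (ti : TI0 ρ ρ' B x T) (h : Ctx ρ ρ' B) (h3 : F3 ρ ρ' B) (hx : x ≠ 0) {y z z' : V}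
    (hy : y ∉ span F {x}) (hz : z ∉ W y) (hz' : z' ∉ W y) :
    ∃ g, ρ g x ∈ span F {x} ∧ ρ g y ∈ span F {x, y} ∧ ρ g z = z' := by
  obtain ⟨ξ, k1, k2⟩ := sep h _ hz
  obtain ⟨ξ', k1', k2'⟩ := sep h _ hz'
  have x1 := k1 x (l.left y)
  have x1' := k1' x (l.left y)
  have n0 : ξ ≠ 0 := by rintro rfl; simp at k2
  have n0' : ξ' ≠ 0 := by rintro rfl; simp at k2'
  obtain ⟨g₁, g1, g2, g3⟩ := h3 z ξ x z' ξ' x k2 x1 hx k2' x1' hx
  have yT : y ∈ T ξ := (l.mem _ _ n0 x1).2 (Or.inr k1)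
  have yT' : y ∈ T ξ' := (l.mem _ _ n0' x1').2 (Or.inr k1')
  have y1T : ρ g₁ y ∈ T ξ' := g2 ▸ l.equiT h g3 n0 x1 yT
  have y1n : ρ g₁ y ∉ span F {x} := fun h1 => hy ((stab_span_iff g3).1 h1)
  set y₁ := ρ g₁ y with hy₁
  let H := stab ρ x ⊓ stab ρ' ξ'
  let π := (span F {x}).mkQ
  let f₁ : H → V ⧸ span F {x} := fun g => π (ρ g y₁)
  let f₂ : H → Submodule F V := fun g => span F {ρ g z'}
  have r₁ : Set.range f₁ = {u | u ∈ (T ξ').map π ∧ u ≠ 0} := by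
    ext u
    constructor
    · rintro ⟨g, rfl⟩
      refine ⟨⟨ρ g y₁, ?_, rfl⟩, fun h1 => y1n ((stab_span_iff g.2.1).1 (mkQ_zero.1 h1))⟩
      have h1 := l.equiT h g.2.1 n0' x1' y1T
      obtain ⟨s, hs⟩ := mem_span_singleton.1 g.2.2
      have s0 : s ≠ 0 := by
        rintro rfl
        exact rne ρ' g n0' (by rw [← hs, zero_smul])
      rw [l.mem _ _ (rne ρ' g n0') (ker_inv h g.2.1 x1')] at h1
      rw [SetLike.mem_coe, l.mem _ _ n0' x1']
      refine h1.imp_right fun h2 w hw => ?_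
      have := h2 w hw
      rw [← hs, map_smul, smul_eq_mul] at this
      exact (mul_eq_zero.1 this).resolve_left s0
    · rintro ⟨⟨v, hv, rfl⟩, hv0⟩
      obtain ⟨g, e1, e2, e3⟩ := ti ξ' y₁ v n0' x1' y1T hv y1n (fun h1 => hv0 (mkQ_zero.2 h1))
      refine ⟨⟨g, e1, e2⟩, ?_⟩
      have := mkQ_zero.2 e3
      rw [map_sub] at this
      exact sub_eq_zero.1 this
  have r₂ : Set.range f₂ =
      (fun v => span F {v}) '' {v | v - z' ∈ LinearMap.ker (B.flip ξ')} := by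
    ext E
    constructor
    · rintro ⟨g, rfl⟩
      have h1 : B.flip ξ' (ρ g z') ≠ 0 := by
        obtain ⟨s, hs⟩ := mem_span_singleton.1 ((stab ρ' ξ').inv_mem g.2.2)
        have s0 : s ≠ 0 := by
          rintro rfl
          exact rne ρ' (g : G)⁻¹ n0' (by rw [← hs, zero_smul])
        rw [LinearMap.flip_apply, binv h, ← hs, map_smul, k2', smul_eq_mul, mul_one]
        exact s0
      refine ⟨_, ?_, span_norm h1⟩
      rw [Set.mem_ofPred_eq, LinearMap.mem_ker, map_sub, map_smul, smul_eq_mul,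
        inv_mul_cancel₀ h1, LinearMap.flip_apply, k2', sub_self]
    · rintro ⟨v, hv, rfl⟩
      have hv1 : B v ξ' = 1 := by
        rw [Set.mem_ofPred_eq, LinearMap.mem_ker, map_sub, LinearMap.flip_apply,
          LinearMap.flip_apply, k2'] at hv
        exact sub_eq_zero.1 hv
      obtain ⟨g, e1, e2, e3⟩ := h3 z' ξ' x v ξ' x k2' x1' hx hv1 x1' hx
      refine ⟨⟨g, e3, ?_⟩, by simp only [f₂, e1]⟩
      show ρ' g ξ' ∈ span F {ξ'}
      rw [e2]; exact mem_span_singleton_self _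
  have hc : Nat.Coprime (Nat.card (Set.range f₁)) (Nat.card (Set.range f₂)) := by
    rw [r₁, r₂, Nat.card_image_of_injOn]
    · have e := card_coset (LinearMap.ker (B.flip ξ')) z'
      have e' := cop_card ((T ξ').map π) (fun h1 => hy (mkQ_zero.1 (by
        have : π y ∈ (T ξ').map π := ⟨y, yT', rfl⟩
        rwa [h1, mem_bot] at this))) (finrank F (LinearMap.ker (B.flip ξ')))
      rw [← e] at e'
      exact e'
    · intro s hs t ht e
      have k : ∀ v ∈ {v | v - z' ∈ LinearMap.ker (B.flip ξ')}, B.flip ξ' v = 1 := by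
        intro v hv
        rw [Set.mem_ofPred_eq, LinearMap.mem_ker, map_sub, LinearMap.flip_apply B z' ξ', k2'] at hv
        exact sub_eq_zero.1 hv
      exact span_inj (k s hs) (k t ht) e
  obtain ⟨b, b1, b2, b3⟩ := ti ξ' y₁ y n0' x1' y1T yT' y1n hy
  obtain ⟨g, e1, e2⟩ := cop f₁ f₂ (by
      intro a b k e
      have := congrArg (rq ρ x ⟨k, k.2.1⟩) e
      simpa only [f₁, π, rq_mk, Subgroup.coe_mul, rmul] using this)
    (fun a b k e => span_c ρ z' a b k e) hc ⟨b, b1, b2⟩ 1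
  have z0 : z' ≠ 0 := by rintro rfl; exact hz' (zero_mem _)
  have e3 : ρ g z' ∈ span F {z'} := by
    have : span F {ρ g z'} = span F {z'} := by simpa [f₂] using e2
    exact this ▸ mem_span_singleton_self _
  obtain ⟨s, a, a0, s1, -, s3⟩ := exact_of_span h (rne ρ g z0) e3
  refine ⟨s * g * g₁, ?_, ?_, ?_⟩
  · rw [rmul, rmul, s1]; exact smul_mem _ _ (stab_span g.2.1 g3)
  · rw [rmul, rmul, s1]
    refine smul_mem _ _ (mk_span.1 ?_)
    have e4 : π (ρ g y₁) = π (ρ b y₁) := e1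
    have e5 : π (ρ b y₁) = π y := by
      have := mkQ_zero.2 b3
      rw [map_sub] at this
      exact sub_eq_zero.1 this
    show π (ρ g y₁) ∈ _
    rw [e4, e5]; exact mem_span_singleton_self _
  · rw [rmul, rmul, g1, s3]

end Wt
end Cfsg.Agent.Sg
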