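import Cfsg.Agent.Sg.Wt1

set_option autoImplicit false
open Module Submodule

namespace Cfsg.Agent.Sg
namespace Wt

variable {F V V' G : Type*} [Field F] [AddCommGroup V] [Module F V]
  [AddCommGroup V'] [Module F V'] [Group G]
  {ρ : Representation F G V} {ρ' : Representation F G V'} {B : V →ₗ[F] V' →ₗ[F] F}
  {x : V} {c : ℕ} {W : V → Submodule F V} {T : V' → Submodule F V}

theorem Loc0.transIn1 [Fintype F] [Module.Finite F V] [Module.Finite F V'] [Finite G]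
    (l : Loc0 ρ ρ' B x c W T)
    (ti : TI0 ρ ρ' B x T) (h : Ctx ρ ρ' B) (h2 : T2 ρ) (h3 : F3 ρ ρ' B) (hx : x ≠ 0) {ξ : V'}
    {y₁ y : V} (n0 : ξ ≠ 0) (x1 : B x ξ = 0) (yT : y ∈ T ξ) (hy : y ∉ span F {x})
    (hy1 : y₁ - y ∈ span F {x}) :
    ∃ g, ρ g x ∈ span F {x} ∧ ρ' g ξ ∈ span F {ξ} ∧ ρ g y₁ = y := by
  let π := (span F {x}).mkQ
  have y1n : y₁ ∉ span F {x} := fun h1 => hy (by simpa using sub_mem h1 hy1)
  have πy : π y₁ = π y := by
    have := mkQ_zero.2 hy1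
    rw [map_sub] at this
    exact sub_eq_zero.1 this
  obtain ⟨ζ, z1, z2⟩ := sep h _ hy
  have kW : ∀ w ∈ W y, B w ξ = 0 := ((l.mem _ _ n0 x1).1 yT).resolve_left hy
  let H := stab (rq ρ x) (π y)
  have hH : ∀ g : H, ρ (g : stab ρ x) y ∈ span F {x, y} := fun g => mk_span.1 g.2
  let f₁ : H → V' := fun g => ρ' (g : stab ρ x) ξ
  let f₂ : H → Submodule F V := fun g => span F {ρ (g : stab ρ x) y₁}
  let A : Submodule F V' := (W y).dualAnnihilator.comap B.flip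
  have hA : ∀ η, η ∈ A ↔ ∀ w ∈ W y, B w η = 0 := fun η => by
    simp only [A, mem_comap, mem_dualAnnihilator, LinearMap.flip_apply]
  have r₁ : Set.range f₁ = {η | η ∈ A ∧ η ≠ 0} := by
    ext η
    constructor
    · rintro ⟨g, rfl⟩
      refine ⟨(hA _).2 fun w hw => ?_, rne ρ' _ n0⟩
      have g1 : ρ (g : stab ρ x) x ∈ span F {x} := (g : stab ρ x).2
      have e : W (ρ (g : stab ρ x) y) = W y :=
        l.cong _ _ hy (fun h1 => hy ((stab_span_iff g1).1 h1)) (hH g)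
      have h4 : ρ ((g : stab ρ x) : G)⁻¹ w ∈ W y := by
        rw [← l.equi _ y _ g1 hy, e]; simpa using hw
      have := kW _ h4
      rwa [binv h, inv_inv] at this
    · rintro ⟨hη, η0⟩
      have kη := (hA η).1 hη
      have xη := kη x (l.left y)
      obtain ⟨v, hv⟩ := sep0 h n0
      obtain ⟨v', hv'⟩ := sep0 h η0
      obtain ⟨g₁, -, g2, g3⟩ := h3 v ξ x v' η x hv x1 hx hv' xη hx
      have t1 : ρ g₁ y ∈ T η := g2 ▸ l.equiT h g3 n0 x1 yT
      have t2 : y ∈ T η := (l.mem _ _ η0 xη).2 (Or.inr kη)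
      obtain ⟨g₂, e1, e2, e3⟩ := ti η _ y η0 xη t1 t2 (fun h1 => hy ((stab_span_iff g3).1 h1)) hy
      obtain ⟨s, a, a0, s1, s2, s3⟩ := exact_of_span h.flip (rne ρ' g₂ η0) e2
      have m1 : s * g₂ * g₁ ∈ stab ρ x := by
        rw [mem_stab, rmul, rmul, s2]; exact smul_mem _ _ (stab_span e1 g3)
      refine ⟨⟨⟨s * g₂ * g₁, m1⟩, ?_⟩, ?_⟩
      · show π (ρ (s * g₂ * g₁) y) ∈ span F {π y}
        rw [rmul, rmul, s2, map_smul]
        refine smul_mem _ _ ?_
        have := mkQ_zero.2 e3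
        rw [map_sub] at this
        rw [show π (ρ g₂ (ρ g₁ y)) = π y from sub_eq_zero.1 this]
        exact mem_span_singleton_self _
      · show ρ' (s * g₂ * g₁) ξ = η
        rw [rmul, rmul, g2, s3]
  have one : ∀ v, v - y ∈ span F {x} → B.flip ζ v = 1 := by
    intro v hv
    have := z1 _ hv
    rw [map_sub, LinearMap.sub_apply, z2] at this
    exact sub_eq_zero.1 this
  have hit : ∀ v, v - y ∈ span F {x} → ∃ g : H, f₂ g = span F {v} := by
    intro v hv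
    have vn : v ∉ span F {x} := fun h1 => hy (by simpa using sub_mem h1 hv)
    obtain ⟨g, e1, e2⟩ := h2 x y₁ x v ⟨hx, y1n⟩ ⟨hx, vn⟩
    have m1 : g ∈ stab ρ x := by
      rw [mem_stab, e1]; exact mem_span_singleton_self _
    obtain ⟨a, ha⟩ := mem_span_singleton.1 e2
    have a0 : a ≠ 0 := by
      rintro rfl
      refine rne ρ g (v := y₁) (fun h1 => y1n (h1 ▸ zero_mem _)) ?_
      rw [← ha, zero_smul]
    refine ⟨⟨⟨g, m1⟩, ?_⟩, ?_⟩
    · show rq ρ x ⟨g, m1⟩ (π y) ∈ span F {π y}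
      have e3 : π v = π y := by
        have := mkQ_zero.2 hv
        rw [map_sub] at this
        exact sub_eq_zero.1 this
      rw [← πy]
      show π (ρ g y₁) ∈ _
      rw [← ha, map_smul, e3, πy]
      exact smul_mem _ _ (mem_span_singleton_self _)
    · show span F {ρ g y₁} = span F {v}
      rw [← ha]
      exact span_singleton_smul_eq (IsUnit.mk0 _ a0) v
  have r₂ : Set.range f₂ = (fun v => span F {v}) '' {v | v - y ∈ span F {x}} := by
    ext E
    constructor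
    · rintro ⟨g, rfl⟩
      have g1 : ρ (g : stab ρ x) x ∈ span F {x} := (g : stab ρ x).2
      have h4 : π (ρ (g : stab ρ x) y₁) ∈ span F {π y} := by
        have : rq ρ x g (π y) ∈ span F {π y} := g.2
        rw [← πy] at this
        rw [← πy]
        exact this
      obtain ⟨s, t, hst⟩ := mem_span_pair.1 (mk_span.1 h4)
      have t0 : t ≠ 0 := by
        rintro rfl
        refine y1n ((stab_span_iff g1).1 ?_)
        rw [← hst, zero_smul, add_zero]
        exact smul_mem _ _ (mem_span_singleton_self _)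
      refine ⟨t⁻¹ • ρ (g : stab ρ x) y₁, ?_,
        span_singleton_smul_eq (IsUnit.mk0 _ (inv_ne_zero t0)) _⟩
      show t⁻¹ • ρ (g : stab ρ x) y₁ - y ∈ span F {x}
      rw [← hst, smul_add, smul_smul, smul_smul, inv_mul_cancel₀ t0, one_smul, add_sub_cancel_right]
      exact smul_mem _ _ (mem_span_singleton_self _)
    · rintro ⟨v, hv, rfl⟩
      exact hit v hv
  have hc : Nat.Coprime (Nat.card (Set.range f₁)) (Nat.card (Set.range f₂)) := by
    rw [r₁, r₂, Nat.card_image_of_injOn]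
    · have e := card_coset (span F {x}) y
      have e' := cop_card A (fun h1 => n0 (by
        have : ξ ∈ A := (hA ξ).2 kW
        rwa [h1, mem_bot] at this)) (finrank F (span F {x}))
      rw [← e] at e'
      exact e'
    · intro s hs t ht e
      exact span_inj (one s hs) (one t ht) e
  obtain ⟨b, hb⟩ := hit y (by simp)
  obtain ⟨g, e1, e2⟩ := cop f₁ f₂ (by
      intro a b k e
      have := congrArg (ρ' (k : stab ρ x)) e
      simpa only [f₁, Subgroup.coe_mul, rmul] using this)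
    (fun a b k e => span_c ρ y₁ _ _ (k : stab ρ x) e) hc 1 b
  have e3 : ρ (g : stab ρ x) y₁ ∈ span F {y} := by
    have : span F {ρ (g : stab ρ x) y₁} = span F {y} := e2.trans hb
    exact this ▸ mem_span_singleton_self _
  have e4 : ρ' (g : stab ρ x) ξ = ξ := by simpa [f₁] using e1
  obtain ⟨s, a, a0, s1, s2, s3⟩ :=
    exact_of_span h (rne ρ _ (v := y₁) (fun h1 => y1n (h1 ▸ zero_mem _))) e3
  refine ⟨s * (g : stab ρ x), ?_, ?_, ?_⟩
  · rw [rmul, s1]; exact smul_mem _ _ (g : stab ρ x).2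
  · rw [rmul, e4, s2]; exact smul_mem _ _ (mem_span_singleton_self _)
  · rw [rmul, s3]

theorem Loc0.transIn [Fintype F] [Module.Finite F V] [Module.Finite F V'] [Finite G]
    (l : Loc0 ρ ρ' B x c W T)
    (ti : TI0 ρ ρ' B x T) (h : Ctx ρ ρ' B) (h2 : T2 ρ) (h3 : F3 ρ ρ' B) (hx : x ≠ 0) {ξ : V'}
    {y y' : V} (n0 : ξ ≠ 0) (x1 : B x ξ = 0) (yT : y ∈ T ξ) (yT' : y' ∈ T ξ)
    (hy : y ∉ span F {x}) (hy' : y' ∉ span F {x}) :
    ∃ g, ρ g x ∈ span F {x} ∧ ρ' g ξ ∈ span F {ξ} ∧ ρ g y = y' := by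
  obtain ⟨g₁, e1, e2, e3⟩ := ti ξ y y' n0 x1 yT yT' hy hy'
  obtain ⟨g₂, f1, f2, f3⟩ := l.transIn1 ti h h2 h3 hx n0 x1 yT' hy' e3
  exact ⟨g₂ * g₁, by rw [rmul]; exact stab_span f1 e1, by rw [rmul]; exact stab_span f2 e2,
    by rw [rmul, f3]⟩

theorem span_map_iff (ρ : Representation F G V) (k : G) {x v : V} :
    ρ k v ∈ span F {ρ k x} ↔ v ∈ span F {x} := by
  rw [mem_span_singleton, mem_span_singleton]
  exact ⟨fun ⟨a, ha⟩ => ⟨a, rinj ρ k (by rw [map_smul, ha])⟩,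
    fun ⟨a, ha⟩ => ⟨a, by rw [← map_smul, ha]⟩⟩

theorem span2_map_iff (ρ : Representation F G V) (k : G) {x y v : V} :
    ρ k v ∈ span F {ρ k x, ρ k y} ↔ v ∈ span F {x, y} := by
  rw [mem_span_pair, mem_span_pair]
  exact ⟨fun ⟨a, b, ha⟩ => ⟨a, b, rinj ρ k (by rw [map_add, map_smul, map_smul, ha])⟩,
    fun ⟨a, b, ha⟩ => ⟨a, b, by rw [← map_smul, ← map_smul, ← map_add, ha]⟩⟩

theorem finrank_comap_rho (ρ : Representation F G V) (k : G) (E : Submodule F V) :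
    finrank F (E.comap (ρ k)) = finrank F E := by
  let e : V ≃ₗ[F] V := LinearEquiv.ofLinearMap (ρ k) (ρ k⁻¹) (by ext v; simp) (by ext v; simp)
  have : E.comap (ρ k) = E.map (e.symm : V →ₗ[F] V) := by
    rw [← Submodule.comap_equiv_eq_map_symm]; rfl
  rw [this, LinearEquiv.finrank_map_eq]

/-- transport of the local structure along `k` with `ρ k x' = x` -/
theorem Loc0.conj (l : Loc0 ρ ρ' B x c W T) (h : Ctx ρ ρ' B) (ti : TI0 ρ ρ' B x T) {k : G}
    {x' : V} (hk : ρ k x' = x) :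
    Loc0 ρ ρ' B x' c (fun y => (W (ρ k y)).comap (ρ k)) (fun ξ => (T (ρ' k ξ)).comap (ρ k)) ∧
      TI0 ρ ρ' B x' (fun ξ => (T (ρ' k ξ)).comap (ρ k)) := by
  subst hk
  have s1 : ∀ {v}, v ∉ span F {x'} → ρ k v ∉ span F {ρ k x'} :=
    fun hv h1 => hv ((span_map_iff ρ k).1 h1)
  have b0 : ∀ {ξ}, B x' ξ = 0 → B (ρ k x') (ρ' k ξ) = 0 := fun hξ => by rw [h.inv, hξ]
  have back : ∀ g, ρ g (ρ k x') ∈ span F {ρ k x'} → ρ (k⁻¹ * g * k) x' ∈ span F {x'} := by
    intro g hg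
    rw [← span_map_iff ρ k, rmul, rmul]; simpa using hg
  have back' : ∀ g ξ, ρ' g (ρ' k ξ) ∈ span F {ρ' k ξ} → ρ' (k⁻¹ * g * k) ξ ∈ span F {ξ} := by
    intro g ξ hg
    rw [← span_map_iff ρ' k, rmul, rmul]; simpa using hg
  refine ⟨⟨l.c_pos, fun y => l.left _, fun y => l.right _, ?_, ?_, ?_, ?_, ?_, ?_, ?_, ?_, ?_⟩, ?_⟩
  · intro y hy
    rw [finrank_comap_rho]; exact l.rank _ (s1 hy)
  · intro g y z hg hy
    have := l.equi (k * g * k⁻¹) (ρ k y) (ρ k z) (by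
      rw [rmul, rmul]; simpa [span_map_iff] using hg) (s1 hy)
    simpa [mem_comap] using this
  · intro y y' hy hy' hyy
    show (W (ρ k y')).comap (ρ k) = (W (ρ k y)).comap (ρ k)
    rw [l.cong _ _ (s1 hy) (s1 hy') ((span2_map_iff ρ k).2 hyy)]
  · intro y z hy hz hzy
    exact l.symm _ _ (s1 hy) (s1 hz) hzy
  · intro ξ y n0 hξ
    rw [mem_comap, l.mem _ _ (rne ρ' k n0) (b0 hξ), span_map_iff]
    refine or_congr Iff.rfl ⟨fun h1 w hw => ?_, fun h1 w hw => ?_⟩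
    · rw [← h.inv k]; exact h1 _ hw
    · have := h1 (ρ k⁻¹ w) (by simpa [mem_comap] using hw)
      rwa [binv h, inv_inv] at this
  · intro ξ n0 hξ
    rw [finrank_comap_rho]; exact l.rankT _ (rne ρ' k n0) (b0 hξ)
  · intro ξ n0 hξ E hx hE hinv
    have := l.minT _ (rne ρ' k n0) (b0 hξ) (E.comap (ρ k⁻¹)) (by simpa [mem_comap] using hx) (by
      intro h1
      apply hE
      ext v
      rw [← span_map_iff ρ k, ← h1]; simp [mem_comap]) (by
      intro g g1 g2 v hv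
      have := hinv _ (back g g1) (back' g ξ g2) _ hv
      simpa [mem_comap] using this)
    intro v hv
    simpa [mem_comap] using this hv
  · rintro ξ η η' n0 hξ hη hη' ⟨u, hu, u1⟩ ⟨u', hu', u1'⟩
    obtain ⟨g, g1, g2, g3⟩ := l.transOut _ (ρ' k η) (ρ' k η') (rne ρ' k n0) (b0 hξ) (b0 hη) (b0 hη')
      ⟨ρ k u, hu, by rwa [h.inv]⟩ ⟨ρ k u', hu', by rwa [h.inv]⟩
    refine ⟨k⁻¹ * g * k, back g g1, back' g ξ g2, ?_⟩
    rw [rmul, rmul, g3]; simp
  · intro ξ η n0 n0' hξ hη h1 u hu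
    rw [← h.inv k]
    refine l.symmT _ (ρ' k η) (rne ρ' k n0) (rne ρ' k n0') (b0 hξ) (b0 hη) (fun t ht => ?_) _ hu
    have := h1 (ρ k⁻¹ t) (by simpa [mem_comap] using ht)
    rwa [binv h, inv_inv] at this
  · intro ξ y y' n0 hξ hy hy' ny ny'
    obtain ⟨g, g1, g2, g3⟩ := ti _ (ρ k y) (ρ k y') (rne ρ' k n0) (b0 hξ) hy hy' (s1 ny) (s1 ny')
    refine ⟨k⁻¹ * g * k, back g g1, back' g ξ g2, ?_⟩
    rw [← span_map_iff ρ k, rmul, rmul, map_sub]; simpa using g3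

end Wt
end Cfsg.Agent.Sg
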