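import Cfsg.Agent.Sg.Wt2

set_option autoImplicit false
open Module Submodule

namespace Cfsg.Agent.Sg
namespace Wt

variable {F V V' G : Type*} [Field F] [Fintype F] [AddCommGroup V] [Module F V] [Module.Finite F V]
  [AddCommGroup V'] [Module F V'] [Module.Finite F V'] [Group G] [Finite G]
  {ρ : Representation F G V} {ρ' : Representation F G V'} {B : V →ₗ[F] V' →ₗ[F] F}

omit [Fintype F] in
theorem finrank_two {x y : V} (h : Ind2 F x y) : finrank F (span F {x, y}) = 2 := by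
  rw [span_insert, finrank_sup_span_singleton h.2, finrank_span_singleton h.1]

omit [Fintype F] in
theorem exists_ind {x : V} (hx : x ≠ 0) (hn : 2 ≤ finrank F V) : ∃ y, Ind2 F x y := by
  have : span F {x} ≠ ⊤ := by
    intro h
    have h1 := finrank_span_singleton (K := F) hx
    rw [h, finrank_top] at h1
    omega
  obtain ⟨y, -, hy⟩ := SetLike.exists_of_lt (lt_top_iff_ne_top.2 this)
  exact ⟨y, hx, hy⟩

theorem wt_of (h : Ctx ρ ρ' B) (h2 : T2 ρ) (h3 : F3 ρ ρ' B) (hp : PT ρ) (hn : 4 ≤ finrank F V)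
    {x₀ : V} (hx₀ : x₀ ≠ 0) {c : ℕ}
    {W0 : (V ⧸ span F {x₀}) → Submodule F (V ⧸ span F {x₀})}
    {T0 : LinearMap.ker (B x₀) → Submodule F (V ⧸ span F {x₀})}
    (a : AS (rq ρ x₀) (rs h x₀) (bq B x₀) c W0 T0) :
    ∃ c W T, WS ρ c W ∧ TS ρ ρ' B c W T := by
  obtain ⟨W₀, T₀, l₀, t₀⟩ := loc0 h hx₀ a
  have hk : ∀ x : V, ∃ k : G, x ≠ 0 → ρ k x = x₀ := by
    intro x
    by_cases hx : x = 0
    · exact ⟨1, fun h1 => absurd hx h1⟩
    · obtain ⟨y, hy⟩ := exists_ind (F := F) hx (by omega)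
      obtain ⟨y₀, hy₀⟩ := exists_ind (F := F) hx₀ (by omega)
      obtain ⟨g, g1, -⟩ := h2 x y x₀ y₀ hy hy₀
      exact ⟨g, fun _ => g1⟩
  choose k hk using hk
  let W : V → V → Submodule F V := fun x y => (W₀ (ρ (k x) y)).comap (ρ (k x))
  let T : V → V' → Submodule F V := fun x ξ => (T₀ (ρ' (k x) ξ)).comap (ρ (k x))
  have L : ∀ {x}, x ≠ 0 → Loc0 ρ ρ' B x c (W x) (T x) := fun hx => (l₀.conj h t₀ (hk _ hx)).1
  have I : ∀ {x}, x ≠ 0 → TI0 ρ ρ' B x (T x) := fun hx => (l₀.conj h t₀ (hk _ hx)).2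
  have eq : ∀ g x y z, Ind2 F x y → (ρ g z ∈ W (ρ g x) (ρ g y) ↔ z ∈ W x y) := by
    intro g x y z hxy
    have e1 := hk x hxy.1
    have e2 := hk (ρ g x) (rne ρ g hxy.1)
    have := l₀.equi (k (ρ g x) * g * (k x)⁻¹) (ρ (k x) y) (ρ (k x) z) (by
      rw [rmul, rmul, ← e1, Representation.inv_self_apply, e2, e1]
      exact mem_span_singleton_self _) (by
      rw [← e1, span_map_iff]; exact hxy.2)
    simpa [W, mem_comap] using this
  have sp2 : ∀ {x y}, Ind2 F x y → span F {x, y} ≤ W x y := fun hxy =>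
    span_le.2 (by
      rintro v (rfl | rfl)
      · exact (L hxy.1).left _
      · exact (L hxy.1).right _)
  have cg : ∀ x y x' y', Ind2 F x y → Ind2 F x' y' → x' ∈ span F {x, y} → y' ∈ span F {x, y} →
      W x y ≤ W x' y' := by
    intro x y x' y' hxy hxy' hx' hy' z hz
    have e : span F {x', y'} = span F {x, y} := by
      refine Submodule.eq_of_le_of_finrank_eq (span_le.2 ?_) ?_
      · rintro v (rfl | rfl)
        · exact hx'
        · exact hy'
      · rw [finrank_two hxy, finrank_two hxy']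
    by_cases hz0 : z ∈ span F {x, y}
    · exact sp2 hxy' (e ▸ hz0)
    · let P : Submodule F V := span F {x, y} ⊔ span F {z}
      have hP : finrank F P = 3 := by
        rw [finrank_sup_span_singleton hz0, finrank_two hxy]
      have lP : span F {x, y} ≤ P := le_sup_left
      have PW : P ≤ W x y := sup_le (sp2 hxy) ((span_singleton_le_iff_mem _ _).2 hz)
      obtain ⟨g, g1, g2, g3⟩ := hp P hP x (lP (subset_span (by simp))) y
        (lP (subset_span (by simp))) x' (lP hx') y' (lP hy') hxy hxy'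
      have zP : z ∈ P.map (ρ g) := by
        rw [g1]; exact (le_sup_right : span F {z} ≤ P) (mem_span_singleton_self z)
      obtain ⟨w, hw, rfl⟩ := zP
      have h4 := (eq g x y w hxy).2 (PW hw)
      have h5 : ρ g y ∉ span F {x'} := by
        rw [← g2, span_map_iff]; exact hxy.2
      rw [g2, (L hxy'.1).cong _ _ hxy'.2 h5 g3] at h4
      exact h4
  refine ⟨c, W, T, ⟨l₀.c_pos, fun x y hxy => (L hxy.1).left _, fun x y hxy => (L hxy.1).right _,
    fun x y hxy => (L hxy.1).rank _ hxy.2, ?_, fun x y z hxy hxz => (L hxy.1).symm _ _ hxy.2 hxz.2,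
    ?_, fun x y z z' hxy hz hz' => (L hxy.1).trans (I hxy.1) h h3 hxy.1 hxy.2 hz hz'⟩,
    ⟨fun x ξ y hx => (L hx).mem ξ y, fun x ξ hx => (L hx).rankT ξ,
      fun x ξ y y' hx n0 x1 yT yT' hy hy' => (L hx).transIn (I hx) h h2 h3 hx n0 x1 yT yT' hy hy',
      fun x ξ hx => (L hx).minT ξ, fun x ξ η η' hx => (L hx).transOut ξ η η',
      fun x ξ η hx => (L hx).symmT ξ η⟩⟩
  · intro x y x' y' hxy hxy' hx' hy'
    refine (Submodule.eq_of_le_of_finrank_eq (cg x y x' y' hxy hxy' hx' hy') ?_).symm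
    have r1 := (L hxy.1).rank _ hxy.2
    have r2 := (L hxy'.1).rank _ hxy'.2
    omega
  · intro g x y hxy
    ext z
    constructor
    · intro hz
      refine ⟨ρ g⁻¹ z, ?_, by simp⟩
      rw [SetLike.mem_coe, ← eq g x y _ hxy]; simpa using hz
    · rintro ⟨w, hw, rfl⟩
      exact (eq g x y w hxy).2 hw

omit [Fintype F] in
theorem finrank_q {x : V} (hx : x ≠ 0) : finrank F (V ⧸ span F {x}) + 1 = finrank F V := by
  rw [← (span F {x}).finrank_quotient_add_finrank, finrank_span_singleton hx]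

end Wt
end Cfsg.Agent.Sg
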